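import Cfsg.Agent.FiTrans.Diameter
import Cfsg.Agent.TTLink.M23Transport

/-!
An involution whose centraliser is a perfect double cover of a group of type M(22), not weakly closed in
it: its conjugates form a class of 3-transpositions generating the group, of which the first link is of
type M(22).
-/

set_option autoImplicit false

namespace Cfsg.Agent.FiTrans

open Cfsg.Agent.TTLink Cfsg.Agent.ThreeTransp45

variable {G X : Type*} [Group G] [Finite G] [Group X] [Finite X] {E : Set X}

/-- The hypotheses. -/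
structure Hyp (d : G) (π : ↥(Subgroup.centralizer ({d} : Set G)) →* X) (E : Set X) : Prop where
  cover : ∃ h : d ∈ Subgroup.centralizer ({d} : Set G), DCover π ⟨d, h⟩
  prim : M22Prim E
  nwc : ∃ g : G, g * d * g⁻¹ ∈ Subgroup.centralizer ({d} : Set G) ∧ g * d * g⁻¹ ≠ d

variable {d : G} {π : ↥(Subgroup.centralizer ({d} : Set G)) →* X}

namespace Hyp

variable (HY : Hyp d π E)
include HY

/-- The local facts hold at every conjugate. -/
theorem tt : TT (conjugatesOf d) := by
  obtain ⟨hdC, K⟩ := HY.cover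
  have hD : ∀ x, x ∈ conjugatesOf d ↔ IsConj d x := fun x => Iff.rfl
  refine ⟨fun a ha => ?_, fun g x hx => ((hD x).1 hx).trans (isConj_iff.2 ⟨g, rfl⟩),
    fun a ha b hb => isConj_iff.1 (((hD a).1 ha).symm.trans ((hD b).1 hb)), ⟨d, mem_conjugatesOf_self⟩⟩
  obtain ⟨g, rfl⟩ := isConj_iff.1 ((hD a).1 ha)
  let e : ↥(Subgroup.centralizer ({g * d * g⁻¹} : Set G)) ≃* ↥(Subgroup.centralizer ({d} : Set G)) :=
    { toFun := fun x => ⟨cj g⁻¹ x, Subgroup.mem_centralizer_singleton_iff.2 (by
        have h := (cj_commute_iff g⁻¹ (x : G) (cj g d)).2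
          (Subgroup.mem_centralizer_singleton_iff.1 x.2)
        rw [cj_inv_cj] at h
        exact h.eq)⟩
      invFun := fun x => ⟨cj g x, Subgroup.mem_centralizer_singleton_iff.2
        ((cj_commute_iff g (x : G) d).2 (Subgroup.mem_centralizer_singleton_iff.1 x.2)).eq⟩
      left_inv := fun x => Subtype.ext (cj_cj_inv g _)
      right_inv := fun x => Subtype.ext (cj_inv_cj g _)
      map_mul' := fun x y => Subtype.ext (cj_map_mul _ _ _) }
  have haC : g * d * g⁻¹ ∈ Subgroup.centralizer ({g * d * g⁻¹} : Set G) :=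
    Subgroup.mem_centralizer_singleton_iff.2 rfl
  have hea : e ⟨g * d * g⁻¹, haC⟩ = ⟨d, hdC⟩ := Subtype.ext (cj_inv_cj g d)
  have K' : DCover (π.comp e.toMonoidHom) ⟨g * d * g⁻¹, haC⟩ := by
    refine ⟨K.surj.comp e.surjective, e.injective (by rw [map_mul, hea, map_one]; exact K.sq),
      fun h => K.ne (by rw [← hea, h, map_one]), fun c => ?_, fun c => ?_, ?_⟩
    · refine e.injective ?_
      rw [map_mul, map_mul, hea]
      exact (K.central (e c)).eq
    · show π (e c) = 1 ↔ _
      rw [K.ker, ← hea, e.injective.eq_iff, ← map_one e, e.injective.eq_iff]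
    · have := congrArg (Subgroup.map e.symm.toMonoidHom) K.perf
      rwa [commutator_def, Subgroup.map_commutator,
        Subgroup.map_top_of_surjective _ e.symm.surjective, ← commutator_def] at this
  refine loc_of_cover (fun x => ⟨fun hx => (isConj_iff.2 ⟨g, rfl⟩ : IsConj d _).symm.trans ((hD x).1 hx),
    fun hx => (isConj_iff.2 ⟨g, rfl⟩ : IsConj d _).trans hx⟩) haC K' HY.prim ?_
  obtain ⟨k, hk, hne⟩ := HY.nwc
  have e' : g * k * g⁻¹ * (g * d * g⁻¹) * (g * k * g⁻¹)⁻¹ = cj g (k * d * k⁻¹) := by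
    simp [cj, mul_assoc]
  refine ⟨g * k * g⁻¹, ?_, ?_⟩ <;> rw [e']
  · exact Subgroup.mem_centralizer_singleton_iff.2
      ((cj_commute_iff g _ d).2 (Subgroup.mem_centralizer_singleton_iff.1 hk)).eq
  · exact fun h => hne (cj_injective g h)

theorem mem : d ∈ conjugatesOf d := mem_conjugatesOf_self

theorem data : Data (conjugatesOf d) := ⟨HY.tt.tt_set, HY.tt.inv'⟩

/-- Two members which do not commute have a common neighbour. -/
theorem hcommon : ∀ y ∈ conjugatesOf d, ∀ z ∈ conjugatesOf d, ¬ Commute y z →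
    ∃ w ∈ conjugatesOf d, y ∈ link (conjugatesOf d) w ∧ z ∈ link (conjugatesOf d) w := by
  intro y hy z hz hyz
  obtain ⟨w, hw, hwy, hwz⟩ := HY.tt.common hy hz hyz
  exact ⟨w, hw, ⟨hy, fun e => hyz (e ▸ hwz), hwy⟩, ⟨hz, fun e => hyz (e ▸ hwy.symm), hwz⟩⟩

/-- The conjugates generate. -/
theorem closure_eq : Subgroup.closure (conjugatesOf d) = ⊤ := by
  have hT := HY.tt
  set D := conjugatesOf d
  set L := Subgroup.closure D
  have hCL : ∀ a ∈ D, ∀ g, Commute g a → g ∈ L := fun a ha g hg => by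
    have h1 : g ∈ Subgroup.closure (link D a) :=
      (hT.loc a ha).closure ▸ Subgroup.mem_centralizer_singleton_iff.2 hg.eq
    exact Subgroup.closure_mono (fun y hy => hy.1) h1
  have step : ∀ a ∈ D, ∀ b ∈ link D a, ∃ l ∈ L, cj l a = b := by
    intro a ha b hb
    obtain ⟨c, hca, hcb⟩ : (link D a ∩ link D b).Nonempty := by
      refine Set.nonempty_of_ncard_ne_zero fun h => ?_
      have := (hT.loc a ha).common_odd b hb
      rw [h] at this
      exact Nat.not_odd_zero this
    obtain ⟨l, hl, hle⟩ := (hT.loc c hca.1).trans a (link_symm ha hca) b (link_symm hb.1 hcb)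
    exact ⟨l, hCL c hca.1 l hl, hle⟩
  have conn : ∀ b ∈ D, ∃ l ∈ L, cj l d = b := by
    intro b hb
    by_cases hbd : b = d
    · exact ⟨1, L.one_mem, by rw [hbd, cj_one]⟩
    by_cases hc : Commute d b
    · exact step d HY.mem b ⟨hb, hbd, hc⟩
    · obtain ⟨w, hw, hdw, hbw⟩ := HY.hcommon d HY.mem b hb hc
      obtain ⟨l₁, h1, e1⟩ := step d HY.mem w (link_symm hw hdw)
      obtain ⟨l₂, h2, e2⟩ := step w hw b hbw
      exact ⟨l₂ * l₁, L.mul_mem h2 h1, by rw [cj_mul, e1, e2]⟩
  refine eq_top_iff.2 fun g _ => ?_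
  obtain ⟨l, hl, hle⟩ := conn _ (hT.inv' g d HY.mem)
  have h1 : Commute (l⁻¹ * g) d := (cj_eq_self_iff _ _).1 (by rw [cj_mul, ← hle, cj_inv_cj])
  have := L.mul_mem hl (hCL d HY.mem _ h1)
  rwa [mul_inv_cancel_left] at this

theorem ttClass : Cfsg.IsThreeTranspositionClass (conjugatesOf d) :=
  ⟨HY.tt.tt_set, ⟨d, HY.mem, rfl⟩, HY.closure_eq⟩

theorem center : Subgroup.center G = ⊥ := by
  obtain ⟨hdC, K⟩ := HY.cover
  refine (Subgroup.eq_bot_iff_forall _).2 fun z hz => ?_
  have hzC : z ∈ Subgroup.centralizer ({d} : Set G) :=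
    Subgroup.mem_centralizer_singleton_iff.2 (Subgroup.mem_center_iff.1 hz d).symm
  have h1 : π ⟨z, hzC⟩ ∈ Subgroup.center X := Subgroup.mem_center_iff.2 fun x => by
    obtain ⟨c, rfl⟩ := K.surj x
    rw [← map_mul, ← map_mul]
    exact congrArg π (Subtype.ext (Subgroup.mem_center_iff.1 hz c))
  rw [HY.prim.type.1, Subgroup.mem_bot, K.ker] at h1
  rcases h1 with h | h
  · exact congrArg Subtype.val h
  · exfalso
    obtain ⟨g, -, hne⟩ := HY.nwc
    have hd : z = d := congrArg Subtype.val h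
    refine hne ?_
    rw [← hd, Subgroup.mem_center_iff.1 hz g, mul_inv_cancel_right]

/-- The first link modulo its centre is of type M(22). -/
theorem link_type : Cfsg.IsOfTypeM22
    (↥(Subgroup.closure (link (conjugatesOf d) d)) ⧸
      Subgroup.center ↥(Subgroup.closure (link (conjugatesOf d) d)))
    ((QuotientGroup.mk : ↥(Subgroup.closure (link (conjugatesOf d) d)) → _) ''
      linkSet (conjugatesOf d) d) := by
  obtain ⟨hdC, K⟩ := HY.cover
  have P := HY.prim
  obtain ⟨τ, hτ, hcap⟩ := exists_link_sec hdC K P HY.nwc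
  set L := Subgroup.closure (link (conjugatesOf d) d)
  have hL : L = Subgroup.centralizer ({d} : Set G) := (HY.tt.loc d HY.mem).closure
  set φ : ↥L →* X := π.comp (MulEquiv.subgroupCongr hL).toMonoidHom with hφ
  have hφs : Function.Surjective φ := K.surj.comp (MulEquiv.subgroupCongr hL).surjective
  have hker : φ.ker = Subgroup.center ↥L := by
    ext x
    constructor
    · intro hx
      refine Subgroup.mem_center_iff.2 fun y => (MulEquiv.subgroupCongr hL).injective ?_
      rw [map_mul, map_mul]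
      rcases (K.ker (MulEquiv.subgroupCongr hL x)).1 (MonoidHom.mem_ker.1 hx :) with h | h
      · rw [h, one_mul, mul_one]
      · rw [h]; exact (K.central _).eq.symm
    · intro hx
      have h1 : φ x ∈ Subgroup.center X := Subgroup.mem_center_iff.2 fun y => by
        obtain ⟨c, rfl⟩ := hφs y
        rw [← map_mul, ← map_mul, Subgroup.mem_center_iff.1 hx c]
      rwa [P.type.1, Subgroup.mem_bot] at h1
  let f : (↥L ⧸ Subgroup.center ↥L) ≃* X :=
    (QuotientGroup.quotientMulEquivOfEq hker.symm).trans (QuotientGroup.quotientKerEquivOfSurjective φ hφs)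
  have hf : ∀ x : ↥L, f (QuotientGroup.mk x) = φ x := fun x => rfl
  refine typeM22_equiv f.symm ?_ P.type
  ext q
  constructor
  · rintro ⟨u, hu, rfl⟩
    have hmem : (τ u : G) ∈ link (conjugatesOf d) d := by
      refine ⟨(hcap (τ u)).2 (Or.inr ⟨u, hu, rfl⟩), fun h => ThreeTransp.ne_one P.data.set hu ?_,
        (Subgroup.mem_centralizer_singleton_iff.1 (τ u).2).symm⟩
      rw [← hτ.map u hu, show τ u = ⟨d, hdC⟩ from Subtype.ext h, K.map_d]
    refine ⟨⟨(τ u : G), Subgroup.subset_closure hmem⟩, hmem, ?_⟩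
    rw [← f.symm_apply_apply (QuotientGroup.mk _), hf]
    exact congrArg f.symm ((congrArg π (Subtype.ext rfl)).trans (hτ.map u hu))
  · rintro ⟨x, hx, rfl⟩
    obtain ⟨hxD, hxd, hxc⟩ := hx
    have hxC : (x : G) ∈ Subgroup.centralizer ({d} : Set G) := hL ▸ x.2
    rcases (hcap ⟨x, hxC⟩).1 hxD with h | ⟨u, hu, h⟩
    · exact absurd (congrArg Subtype.val h) hxd
    · refine ⟨u, hu, ?_⟩
      rw [← f.symm_apply_apply (QuotientGroup.mk x), hf]
      exact congrArg f.symm ((hτ.map u hu).symm.trans (congrArg π (Subtype.ext (congrArg Subtype.val h).symm)))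

end Hyp

end Cfsg.Agent.FiTrans
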