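import Cfsg.Agent.FiTrans.PairMap
import Cfsg.Agent.TTLink.M22Order
import Cfsg.Agent.TTLink.M24Graph
import Cfsg.Agent.TTLink.PairGroup

/-!
A link carries the graph of the transpositions of type M(22): counts, the variance bound for sets of common
neighbours, and the uniqueness of far members.
-/

set_option autoImplicit false

namespace Cfsg.Agent.FiTrans

open Cfsg.Agent.TTLink Cfsg.Agent.ThreeTransp45 Cfsg.Agent.SporB

variable {G X : Type*} [Group G] [Group X] {E : Set X}

/-- The transpositions of `E` as the neighbours of `a`. -/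
structure LinkEmb (D : Set G) (a : G) (E : Set X) (e : X → G) : Prop where
  inj : Set.InjOn e E
  img : e '' E = link D a
  comm : ∀ u ∈ E, ∀ v ∈ E, (Commute (e u) (e v) ↔ Commute u v)
  conj : ∀ u ∈ E, ∀ v ∈ E, cj (e u) (e v) = e (cj u v)
  act : ∀ h : X, ∃ g, Commute g a ∧ ∀ u ∈ E, cj g (e u) = e (cj h u)

namespace LinkEmb

variable {D : Set G} {a : G} {e : X → G} (J : LinkEmb D a E e)
include J

theorem image_link {u : X} (hu : u ∈ E) : e '' link E u = link D a ∩ link D (e u) := by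
  ext y
  constructor
  · rintro ⟨v, ⟨hv, hne, hc⟩, rfl⟩
    have hy : e v ∈ link D a := J.img ▸ ⟨v, hv, rfl⟩
    exact ⟨hy, hy.1, fun h => hne (J.inj hv hu h), (J.comm u hu v hv).2 hc⟩
  · rintro ⟨hy, -, hne, hc⟩
    obtain ⟨v, hv, rfl⟩ : y ∈ e '' E := J.img ▸ hy
    exact ⟨v, ⟨hv, fun h => hne (by rw [h]), (J.comm u hu v hv).1 hc⟩, rfl⟩

variable [Finite G] [Finite X] (P : M22Prim E)
include P

omit [Finite G] in
theorem deg : (link D a).ncard = 3510 := by
  rw [← J.img, J.inj.ncard_image, P.srg.card]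

omit [Finite G] in
theorem adj {b : G} (hb : b ∈ link D a) : (link D a ∩ link D b).ncard = 693 := by
  obtain ⟨u, hu, rfl⟩ : b ∈ e '' E := J.img ▸ hb
  rw [← J.image_link hu, (J.inj.mono fun v hv => hv.1).ncard_image, P.srg.deg u hu]

omit [Finite G] in
theorem three {b c : G} (hb : b ∈ link D a) (hc : c ∈ link D a) (hbc : ¬ Commute b c) :
    (link D a ∩ (link D b ∩ link D c)).ncard = 126 := by
  obtain ⟨u, hu, rfl⟩ : b ∈ e '' E := J.img ▸ hb
  obtain ⟨v, hv, rfl⟩ : c ∈ e '' E := J.img ▸ hc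
  have he : link D a ∩ (link D (e u) ∩ link D (e v)) = e '' (link E u ∩ link E v) := by
    rw [J.inj.image_inter (fun w hw => hw.1) (fun w hw => hw.1), J.image_link hu, J.image_link hv]
    ext y
    simp only [Set.mem_inter_iff]
    tauto
  rw [he, (J.inj.mono fun w hw => hw.1.1).ncard_image,
    P.srg.far u hu v hv fun h => hbc ((J.comm u hu v hv).2 h)]

omit [Finite G] in
theorem trans_far {x y z : G} (hx : x ∈ link D a) (hy : y ∈ link D a) (hz : z ∈ link D a)
    (hxy : ¬ Commute x y) (hxz : ¬ Commute x z) : ∃ g, Commute g a ∧ cj g x = x ∧ cj g y = z := by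
  obtain ⟨u, hu, rfl⟩ : x ∈ e '' E := J.img ▸ hx
  obtain ⟨v, hv, rfl⟩ : y ∈ e '' E := J.img ▸ hy
  obtain ⟨w, hw, rfl⟩ : z ∈ e '' E := J.img ▸ hz
  obtain ⟨h, h1, h2⟩ := P.far_pairs hu hv hw (fun c => hxy ((J.comm u hu v hv).2 c))
    fun c => hxz ((J.comm u hu w hw).2 c)
  obtain ⟨g, hg, hge⟩ := J.act h
  exact ⟨g, hg, by rw [hge u hu, h1], by rw [hge v hv, h2]⟩

/-- A set of 126-valent neighbours of size at most 351 with at least as many others seeing none of them
as are missing from 351 has size exactly 351 and there are no others. -/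
theorem closed_count {M Z : Set G} (hM : M ⊆ link D a) (hne : M.Nonempty)
    (hs : ∀ x ∈ M, (link D a ∩ link D x ∩ M).ncard = 126) (hZ : Z ⊆ link D a) (hZM : ∀ z ∈ Z, z ∉ M)
    (hZ0 : ∀ z ∈ Z, link D z ∩ M = ∅) (hle : M.ncard ≤ 351) (hge : 351 ≤ M.ncard + Z.ncard) :
    M.ncard = 351 ∧ Z = ∅ := by
  classical
  have pre : ∀ S ⊆ link D a, e '' {u | u ∈ E ∧ e u ∈ S} = S := fun S hS => Set.ext fun y =>
    ⟨fun ⟨u, hu, h⟩ => h ▸ hu.2, fun hy => by
      obtain ⟨u, hu, rfl⟩ : y ∈ e '' E := J.img ▸ hS hy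
      exact ⟨u, ⟨hu, hy⟩, rfl⟩⟩
  have card : ∀ S ⊆ link D a, {u | u ∈ E ∧ e u ∈ S}.ncard = S.ncard := fun S hS => by
    conv_rhs => rw [← pre S hS, (J.inj.mono fun v hv => hv.1).ncard_image]
  have h := variance_zeros P.srg (M := {u | u ∈ E ∧ e u ∈ M}) (fun u hu => hu.1) (s := 126) (by
      intro u hu
      rw [← hs (e u) hu.2, ← J.image_link hu.1]
      conv_rhs => rw [← pre M hM, ← J.inj.image_inter (fun w hw => hw.1) (fun w hw => hw.1),
        (J.inj.mono fun w hw => hw.1.1).ncard_image])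
    (Z := {u | u ∈ E ∧ e u ∈ Z}) (fun u hu => hu.1) (fun u hu hu' => hZM _ hu.2 hu'.2) (by
      intro u hu
      refine Set.eq_empty_iff_forall_notMem.2 fun v hv => ?_
      have h1 : e v ∈ link D a ∩ link D (e u) := J.image_link hu.1 ▸ ⟨v, hv.1, rfl⟩
      exact Set.eq_empty_iff_forall_notMem.1 (hZ0 _ hu.2) (e v) ⟨h1.2, hv.2.2⟩)
  rw [card M hM, card Z hZ] at h
  have hm0 : 0 < M.ncard := (Set.ncard_pos (Set.toFinite _)).2 hne
  push_cast at h
  set m : ℤ := (M.ncard : ℤ) with hm
  set z : ℤ := (Z.ncard : ℤ) with hz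
  have h1 : (0 : ℤ) < m := by rw [hm]; exact_mod_cast hm0
  have h2 : m ≤ 351 := by rw [hm]; exact_mod_cast hle
  have h3 : (351 : ℤ) ≤ m + z := by rw [hm, hz]; exact_mod_cast hge
  have h4 : 321489 * m ^ 2 ≤ m * ((3510 - m - z) * (126 * m - 8505)) := by linarith
  have h5 : 321489 * m ≤ (3510 - m - z) * (126 * m - 8505) :=
    le_of_mul_le_mul_left (by linarith) h1
  have hA : 0 < 3510 - m - z ∨ 3510 - m - z ≤ 0 := lt_or_ge _ _
  have hm351 : m = 351 := by
    rcases hA with hA | hA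
    · have : 0 < 126 * m - 8505 := by
        by_contra hb
        have := mul_nonpos_of_nonneg_of_nonpos hA.le (not_lt.1 hb)
        linarith
      nlinarith
    · have h6 : 3510 - m - z ≤ 0 := hA
      by_contra hne'
      have hb : 126 * m - 8505 < 0 := by
        by_contra hb
        have := mul_nonpos_of_nonpos_of_nonneg h6 (not_lt.1 hb)
        linarith
      have hzb : z ≤ 3510 := by
        have : Z.ncard ≤ 3510 := J.deg P ▸ Set.ncard_le_ncard hZ (by
          rw [← J.img]; exact (Set.toFinite E).image e)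
        rw [hz]; exact_mod_cast this
      nlinarith
  refine ⟨by rw [hm] at hm351; exact_mod_cast hm351, (Set.ncard_eq_zero ((Set.toFinite _).subset (fun x hx => hx))).1 ?_⟩
  rw [hm351] at h5
  have : z ≤ 0 := by linarith
  rw [hz] at this
  omega

end LinkEmb

variable [Finite G] [Finite X] {d : G} {π : ↥(Subgroup.centralizer ({d} : Set G)) →* X}

namespace Hyp

variable (HY : Hyp d π E)
include HY

theorem linkEmb {a : G} (ha : a ∈ conjugatesOf d) : ∃ e : X → G, LinkEmb (conjugatesOf d) a E e := by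
  obtain ⟨π₁, HY₁, hcl⟩ := HY.at_conj ha
  obtain ⟨τ, hτ, hlink⟩ := HY₁.exists_link_sec'
  obtain ⟨haC, K⟩ := HY₁.cover
  have P := HY.prim
  rw [hcl] at hlink
  refine ⟨fun u => (τ u : G), fun u hu v hv h => by rw [← hτ.map u hu, Subtype.ext h, hτ.map v hv],
    Set.ext fun y => ⟨fun ⟨u, hu, h⟩ => (hlink y).2 ⟨u, hu, h.symm⟩, fun hy => by
      obtain ⟨u, hu, rfl⟩ := (hlink y).1 hy; exact ⟨u, hu, rfl⟩⟩, fun u hu v hv => ?_, fun u hu v hv => ?_,
    fun h => ?_⟩
  · constructor
    · intro h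
      have := (show Commute (τ u) (τ v) from Subtype.ext h).map π₁
      rwa [hτ.map u hu, hτ.map v hv] at this
    · intro h
      exact congrArg Subtype.val (K.sec_comm P hτ hu hv h).eq
  · have h1 := congrArg Subtype.val (hτ.conj (τ u) v hv)
    rw [hτ.map u hu] at h1
    exact h1
  · obtain ⟨c, rfl⟩ := K.surj h
    exact ⟨c, Subgroup.mem_centralizer_singleton_iff.1 c.2, fun u hu => congrArg Subtype.val (hτ.conj c u hu)⟩

/-- The members far from `a` form one orbit of its centraliser. -/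
theorem trans_far {a y y' : G} (ha : a ∈ conjugatesOf d) (hy : y ∈ conjugatesOf d) (hy' : y' ∈ conjugatesOf d)
    (hay : ¬ Commute a y) (hay' : ¬ Commute a y') : ∃ g, Commute g a ∧ cj g y = y' := by
  have hT := HY.tt
  obtain ⟨w, hw, hwa, hwy⟩ := hT.common ha hy hay
  obtain ⟨w', hw', hwa', hwy'⟩ := hT.common ha hy' hay'
  have hwl : w ∈ link (conjugatesOf d) a := ⟨hw, fun e => hay (e ▸ hwy), hwa.symm⟩
  have hwl' : w' ∈ link (conjugatesOf d) a := ⟨hw', fun e => hay' (e ▸ hwy'), hwa'.symm⟩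
  obtain ⟨c, hc, hcw⟩ := (hT.loc a ha).trans w hwl w' hwl'
  obtain ⟨e, J⟩ := HY.linkEmb hw'
  have hcy : cj c y ∈ conjugatesOf d := hT.inv' c y hy
  have hac : ¬ Commute a (cj c y) := fun h => hay ((cj_commute_iff c a y).1 (by rwa [(cj_eq_self_iff c a).2 hc]))
  have hcyw : Commute w' (cj c y) := by rw [← hcw]; exact (cj_commute_iff c w y).2 hwy
  obtain ⟨g, -, hga, hgy⟩ := J.trans_far HY.prim (link_symm ha hwl')
    (⟨hcy, fun e => hac (e ▸ hwa'.symm), hcyw⟩ : cj c y ∈ link (conjugatesOf d) w')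
    (⟨hy', fun e => hay' (e ▸ hwa'.symm), hwy'⟩ : y' ∈ link (conjugatesOf d) w') hac hay'
  exact ⟨g * c, ((cj_eq_self_iff g a).1 hga).mul_left hc, by rw [cj_mul, hgy]⟩

/-- The uniqueness of far members. -/
theorem farUnique : FarUnique (conjugatesOf d) := by
  intro a ha b hb y hy hab hay hall
  obtain ⟨w, hw, hwa, hwb⟩ := HY.tt.common ha hb hab
  have hwl : w ∈ link (conjugatesOf d) a ∩ link (conjugatesOf d) b :=
    ⟨⟨hw, fun e => hab (e ▸ hwb), hwa.symm⟩, hw, fun e => hab (e ▸ hwa.symm), hwb.symm⟩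
  obtain ⟨e, J⟩ := HY.linkEmb hw
  have hyw : y ∈ link (conjugatesOf d) w :=
    ⟨hy, fun h => hay (h ▸ hwa.symm), hall w hwl⟩
  obtain ⟨u, hu, rfl⟩ : a ∈ e '' E := J.img ▸ link_symm ha hwl.1
  obtain ⟨v, hv, rfl⟩ : b ∈ e '' E := J.img ▸ link_symm hb hwl.2
  obtain ⟨r, hr, rfl⟩ : y ∈ e '' E := J.img ▸ hyw
  have hcs : ∀ s ∈ link E u ∩ link E v, Commute s r := fun s hs => by
    have h1 : e s ∈ link (conjugatesOf d) w ∩ link (conjugatesOf d) (e u) := J.image_link hu ▸ ⟨s, hs.1, rfl⟩
    have h2 : e s ∈ link (conjugatesOf d) w ∩ link (conjugatesOf d) (e v) := J.image_link hv ▸ ⟨s, hs.2, rfl⟩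
    exact (J.comm s hs.1.1 r hr).1 (hall (e s) ⟨h1.2, h2.2⟩)
  rcases HY.prim.lineData.unique u hu v hv r hr (fun h => hab ((J.comm u hu v hv).2 h))
    (fun h => hay ((J.comm u hu r hr).2 h)) hcs with h | h
  · exact Or.inl (by rw [h])
  · exact Or.inr (by rw [h, J.conj u hu v hv])

theorem lineData : LineData (conjugatesOf d) :=
  ⟨HY.data, HY.farUnique, fun a ha b hb hab => by
    obtain ⟨w, hw, hwa, hwb⟩ := HY.tt.common ha hb hab
    exact ⟨w, ⟨hw, fun e => hab (e ▸ hwb), hwa.symm⟩, hw, fun e => hab (e ▸ hwa.symm), hwb.symm⟩⟩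

theorem deg {a : G} (ha : a ∈ conjugatesOf d) : (link (conjugatesOf d) a).ncard = 3510 := by
  obtain ⟨e, J⟩ := HY.linkEmb ha
  exact J.deg HY.prim

theorem three {a b c : G} (ha : a ∈ conjugatesOf d) (hb : b ∈ link (conjugatesOf d) a)
    (hc : c ∈ link (conjugatesOf d) a) (hbc : ¬ Commute b c) :
    (link (conjugatesOf d) a ∩ (link (conjugatesOf d) b ∩ link (conjugatesOf d) c)).ncard = 126 := by
  obtain ⟨e, J⟩ := HY.linkEmb ha
  exact J.three HY.prim hb hc hbc

/-- When there are 31671 members, two non-commuting ones have 351 common neighbours. -/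
theorem far_of_card (hcard : (conjugatesOf d).ncard = 31671) {y : G} (hy : y ∈ conjugatesOf d)
    (hdy : ¬ Commute d y) : (link (conjugatesOf d) d ∩ link (conjugatesOf d) y).ncard = 351 := by
  classical
  letI : Fintype G := Fintype.ofFinite G
  set D := conjugatesOf d
  set μ := (link D d ∩ link D y).ncard with hμ
  set S : Finset G := (link D d).toFinset
  set T : Finset G := {z | z ∈ D ∧ ¬ Commute d z}.toFinset
  have hS : ∀ w ∈ S, (T.filter fun z => Commute w z).card = 2816 := by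
    intro w hw
    have hw' : w ∈ link D d := by simpa [S] using hw
    obtain ⟨e, J⟩ := HY.linkEmb hw'.1
    have hset : (↑(T.filter fun z => Commute w z) : Set G) =
        link D w \ insert d (link D w ∩ link D d) := by
      ext z
      simp only [T, Finset.coe_filter, Set.mem_toFinset, Set.mem_setOf_eq]
      constructor
      · rintro ⟨⟨hz, hdz⟩, hwz⟩
        refine ⟨⟨hz, fun h => hdz (h ▸ hw'.2.2), hwz⟩, ?_⟩
        rintro (h | h)
        · exact hdz (h ▸ Commute.refl d)
        · exact hdz h.2.2.2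
      · rintro ⟨hz, hn⟩
        refine ⟨⟨hz.1, fun h => hn ?_⟩, hz.2.2⟩
        by_cases e : z = d
        · exact Or.inl e
        · exact Or.inr ⟨hz, hz.1, e, h⟩
    have hsub : insert d (link D w ∩ link D d) ⊆ link D w :=
      Set.insert_subset (link_symm HY.mem hw') Set.inter_subset_left
    rw [← Set.ncard_coe_finset, hset, Set.ncard_sdiff hsub (Set.toFinite _), J.deg HY.prim,
      Set.ncard_insert_of_notMem (fun h => h.2.2.1 rfl) (Set.toFinite _),
      J.adj HY.prim (link_symm HY.mem hw')]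
  have hT : ∀ z ∈ T, (S.filter fun w => Commute w z).card = μ := by
    intro z hz
    have hz' : z ∈ D ∧ ¬ Commute d z := by simpa [T] using hz
    obtain ⟨g, hgd, hgy⟩ := HY.trans_far HY.mem hy hz'.1 hdy hz'.2
    have hset : (↑(S.filter fun w => Commute w z) : Set G) = link D d ∩ link D z := by
      ext w
      simp only [S, Finset.coe_filter, Set.mem_toFinset, Set.mem_setOf_eq]
      constructor
      · rintro ⟨hw, hwz⟩
        exact ⟨hw, hw.1, fun h => hz'.2 (h ▸ hw.2.2), hwz.symm⟩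
      · rintro ⟨hw, hw'⟩
        exact ⟨hw, hw'.2.2.symm⟩
    rw [← Set.ncard_coe_finset, hset, hμ]
    have e : cj g '' (link D d ∩ link D y) = link D d ∩ link D z := by
      rw [Set.image_inter (cj_injective g), link_image HY.data, link_image HY.data,
        (cj_eq_self_iff g d).2 hgd, hgy]
    rw [← e, Set.ncard_image_of_injective _ (cj_injective g)]
  have hTc : T.card = 28160 := by
    have hset : (↑T : Set G) = D \ insert d (link D d) := by
      ext z
      simp only [T, Set.coe_toFinset, Set.mem_setOf_eq]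
      constructor
      · rintro ⟨hz, hdz⟩
        refine ⟨hz, ?_⟩
        rintro (h | h)
        · exact hdz (h ▸ Commute.refl d)
        · exact hdz h.2.2
      · rintro ⟨hz, hn⟩
        exact ⟨hz, fun h => hn (by by_cases e : z = d; exacts [Or.inl e, Or.inr ⟨hz, e, h⟩])⟩
    rw [← Set.ncard_coe_finset, hset, Set.ncard_sdiff (Set.insert_subset HY.mem fun z hz => hz.1)
      (Set.toFinite _), hcard, Set.ncard_insert_of_notMem (fun h => h.2.1 rfl) (Set.toFinite _), HY.deg HY.mem]
  have hSc : S.card = 3510 := by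
    rw [← Set.ncard_coe_finset, show (↑S : Set G) = link D d from Set.coe_toFinset _, HY.deg HY.mem]
  have h := Finset.card_mul_eq_card_mul (fun w z : G => Commute w z) (s := S) (t := T) hS hT
  rw [hSc, hTc] at h
  omega

end Hyp

end Cfsg.Agent.FiTrans
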