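import Cfsg.Agent.TTLink.M22DoubleSplit

/-!
Two perfect double covers of isomorphic groups of type M(22) are isomorphic over the isomorphism.
-/

set_option autoImplicit false

namespace Cfsg.Agent.FiTrans

open Cfsg.Agent.TTLink Cfsg.Agent.ThreeTransp45 Cfsg.Agent.SporB

variable {X X' C C' : Type*} [Group X] [Group X'] [Group C] [Group C'] {E : Set X}
  {π : C →* X} {π' : C' →* X'} {d : C} {d' : C'}

/-- A maximal set and a hexad in it. -/
theorem exists_hexad [Finite X] (P : M22Prim E) : ∃ W : Set X, MaxSet E W ∧ ∃ m : List X,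
    m.Nodup ∧ InSet W m ∧ m.length = 6 ∧ m.prod = 1 := by
  obtain ⟨S⟩ : Nonempty (Sylow 2 X) := inferInstance
  set W : Set X := {x | x ∈ E ∧ x ∈ (S : Subgroup X)}
  have hW : MaxSet E W := ⟨fun x hx => hx.1,
    fun x hx y hy => P.data.commute_of_mem_pGroup S.isPGroup' hx.1 hy.1 hx.2 hy.2,
    (P.sylow_transpositions S).1⟩
  obtain ⟨x, hx, y, hy, hxy⟩ := (Set.one_lt_ncard (Set.toFinite _)).1
    (by rw [hW.card]; norm_num : 1 < W.ncard)
  obtain ⟨z, hz, hzn⟩ := Set.exists_mem_notMem_of_ncard_lt_ncard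
    (s := ({x, y} : Set X)) (t := W) (by rw [hW.card, Set.ncard_pair hxy]; norm_num)
  simp only [Set.mem_insert_iff, Set.mem_singleton_iff, not_or] at hzn
  have f := hW.fac hx hy hz hxy (Ne.symm hzn.1) (Ne.symm hzn.2)
  obtain ⟨m, hm, hlen, hprod, hmem⟩ := P.hset_list f
  exact ⟨W, hW, m, hm.nodup, fun y' hy' => P.hset_subset hW hx hy hz ((hmem y').1 hy'), hlen, hprod⟩

/-- Two perfect double covers are isomorphic over an isomorphism of the groups covered. -/
theorem exists_cover_iso [Finite X] [Finite X'] [Finite C] [Finite C'] (K : DCover π d)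
    (K' : DCover π' d') (P : M22Prim E) {E' : Set X'} (P' : M22Prim E') (e : X ≃* X') (hE : e '' E = E') :
    ∃ f : C ≃* C', (∀ c, π' (f c) = e (π c)) ∧ f d = d' := by
  classical
  let F : Subgroup (C × C') :=
    { carrier := {p | e (π p.1) = π' p.2}
      one_mem' := by simp
      mul_mem' := fun {p q} hp hq => by
        show e (π (p.1 * q.1)) = π' (p.2 * q.2)
        rw [map_mul, map_mul, map_mul, hp, hq]
      inv_mem' := fun {p} hp => by
        show e (π p.1⁻¹) = π' p.2⁻¹
        rw [map_inv, map_inv, map_inv, hp] }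
  let L : Subgroup (C × C') := ⁅F, F⁆
  have hLF : L ≤ F := Subgroup.commutator_le_self F
  have lift₁ : ∀ c, ∃ c', (c, c') ∈ F := fun c => by
    obtain ⟨c', h⟩ := K'.surj (e (π c)); exact ⟨c', h.symm⟩
  have lift₂ : ∀ c', ∃ c, (c, c') ∈ F := fun c' => by
    obtain ⟨c, h⟩ := K.surj (e.symm (π' c'))
    exact ⟨c, show e (π c) = π' c' by rw [h, e.apply_symm_apply]⟩
  have hd1 : ((d, 1) : C × C') ∈ F := show e (π d) = π' 1 by rw [K.map_d, map_one, map_one]
  have hd2 : ((1, d') : C × C') ∈ F := show e (π 1) = π' d' by rw [K'.map_d, map_one, map_one]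
  have fst_top : L.map (MonoidHom.fst C C') = ⊤ := by
    have h : F.map (MonoidHom.fst C C') = ⊤ := eq_top_iff.2 fun c _ => by
      obtain ⟨c', h⟩ := lift₁ c; exact ⟨_, h, rfl⟩
    rw [Subgroup.map_commutator, h, ← commutator_def, K.perf]
  have snd_top : L.map (MonoidHom.snd C C') = ⊤ := by
    have h : F.map (MonoidHom.snd C C') = ⊤ := eq_top_iff.2 fun c _ => by
      obtain ⟨c', h⟩ := lift₂ c; exact ⟨_, h, rfl⟩
    rw [Subgroup.map_commutator, h, ← commutator_def, K'.perf]
  -- the derived subgroup contains neither central involution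
  have not_both : ((d, 1) : C × C') ∈ L ∨ ((1, d') : C × C') ∈ L → False := by
    intro hor
    have full : L = F := by
      refine le_antisymm hLF fun p hp => ?_
      rcases hor with h | h
      · obtain ⟨l, hl, hl2⟩ : p.2 ∈ L.map (MonoidHom.snd C C') := snd_top ▸ Subgroup.mem_top _
        have hl2' : l.2 = p.2 := hl2
        have hπ : π l.1 = π p.1 := e.injective
          ((show e (π l.1) = π' l.2 from hLF hl).trans (hl2'.symm ▸ (show e (π p.1) = π' p.2 from hp).symm))
        rcases K.eq_or hπ with h1 | h1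
        · rwa [show p = l from Prod.ext h1 hl2'.symm]
        · rw [show p = l * (d, 1) from Prod.ext h1 (by simp [hl2'])]
          exact L.mul_mem hl h
      · obtain ⟨l, hl, hl1⟩ : p.1 ∈ L.map (MonoidHom.fst C C') := fst_top ▸ Subgroup.mem_top _
        have hl1' : l.1 = p.1 := hl1
        have hπ : π' l.2 = π' p.2 := by
          rw [← show e (π l.1) = π' l.2 from hLF hl, ← show e (π p.1) = π' p.2 from hp, hl1']
        rcases K'.eq_or hπ with h1 | h1
        · rwa [show p = l from Prod.ext hl1'.symm h1]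
        · rw [show p = l * (1, d') from Prod.ext (by simp [hl1']) h1]
          exact L.mul_mem hl h
    set z : ↥F := ⟨(d, d'), show e (π d) = π' d' by rw [K.map_d, K'.map_d, map_one]⟩ with hz
    have zc : ∀ p : ↥F, Commute z p := fun p => Subtype.ext
      (Prod.ext (K.central _).eq (K'.central _).eq)
    haveI hN : (Subgroup.zpowers z).Normal := by
      refine ⟨fun x hx g => ?_⟩
      obtain ⟨k, rfl⟩ := Subgroup.mem_zpowers_iff.1 hx
      rw [((zc g).symm.zpow_right k).eq, mul_inv_cancel_right]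
      exact Subgroup.zpow_mem_zpowers _ k
    have zsq : z * z = 1 := Subtype.ext (Prod.ext K.sq K'.sq)
    have zmem : ∀ x ∈ Subgroup.zpowers z, x = 1 ∨ x = z := by
      intro x hx
      obtain ⟨k, rfl⟩ := Subgroup.mem_zpowers_iff.1 hx
      rcases Int.even_or_odd' k with ⟨j, rfl | rfl⟩
      · left; rw [zpow_mul, zpow_two, zsq, one_zpow]
      · right; rw [zpow_add, zpow_mul, zpow_two, zsq, one_zpow, one_mul, zpow_one]
    let q := QuotientGroup.mk' (Subgroup.zpowers z)
    let π₀ : ↥F →* X := π.comp ((MonoidHom.fst C C').comp F.subtype)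
    have hπz : Subgroup.zpowers z ≤ π₀.ker := Subgroup.zpowers_le.2 (MonoidHom.mem_ker.2 K.map_d)
    let π'' : ↥F ⧸ Subgroup.zpowers z →* X := QuotientGroup.lift _ π₀ hπz
    have hπ'' : ∀ p : ↥F, π'' (q p) = π (p : C × C').1 := fun p => rfl
    set dd : ↥F := ⟨(d, 1), hd1⟩
    have ker'' : ∀ y, π'' y = 1 ↔ y = 1 ∨ y = q dd := by
      intro y
      obtain ⟨⟨⟨c, c'⟩, hp⟩, rfl⟩ := QuotientGroup.mk'_surjective _ y
      constructor
      · intro h
        have h1 : π c = 1 := h
        have h2 : π' c' = 1 := by rw [← show e (π c) = π' c' from hp, h1, map_one]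
        rcases (K.ker c).1 h1 with hc | hc <;> rcases (K'.ker c').1 h2 with hc' | hc' <;> subst c c'
        · exact Or.inl (map_one q)
        · right
          show q _ = q dd
          rw [show (⟨(1, d'), hp⟩ : ↥F) = dd * z from Subtype.ext (Prod.ext K.sq.symm (one_mul d').symm),
            map_mul, show q z = 1 from (QuotientGroup.eq_one_iff z).2 (Subgroup.mem_zpowers z), mul_one]
        · exact Or.inr rfl
        · exact Or.inl ((QuotientGroup.eq_one_iff _).2 (Subgroup.mem_zpowers z))
      · rintro (h | h) <;> rw [h]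
        · exact map_one _
        · exact (hπ'' dd).trans K.map_d
    have hperf : commutator ↥F = ⊤ := by
      refine Subgroup.map_injective F.subtype_injective ?_
      rw [commutator_def, Subgroup.map_commutator, ← MonoidHom.range_eq_map, Subgroup.range_subtype]
      exact full
    have M : DCover π'' (q dd) := by
      refine ⟨fun x => ?_, ?_, fun h => ?_, fun y => ?_, ker'', ?_⟩
      · obtain ⟨c, rfl⟩ := K.surj x
        obtain ⟨c', hc'⟩ := lift₁ c
        exact ⟨q ⟨(c, c'), hc'⟩, rfl⟩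
      · rw [← map_mul, show dd * dd = 1 from Subtype.ext (Prod.ext K.sq (one_mul _)), map_one]
      · rcases zmem _ ((QuotientGroup.eq_one_iff dd).1 h) with h' | h'
        · exact K.ne (congrArg Prod.fst (congrArg Subtype.val h'))
        · exact K'.ne (congrArg Prod.snd (congrArg Subtype.val h')).symm
      · obtain ⟨p, rfl⟩ := QuotientGroup.mk'_surjective _ y
        exact (show Commute dd p from Subtype.ext (Prod.ext (K.central _).eq
          (Commute.one_left _).eq)).map q
      · have := congrArg (Subgroup.map q) hperf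
        rwa [commutator_def, Subgroup.map_commutator, Subgroup.map_top_of_surjective _
          (QuotientGroup.mk'_surjective _), ← commutator_def] at this
    obtain ⟨σ, S⟩ := K.exists_sec P
    obtain ⟨σ', S'⟩ := K'.exists_sec P'
    let pr : X → ↥F := fun u => if h : u ∈ E then
      ⟨(σ u, σ' (e u)), show e (π (σ u)) = π' (σ' (e u)) by
        rw [S.map u h, S'.map _ (hE ▸ ⟨u, h, rfl⟩)]⟩ else 1
    have hpr : ∀ u ∈ E, ((pr u : ↥F) : C × C') = (σ u, σ' (e u)) := fun u hu => by
      simp only [pr, dif_pos hu]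
    have S'' : Sec E π'' (fun u => q (pr u)) := by
      refine ⟨fun u hu => ?_, fun y u hu => ?_⟩
      · rw [hπ'', hpr u hu]; exact S.map u hu
      · obtain ⟨⟨⟨c, c'⟩, hp⟩, rfl⟩ := QuotientGroup.mk'_surjective _ y
        rw [hπ'', ← map_inv, ← map_mul, ← map_mul]
        show q _ = q (pr (cj (π c) u))
        refine congrArg q (Subtype.ext ?_)
        rw [Subgroup.coe_mul, Subgroup.coe_mul, Subgroup.coe_inv, hpr u hu,
          hpr _ (P.data.inv' _ u hu)]
        refine Prod.ext (S.conj c u hu) ?_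
        show c' * σ' (e u) * c'⁻¹ = σ' (e (cj (π c) u))
        rw [S'.conj c' _ (hE ▸ ⟨u, hu, rfl⟩), ← show e (π c) = π' c' from hp]
        simp [cj]
    obtain ⟨W, hW, m, hn, hm, h6, hp⟩ := exists_hexad P
    have hmE : ∀ y ∈ m, y ∈ E := fun y hy => hW.sub (hm y hy)
    have hval : ((m.map pr).prod : ↥F) = z := by
      have h1 : ev σ m = d := K.hexad_value P S hW hn hm h6 hp
      have hW' : MaxSet E' (e '' W) := ⟨hE ▸ Set.image_mono hW.sub, by
        rintro _ ⟨a, ha, rfl⟩ _ ⟨b, hb, rfl⟩; exact (hW.comm a ha b hb).map e, by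
        rw [Set.ncard_image_of_injective _ e.injective, hW.card]⟩
      have h2 : ev σ' (m.map e) = d' := K'.hexad_value P' S' hW' (hn.map e.injective)
        (fun y hy => by obtain ⟨a, ha, rfl⟩ := List.mem_map.1 hy; exact ⟨a, hm a ha, rfl⟩)
        (by rw [List.length_map, h6]) (by rw [← map_list_prod, hp, map_one])
      have hgen : ∀ l : List X, (∀ y ∈ l, y ∈ E) →
          (((l.map pr).prod : ↥F) : C × C') = (ev σ l, ev σ' (l.map e)) := by
        intro l hl
        induction l with
        | nil => rfl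
        | cons a t ih =>
          rw [List.map_cons, List.prod_cons, Subgroup.coe_mul, hpr a (hl a List.mem_cons_self),
            ih fun y hy => hl y (List.mem_cons_of_mem _ hy), List.map_cons, ev_cons, ev_cons]
          rfl
      exact Subtype.ext (by rw [hgen m hmE, h1, h2, hz])
    have h3 : ev (fun u => q (pr u)) m = q dd := M.hexad_value P S'' hW hn hm h6 hp
    rw [show ev (fun u => q (pr u)) m = q (m.map pr).prod by
      rw [ev, map_list_prod, List.map_map]; rfl, hval] at h3
    exact M.ne (h3.symm.trans ((QuotientGroup.eq_one_iff z).2 (Subgroup.mem_zpowers z)))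
  -- both projections are bijective
  let p₁ : ↥L →* C := (MonoidHom.fst C C').comp L.subtype
  let p₂ : ↥L →* C' := (MonoidHom.snd C C').comp L.subtype
  have s₁ : Function.Surjective p₁ := fun c => by
    obtain ⟨l, hl, rfl⟩ : c ∈ L.map (MonoidHom.fst C C') := fst_top ▸ Subgroup.mem_top _
    exact ⟨⟨l, hl⟩, rfl⟩
  have s₂ : Function.Surjective p₂ := fun c => by
    obtain ⟨l, hl, rfl⟩ : c ∈ L.map (MonoidHom.snd C C') := snd_top ▸ Subgroup.mem_top _
    exact ⟨⟨l, hl⟩, rfl⟩
  have i₁ : Function.Injective p₁ := (injective_iff_map_eq_one p₁).2 fun l hl => by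
    obtain ⟨⟨c, c'⟩, hl'⟩ := l
    obtain rfl : c = 1 := hl
    have h2 : π' c' = 1 := by rw [← show e (π 1) = π' c' from hLF hl', map_one, map_one]
    rcases (K'.ker c').1 h2 with rfl | rfl
    · rfl
    · exact (not_both (Or.inr hl')).elim
  have i₂ : Function.Injective p₂ := (injective_iff_map_eq_one p₂).2 fun l hl => by
    obtain ⟨⟨c, c'⟩, hl'⟩ := l
    obtain rfl : c' = 1 := hl
    have h2 : π c = 1 := e.injective (by rw [show e (π c) = π' 1 from hLF hl', map_one, map_one])
    rcases (K.ker c).1 h2 with rfl | rfl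
    · rfl
    · exact (not_both (Or.inl hl')).elim
  let e₁ := MulEquiv.ofBijective p₁ ⟨i₁, s₁⟩
  let e₂ := MulEquiv.ofBijective p₂ ⟨i₂, s₂⟩
  have key : ∀ c, π' (e₂ (e₁.symm c)) = e (π c) := fun c => by
    have h := hLF (e₁.symm c).2
    have h1 : ((e₁.symm c : ↥L) : C × C').1 = c := e₁.apply_symm_apply c
    exact (show e (π _) = π' _ from h).symm.trans (by rw [h1])
  refine ⟨e₁.symm.trans e₂, key, ?_⟩
  rcases (K'.ker _).1 (show π' ((e₁.symm.trans e₂) d) = 1 by
    rw [show (e₁.symm.trans e₂) d = e₂ (e₁.symm d) from rfl, key, K.map_d, map_one]) with h | h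
  · exact absurd ((e₁.symm.trans e₂).injective (h.trans (map_one _).symm)) K.ne
  · exact h

/-- Two sections differ uniformly. -/
theorem sec_eq_or [Finite X] (K : DCover π d) (P : M22Prim E) {σ σ₂ : X → C} (S : Sec E π σ)
    (S₂ : Sec E π σ₂) : (∀ u ∈ E, σ₂ u = σ u) ∨ ∀ u ∈ E, σ₂ u = σ u * d := by
  obtain ⟨u₀, hu₀, -⟩ := P.hyp.cls.2.1
  have key : ∀ u ∈ E, ∃ c : C, σ u = c * σ u₀ * c⁻¹ ∧ σ₂ u = c * σ₂ u₀ * c⁻¹ := fun u hu => by
    obtain ⟨g, rfl⟩ := P.hyp.cl u₀ hu₀ u hu
    obtain ⟨c, rfl⟩ := K.surj g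
    exact ⟨c, (S.conj c u₀ hu₀).symm, (S₂.conj c u₀ hu₀).symm⟩
  rcases K.eq_or (show π (σ u₀) = π (σ₂ u₀) by rw [S.map _ hu₀, S₂.map _ hu₀]) with h | h
  · left
    intro u hu
    obtain ⟨c, h1, h2⟩ := key u hu
    rw [h1, h2, h]
  · right
    intro u hu
    obtain ⟨c, h1, h2⟩ := key u hu
    rw [h1, h2, h, ← mul_assoc c, mul_assoc (c * σ u₀) d, (K.central c⁻¹).eq, ← mul_assoc]

end Cfsg.Agent.FiTrans
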