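import Cfsg.Agent.FiTrans.OrbitShape
import Cfsg.Agent.TTLink.M22DoubleThompson
import Cfsg.Agent.TTLink.M22Connected

/-!
The conjugates of an involution `d` with centraliser a perfect double cover of a group of type M(22)
that commute with `d`: besides `d`, one lift of each transposition.
-/

set_option autoImplicit false

namespace Cfsg.Agent.FiTrans

open Cfsg.Agent.TTLink Cfsg.Agent.ThreeTransp45 Cfsg.Agent.Modules
open scoped IsMulCommutative

variable {G X : Type*} [Group G] [Finite G] [Group X] [Finite X] {E : Set X}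

/-- The conjugates of `d` in its centraliser are `d` and the values of one section. -/
theorem exists_link_sec {d : G} (hdC : d ∈ Subgroup.centralizer ({d} : Set G))
    {π : ↥(Subgroup.centralizer ({d} : Set G)) →* X} (K : DCover π ⟨d, hdC⟩) (P : M22Prim E)
    (hnwc : ∃ g : G, g * d * g⁻¹ ∈ Subgroup.centralizer ({d} : Set G) ∧ g * d * g⁻¹ ≠ d) :
    ∃ τ : X → ↥(Subgroup.centralizer ({d} : Set G)), Sec E π τ ∧
      ∀ x : ↥(Subgroup.centralizer ({d} : Set G)),
        IsConj d (x : G) ↔ x = ⟨d, hdC⟩ ∨ ∃ u ∈ E, x = τ u := by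
  classical
  set d₀ : ↥(Subgroup.centralizer ({d} : Set G)) := ⟨d, hdC⟩ with hd₀
  have hd2 : d * d = 1 := congrArg Subtype.val K.sq
  obtain ⟨S⟩ : Nonempty (Sylow 2 ↥(Subgroup.centralizer ({d} : Set G))) := inferInstance
  obtain ⟨W, hW, hJ, hconj⟩ := K.thompson P S
  obtain ⟨σ, hσ⟩ := K.exists_sec P
  set J := (Subgroup.closure W).comap π with hJdef
  set A := J.map (Subgroup.centralizer ({d} : Set G)).subtype with hAdef
  have hJe := K.comap_elemAb P hW
  have hAe : Cfsg.IsElementaryAbelian 2 A := elemAb_map _ hJe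
  haveI := hJe.1
  haveI := hAe.1
  letI : Fintype ↥W := Fintype.ofFinite _
  have hdJ : d₀ ∈ J := by
    show π d₀ ∈ Subgroup.closure W
    rw [K.map_d]
    exact one_mem _
  have hσJ : ∀ i : ↥W, σ i ∈ J := fun i => by
    show π (σ i) ∈ Subgroup.closure W
    rw [hσ.map i (hW.sub i.2)]
    exact Subgroup.subset_closure i.2
  let e : ↥J ≃* ↥A := J.equivMapOfInjective (Subgroup.centralizer ({d} : Set G)).subtype Subtype.val_injective
  have he : ∀ a : ↥J, ((e a : ↥A) : G) = ((a : ↥(Subgroup.centralizer ({d} : Set G))) : G) := fun a => rfl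
  let v : ↥W → ↥A := fun i => e ⟨σ i, hσJ i⟩
  let dA : ↥A := e ⟨d₀, hdJ⟩
  have Sy : OrbitTwentyThree.Sys v dA :=
    (K.sys P hW hσ (fun i => ⟨σ i, hσJ i⟩) (fun i => rfl) ⟨d₀, hdJ⟩ rfl).map e
  -- the normaliser and its action
  set H := Subgroup.normalizer (A : Set G)
  letI : MulDistribMulAction ↥H ↥A := MulDistribMulAction.compHom _ A.normalizerMonoidHom
  have hact : ∀ (n : ↥H) (a : ↥A), ((n • a : ↥A) : G) = (n : G) * a * (n : G)⁻¹ := fun n a => rfl
  have stab : ∀ c : ↥(Subgroup.centralizer ({d} : Set G)), cj (π c) '' W = W → (c : G) ∈ H := by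
    intro c hc
    have key : ∀ c : ↥(Subgroup.centralizer ({d} : Set G)), cj (π c) '' W = W → ∀ a ∈ A, (c : G) * a * (c : G)⁻¹ ∈ A := by
      rintro c hc _ ⟨x, hx, rfl⟩
      refine ⟨c * x * c⁻¹, ?_, rfl⟩
      have hle : (Subgroup.closure W).map (MulAut.conj (π c)).toMonoidHom ≤ Subgroup.closure W := by
        rw [MonoidHom.map_closure]
        exact Subgroup.closure_mono (le_of_eq hc)
      show π (c * x * c⁻¹) ∈ Subgroup.closure W
      rw [map_mul, map_mul, map_inv]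
      exact hle ⟨π x, hx, rfl⟩
    rw [Subgroup.mem_normalizer_iff]
    intro a
    refine ⟨key c hc a, fun h => ?_⟩
    have hc' : cj (π c⁻¹) '' W = W := by
      conv_lhs => rw [← hc, ← Set.image_comp, map_inv,
        show cj (π c)⁻¹ ∘ cj (π c) = id from funext (cj_inv_cj _)]
      rw [Set.image_id]
    have := key c⁻¹ hc' _ h
    simpa [mul_assoc] using this
  have T : OrbitTwentyThree.Act ↥H v dA := by
    refine ⟨fun n hn i => ?_, fun a b c a' b' c' hab hac hbc hab' hac' hbc' => ?_⟩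
    · have hnd : (n : G) * d * (n : G)⁻¹ = d := congrArg Subtype.val hn
      have hnC : (n : G) ∈ (Subgroup.centralizer ({d} : Set G)) := Subgroup.mem_centralizer_singleton_iff.2 (mul_inv_eq_iff_eq_mul.1 hnd)
      set c : ↥(Subgroup.centralizer ({d} : Set G)) := ⟨n, hnC⟩
      have hwE : cj (π c) i ∈ E := P.data.inv' _ _ (hW.sub i.2)
      have hm : cj (π c) i ∈ Subgroup.closure W := by
        have h1 : c * σ i * c⁻¹ ∈ J := by
          have h2 := (Subgroup.mem_normalizer_iff.1 n.2 _).1 (show ((σ i : ↥(Subgroup.centralizer ({d} : Set G))) : G) ∈ A from ⟨σ i, hσJ i, rfl⟩)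
          obtain ⟨x, hx, ex⟩ := h2
          rwa [show c * σ i * c⁻¹ = x from Subtype.ext ex.symm]
        have : π (c * σ i * c⁻¹) ∈ Subgroup.closure W := h1
        rwa [map_mul, map_mul, map_inv, hσ.map i (hW.sub i.2)] at this
      have hj : cj (π c) i ∈ W := P.mem_maxSet hW hwE fun x hx =>
        congrArg Subtype.val ((K.maxSet_elemAb P hW).1.is_comm.comm ⟨_, hm⟩ ⟨x, Subgroup.subset_closure hx⟩)
      refine ⟨⟨_, hj⟩, Subtype.ext ?_⟩
      rw [hact, he, he]
      exact congrArg Subtype.val (hσ.conj c i (hW.sub i.2))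
    · have ne : ∀ {x y : ↥W}, x ≠ y → x.1 ≠ y.1 := fun h e => h (Subtype.ext e)
      obtain ⟨g, hg, ea, eb, ec⟩ := P.maxSet_triples hW a.2 b.2 c.2 (ne hab) (ne hac) (ne hbc)
        a'.2 b'.2 c'.2 (ne hab') (ne hac') (ne hbc')
      obtain ⟨z, rfl⟩ := K.surj g
      refine ⟨⟨(z : G), stab z hg⟩, Subtype.ext ?_, ?_⟩
      · rw [hact, he]
        show (z : G) * d * (z : G)⁻¹ = d
        rw [mul_inv_eq_iff_eq_mul]
        exact Subgroup.mem_centralizer_singleton_iff.1 z.2
      · have mv : ∀ x y : ↥W, cj (π z) x = (y : _) → (⟨(z : G), stab z hg⟩ : ↥H) • v x = v y := by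
          intro x y hxy
          refine Subtype.ext ?_
          rw [hact, he, he]
          have := congrArg Subtype.val (hσ.conj z x (hW.sub x.2))
          rw [hxy] at this
          exact this
        exact ⟨mv a a' ea, mv b b' eb, mv c c' ec⟩
  -- conjugates of `d` in `A` are the members of the orbit
  have toOrb : ∀ x ∈ A, IsConj d x → ∃ n ∈ H, n * d * n⁻¹ = x := by
    intro x hx hxd
    obtain ⟨g, hg⟩ := isConj_iff.1 hxd
    set B := (A.map (MulAut.conj g⁻¹).toMonoidHom).subgroupOf (Subgroup.centralizer ({d} : Set G))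
    have hBle : A.map (MulAut.conj g⁻¹).toMonoidHom ≤ (Subgroup.centralizer ({d} : Set G)) := by
      rintro _ ⟨a, ha, rfl⟩
      rw [Subgroup.mem_centralizer_singleton_iff]
      have hc : a * x = x * a := congrArg Subtype.val (hAe.1.is_comm.comm ⟨a, ha⟩ ⟨x, hx⟩)
      rw [← hg] at hc
      show g⁻¹ * a * g⁻¹⁻¹ * d = d * (g⁻¹ * a * g⁻¹⁻¹)
      rw [inv_inv]
      calc g⁻¹ * a * g * d = g⁻¹ * (a * (g * d * g⁻¹)) * g := by simp [mul_assoc]
        _ = g⁻¹ * ((g * d * g⁻¹) * a) * g := by rw [hc]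
        _ = d * (g⁻¹ * a * g) := by simp [mul_assoc]
    have hB : Cfsg.IsElementaryAbelian 2 B := elemAb_subgroupOf (elemAb_map _ hAe)
    have hBcard : Nat.card ↥J ≤ Nat.card ↥B := by
      rw [Nat.card_congr (Subgroup.subgroupOfEquivOfLe hBle).toEquiv,
        Subgroup.card_map_of_injective (MulAut.conj g⁻¹).injective, Nat.card_congr e.toEquiv]
    obtain ⟨c, hc⟩ := hconj B hB hBcard
    set n := (c : G) * g⁻¹
    have key : ∀ a ∈ A, n * a * n⁻¹ ∈ A := by
      intro a ha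
      have hmem : g⁻¹ * a * g ∈ (Subgroup.centralizer ({d} : Set G)) := hBle ⟨a, ha, by simp⟩
      refine ⟨c * ⟨_, hmem⟩ * c⁻¹, hc ▸ ⟨⟨_, hmem⟩, ⟨a, ha, by simp⟩, rfl⟩, ?_⟩
      show (c : G) * (g⁻¹ * a * g) * (c : G)⁻¹ = _
      simp [n, mul_assoc]
    have hn : n ∈ H := Subgroup.mem_normalizer_fintype key
    refine ⟨n⁻¹, inv_mem hn, ?_⟩
    rw [inv_inv, ← hg]
    have hcd : (c : G)⁻¹ * d * (c : G) = d := by
      rw [mul_assoc, ← Subgroup.mem_centralizer_singleton_iff.1 c.2, inv_mul_cancel_left]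
    conv_rhs => rw [← hcd]
    simp [n, mul_assoc]
  have hdA : (dA : G) = d := rfl
  have horb : {x : G | x ∈ A ∧ IsConj d x} = Subtype.val '' MulAction.orbit ↥H dA := by
    ext x
    constructor
    · rintro ⟨hx, hxd⟩
      obtain ⟨n, hn, e'⟩ := toOrb x hx hxd
      exact ⟨(⟨n, hn⟩ : ↥H) • dA, ⟨_, rfl⟩, by rw [hact, hdA]; exact e'⟩
    · rintro ⟨_, ⟨n, rfl⟩, rfl⟩
      exact ⟨SetLike.coe_mem _, isConj_iff.2 ⟨n, (hact n dA).symm⟩⟩
  -- the orbit
  have horb23 : (MulAction.orbit ↥H dA).ncard = 23 := by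
    refine OrbitTwentyThree.orbit_ncard Sy T ?_
    obtain ⟨g, hgC, hgd⟩ := hnwc
    set y : ↥(Subgroup.centralizer ({d} : Set G)) := ⟨g * d * g⁻¹, hgC⟩ with hy
    have hy2 : π y * π y = 1 := by
      rw [← map_mul, show y * y = 1 from Subtype.ext (by
        show g * d * g⁻¹ * (g * d * g⁻¹) = 1
        rw [show g * d * g⁻¹ * (g * d * g⁻¹) = g * (d * d) * g⁻¹ by simp [mul_assoc], hd2, mul_one,
          mul_inv_cancel]), map_one]
    obtain ⟨m, hm, hlen, hmp⟩ := P.factor_three hy2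
    obtain ⟨W', hW', hmW'⟩ := P.exists_maxSet (E := {z | z ∈ m}) (fun z hz => hm.mem z hz)
      fun z hz z' hz' => hm.comm z hz z' hz'
    obtain ⟨g₀, hg₀⟩ := P.maxSet_conj hW' hW
    obtain ⟨c, rfl⟩ := K.surj g₀
    have hcy : c * y * c⁻¹ ∈ J := by
      show π (c * y * c⁻¹) ∈ Subgroup.closure W
      rw [map_mul, map_mul, map_inv, ← hmp, ← hg₀]
      have hle : Subgroup.closure W' ≤
          (Subgroup.closure (cj (π c) '' W')).comap (MulAut.conj (π c)).toMonoidHom :=
        (Subgroup.closure_le _).2 fun z hz => Subgroup.subset_closure ⟨z, hz, rfl⟩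
      exact hle (Subgroup.list_prod_mem _ fun z hz => Subgroup.subset_closure (hmW' hz))
    obtain ⟨n, hn, e'⟩ := toOrb ((c * y * c⁻¹ : ↥(Subgroup.centralizer ({d} : Set G))) : G) ⟨_, hcy, rfl⟩
      (isConj_iff.2 ⟨(c : G) * g, by simp [hy, mul_assoc]⟩)
    refine ⟨(⟨n, hn⟩ : ↥H) • dA, ⟨_, rfl⟩, fun h => hgd ?_⟩
    have h2 : (c : G) * (g * d * g⁻¹) * (c : G)⁻¹ = d := by
      have := congrArg Subtype.val h
      rw [hact, hdA, e'] at this
      exact this
    have hc : (c : G) * d * (c : G)⁻¹ = d := by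
      rw [mul_inv_eq_iff_eq_mul]
      exact Subgroup.mem_centralizer_singleton_iff.1 c.2
    exact mul_left_cancel (mul_right_cancel (h2.trans hc.symm))
  obtain ⟨e', hshape⟩ := orbit_shape Sy T horb23
  -- the section
  obtain ⟨τ, hτ, hτe⟩ : ∃ τ : X → ↥(Subgroup.centralizer ({d} : Set G)), Sec E π τ ∧
      ∀ i : ↥W, ((OrbitTwentyThree.el v dA e' {i} : ↥A) : G) =
        ((τ i : ↥(Subgroup.centralizer ({d} : Set G))) : G) := by
    cases e' with
    | false => exact ⟨σ, hσ, fun i => by simp [OrbitTwentyThree.el, v, he]⟩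
    | true =>
      refine ⟨fun u => σ u * d₀, K.sec_flip P hσ, fun i => ?_⟩
      show ((dA * ∏ j ∈ ({i} : Finset ↥W), v j : ↥A) : G) = _
      rw [Finset.prod_singleton, mul_comm]
      rfl
  have onW : ∀ x : ↥(Subgroup.centralizer ({d} : Set G)), x ∈ J →
      (IsConj d (x : G) ↔ x = d₀ ∨ ∃ i : ↥W, x = τ i) := by
    intro x hx
    have hxA : (x : G) ∈ A := ⟨x, hx, rfl⟩
    have : IsConj d (x : G) ↔ (⟨(x : G), hxA⟩ : ↥A) ∈ MulAction.orbit ↥H dA := by
      constructor
      · intro h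
        obtain ⟨z, hz, hzx⟩ := (horb ▸ (⟨hxA, h⟩ : (x : G) ∈ {x : G | x ∈ A ∧ IsConj d x}) :
          (x : G) ∈ Subtype.val '' MulAction.orbit ↥H dA)
        rwa [show z = ⟨(x : G), hxA⟩ from Subtype.ext hzx] at hz
      · intro h
        have h' : (x : G) ∈ {x : G | x ∈ A ∧ IsConj d x} := horb.symm ▸ ⟨_, h, rfl⟩
        exact h'.2
    rw [this, hshape]
    refine or_congr ⟨fun h => ?_, fun h => ?_⟩ (exists_congr fun i => ⟨fun h => ?_, fun h => ?_⟩)
    · exact Subtype.ext (congrArg (fun z : ↥A => (z : G)) h)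
    · exact Subtype.ext (congrArg (fun z : ↥(Subgroup.centralizer ({d} : Set G)) => (z : G)) h)
    · exact Subtype.ext ((congrArg (fun z : ↥A => (z : G)) h).trans (hτe i))
    · exact Subtype.ext ((congrArg Subtype.val h).trans (hτe i).symm)
  have cjd : ∀ c x : ↥(Subgroup.centralizer ({d} : Set G)),
      IsConj d (x : G) → IsConj d ((c * x * c⁻¹ : ↥(Subgroup.centralizer ({d} : Set G))) : G) := by
    intro c x h
    exact h.trans (isConj_iff.2 ⟨(c : G), rfl⟩)
  refine ⟨τ, hτ, fun x => ⟨fun hx => ?_, ?_⟩⟩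
  · have hx2 : π x * π x = 1 := by
      rw [← map_mul, show x * x = 1 from Subtype.ext (by
        obtain ⟨g, hg⟩ := isConj_iff.1 hx
        show (x : G) * (x : G) = 1
        rw [← hg, show g * d * g⁻¹ * (g * d * g⁻¹) = g * (d * d) * g⁻¹ by simp [mul_assoc], hd2,
          mul_one, mul_inv_cancel]), map_one]
    obtain ⟨m, hm, hlen, hmp⟩ := P.factor_three hx2
    obtain ⟨W', hW', hmW'⟩ := P.exists_maxSet (E := {z | z ∈ m}) (fun z hz => hm.mem z hz)
      fun z hz z' hz' => hm.comm z hz z' hz'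
    obtain ⟨g₀, hg₀⟩ := P.maxSet_conj hW' hW
    obtain ⟨c, rfl⟩ := K.surj g₀
    have hcx : c * x * c⁻¹ ∈ J := by
      show π (c * x * c⁻¹) ∈ Subgroup.closure W
      rw [map_mul, map_mul, map_inv, ← hmp, ← hg₀]
      have hle : Subgroup.closure W' ≤
          (Subgroup.closure (cj (π c) '' W')).comap (MulAut.conj (π c)).toMonoidHom :=
        (Subgroup.closure_le _).2 fun z hz => Subgroup.subset_closure ⟨z, hz, rfl⟩
      exact hle (Subgroup.list_prod_mem _ fun z hz => Subgroup.subset_closure (hmW' hz))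
    have hback : x = c⁻¹ * (c * x * c⁻¹) * c⁻¹⁻¹ := by group
    rcases (onW _ hcx).1 (cjd c x hx) with h | ⟨i, h⟩
    · left
      rw [hback, h, ← (K.central c⁻¹).eq, mul_inv_cancel_right]
    · right
      refine ⟨cj (π c⁻¹) i, P.data.inv' _ _ (hW.sub i.2), ?_⟩
      rw [hback, h, hτ.conj c⁻¹ i (hW.sub i.2)]
  · rintro (rfl | ⟨u, hu, rfl⟩)
    · exact IsConj.refl d
    · obtain ⟨i, hi⟩ : W.Nonempty := Set.nonempty_of_ncard_ne_zero (by rw [hW.card]; norm_num)
      obtain ⟨g₀, hg₀⟩ := P.hyp.cl i (hW.sub hi) u hu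
      obtain ⟨c, rfl⟩ := K.surj g₀
      have hiJ : τ i ∈ J := by
        show π (τ i) ∈ Subgroup.closure W
        rw [hτ.map i (hW.sub hi)]
        exact Subgroup.subset_closure hi
      have h1 := cjd c _ ((onW (τ i) hiJ).2 (Or.inr ⟨⟨i, hi⟩, rfl⟩))
      rwa [hτ.conj c i (hW.sub hi), hg₀] at h1

end Cfsg.Agent.FiTrans
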