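import Cfsg.Agent.FiTrans.Pair

/-!
Two members which do not commute have a common neighbour, and their product has order three.
-/

set_option autoImplicit false

namespace Cfsg.Agent.FiTrans

open Cfsg.Agent.TTLink Cfsg.Agent.ThreeTransp45

variable {G : Type*} [Group G]

/-- A reflection of the dihedral group of two involutions. -/
theorem refl_even {e x : G} (he : e * e = 1) (hx : x * x = 1) (k : ℕ) :
    e * (e * x) ^ (2 * k) = cj ((x * e) ^ k) e := by
  have hs : SemiconjBy e (e * x) (x * e) := by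
    show e * (e * x) = x * e * e
    rw [← mul_assoc, he, one_mul, mul_assoc, he, mul_one]
  have hi : ((x * e) ^ k)⁻¹ = (e * x) ^ k := by
    rw [← inv_pow, mul_inv_rev, inv_eq_of_mul_eq_one_right he, inv_eq_of_mul_eq_one_right hx]
  rw [cj, hi, ← (hs.pow_right k).eq, mul_assoc, ← pow_add, two_mul]

theorem refl_odd {e x : G} (he : e * e = 1) (hx : x * x = 1) (k : ℕ) :
    e * (e * x) ^ (2 * k + 1) = cj ((x * e) ^ k) x := by
  have hs : SemiconjBy e (e * x) (x * e) := by
    show e * (e * x) = x * e * e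
    rw [← mul_assoc, he, one_mul, mul_assoc, he, mul_one]
  have hi : ((x * e) ^ k)⁻¹ = (e * x) ^ k := by
    rw [← inv_pow, mul_inv_rev, inv_eq_of_mul_eq_one_right he, inv_eq_of_mul_eq_one_right hx]
  rw [cj, hi, show 2 * k + 1 = k + (1 + k) by ring, pow_add, pow_add, pow_one, ← mul_assoc,
    (hs.pow_right k).eq, mul_assoc _ e, mul_assoc e x, ← mul_assoc e e, he, one_mul, mul_assoc]

theorem commute_cj_self {e u : G} (h : Commute u e) : Commute e (e * u) :=
  (Commute.refl e).mul_right h.symm

namespace TT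

variable [Finite G] {D : Set G} (hT : TT D)
include hT

theorem ne_one {x : G} (hx : x ∈ D) : x ≠ 1 := (hT.loc x hx).ne_one

/-- Half the order of a product of two involutions gives an involution commuting with both. -/
theorem half {e x : G} (he : e * e = 1) (hx : x * x = 1) {m : ℕ} (hm : orderOf (e * x) = m + m) :
    (e * x) ^ m ≠ 1 ∧ (e * x) ^ m * (e * x) ^ m = 1 ∧ Commute ((e * x) ^ m) e ∧
      Commute ((e * x) ^ m) x := by
  set u := (e * x) ^ m with hu
  have hu1 : u ≠ 1 := fun h => by
    have h1 := orderOf_dvd_of_pow_eq_one h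
    have h2 : 0 < orderOf (e * x) := orderOf_pos _
    have h3 := Nat.le_of_dvd (by omega) h1
    omega
  have hu2 : u * u = 1 := by rw [hu, ← pow_add, ← hm, pow_orderOf_eq_one]
  have hcw : Commute u (e * x) := by rw [hu]; exact Commute.pow_self _ _
  have hue : Commute u e := by
    have hs : SemiconjBy e (e * x) (x * e) := by
      show e * (e * x) = x * e * e
      rw [← mul_assoc, he, one_mul, mul_assoc, he, mul_one]
    have h1 := (hs.pow_right m).eq
    have h2 : (x * e) ^ m = u := by
      rw [show x * e = (e * x)⁻¹ by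
        rw [mul_inv_rev, inv_eq_of_mul_eq_one_right he, inv_eq_of_mul_eq_one_right hx], inv_pow, ← hu,
        inv_eq_of_mul_eq_one_right hu2]
    rw [h2, ← hu] at h1
    exact h1.symm
  refine ⟨hu1, hu2, hue, ?_⟩
  have := hue.mul_right hcw
  rwa [← mul_assoc, he, one_mul] at this

/-- A member of another expression of `a * b * c` commutes with `a`. -/
theorem triple_commute {a b c x y w : G} (h : Fac D [a, b, c]) (h' : Fac D [x, y, w])
    (hp : a * (b * c) = x * (y * w)) : Commute x a := by
  obtain ⟨hn, hm, hc⟩ := h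
  obtain ⟨hn', hm', hc'⟩ := h'
  simp only [List.nodup_cons, List.mem_cons, List.not_mem_nil, or_false, not_or, not_false_eq_true,
    List.nodup_nil, and_true] at hn hn'
  simp only [List.mem_cons, List.not_mem_nil, or_false, forall_eq_or_imp, forall_eq] at hm hm' hc hc'
  obtain ⟨⟨-, cab, cac⟩, ⟨-, -, cbc⟩, -⟩ := hc
  obtain ⟨⟨-, cxy, cxw⟩, ⟨-, -, cyw⟩, -⟩ := hc'
  set z := a * (b * c) with hz
  have hxz : Commute x z := hp ▸ (Commute.refl x).mul_right (cxy.mul_right cxw)
  have key : ∀ e ∈ D, e ≠ a → e ≠ b → e ≠ c → Commute e a → Commute e b → Commute e c →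
      Commute x e := by
    intro e he hea heb hec cea ceb cec
    have hez : Commute e z := cea.mul_right (ceb.mul_right cec)
    rcases Nat.even_or_odd (orderOf (e * x)) with ⟨m, hm2⟩ | ⟨k, hk⟩
    · obtain ⟨hu1, -, hue, hux⟩ := hT.half (hT.sq he) (hT.sq hm'.1) hm2
      set u := (e * x) ^ m with hu
      have hr : e * u ∈ D := by
        rcases Nat.even_or_odd m with ⟨k, hk⟩ | ⟨k, hk⟩
        · rw [hu, show m = 2 * k by omega, refl_even (hT.sq he) (hT.sq hm'.1)]
          exact hT.inv' _ _ he
        · rw [hu, hk, refl_odd (hT.sq he) (hT.sq hm'.1)]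
          exact hT.inv' _ _ hm'.1
      have hrl : e * u ∈ link D e :=
        ⟨hr, fun h => hu1 (mul_left_cancel (h.trans (mul_one e).symm)), commute_cj_self hue⟩
      refine (hT.commute_pair he hrl hm'.1 ?_).1
      rw [← mul_assoc, hT.sq he, one_mul]
      exact hux.symm
    · exfalso
      set g := (x * e) ^ k with hg
      have hex : cj g x = e := by
        rw [hg, ← refl_odd (hT.sq he) (hT.sq hm'.1), show 2 * k + 1 = orderOf (e * x) from hk.symm,
          pow_orderOf_eq_one, mul_one]
      have hgz : Commute g z := ((hxz.mul_left hez).pow_left k)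
      set q := cj g y with hq
      set r := cj g w with hr
      have hqD : q ∈ D := hT.inv' _ _ hm'.2.1
      have hrD : r ∈ D := hT.inv' _ _ hm'.2.2
      have hzq : z = e * (q * r) := by
        rw [← hex, hq, hr, ← cj_map_mul, ← cj_map_mul, ← hp]
        exact ((cj_eq_self_iff g z).2 hgz).symm
      have ceq : Commute e q := by rw [← hex]; exact (cj_commute_iff g x y).2 cxy
      have cer : Commute e r := by rw [← hex]; exact (cj_commute_iff g x w).2 cxw
      have cqr : Commute q r := (cj_commute_iff g y w).2 cyw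
      have hqe : q ≠ e := fun h => hn'.1.1 (cj_injective g (h.trans hex.symm)).symm
      have hre : r ≠ e := fun h => hn'.1.2 (cj_injective g (h.trans hex.symm)).symm
      have hqr : q ≠ r := fun h => hn'.2 (cj_injective g h)
      have lq : q ∈ link D e := ⟨hqD, hqe, ceq⟩
      have lr : r ∈ link D e := ⟨hrD, hre, cer⟩
      have la : a ∈ link D e := ⟨hm.1, Ne.symm hea, cea⟩
      have lb : b ∈ link D e := ⟨hm.2.1, Ne.symm heb, ceb⟩
      have lc : c ∈ link D e := ⟨hm.2.2, Ne.symm hec, cec⟩
      have hf : Fac (link D e) [a, b, c] := by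
        refine ⟨by simp [hn.1.1, hn.1.2, hn.2], ?_, ?_⟩
        · simp only [List.mem_cons, List.not_mem_nil, or_false, forall_eq_or_imp, forall_eq]
          exact ⟨la, lb, lc⟩
        · simp only [List.mem_cons, List.not_mem_nil, or_false, forall_eq_or_imp, forall_eq]
          exact ⟨⟨Commute.refl _, cab, cac⟩, ⟨cab.symm, Commute.refl _, cbc⟩,
            cac.symm, cbc.symm, Commute.refl _⟩
      have hqz : Commute q [a, b, c].prod := by
        simp only [List.prod_cons, List.prod_nil, mul_one]
        rw [← hz, hzq]; exact ceq.symm.mul_right ((Commute.refl q).mul_right cqr)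
      have hrz : Commute r [a, b, c].prod := by
        simp only [List.prod_cons, List.prod_nil, mul_one]
        rw [← hz, hzq]; exact cer.symm.mul_right (cqr.symm.mul_right (Commute.refl r))
      have hqabc := (hT.loc e he).cross q lq _ hf (by simp) hqz
      have hrabc := (hT.loc e he).cross r lr _ hf (by simp) hrz
      simp only [List.mem_cons, List.not_mem_nil, or_false, forall_eq_or_imp, forall_eq] at hqabc hrabc
      have two : ∀ p s t : G, t ∈ link D s → s ∈ D → z = p * (s * t) →
          Commute e s → e ≠ s → e ≠ t → q ≠ p ∧ r ≠ p := by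
        intro p s t hts hs hpz ces hes het
        refine ⟨fun hqp => ?_, fun hrp => ?_⟩
        · have h2 : s * t = e * r := by
            refine mul_left_cancel (a := q) ?_
            rw [hqp, ← hpz, hzq, ← mul_assoc, ceq.eq, mul_assoc, hqp]
          exact (hT.same_pair hs hts he lr h2 ces).elim hes het
        · have h2 : s * t = e * q := by
            refine mul_left_cancel (a := r) ?_
            rw [hrp, ← hpz, hzq, cqr.eq, ← mul_assoc, cer.eq, mul_assoc, hrp]
          exact (hT.same_pair hs hts he lq h2 ces).elim hes het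
      have na := two a b c ⟨hm.2.2, Ne.symm hn.2, cbc⟩ hm.2.1 hz ceb heb hec
      have nb := two b a c ⟨hm.2.2, Ne.symm hn.1.2, cac⟩ hm.1
        (by rw [hz, ← mul_assoc, cab.eq, mul_assoc]) cea hea hec
      have nc := two c a b ⟨hm.2.1, Ne.symm hn.1.1, cab⟩ hm.1
        (by rw [hz, ← mul_assoc, (cac.mul_left cbc).eq]) cea hea heb
      have h5 : Fac (link D e) [a, b, c, q, r] := by
        refine ⟨by simp [hn.1.1, hn.1.2, hn.2, hqr, Ne.symm na.1, Ne.symm na.2, Ne.symm nb.1,
          Ne.symm nb.2, Ne.symm nc.1, Ne.symm nc.2], ?_, ?_⟩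
        · simp only [List.mem_cons, List.not_mem_nil, or_false, forall_eq_or_imp, forall_eq]
          exact ⟨la, lb, lc, lq, lr⟩
        · simp only [List.mem_cons, List.not_mem_nil, or_false, forall_eq_or_imp, forall_eq]
          exact ⟨⟨Commute.refl _, cab, cac, hqabc.1.symm, hrabc.1.symm⟩,
            ⟨cab.symm, Commute.refl _, cbc, hqabc.2.1.symm, hrabc.2.1.symm⟩,
            ⟨cac.symm, cbc.symm, Commute.refl _, hqabc.2.2.symm, hrabc.2.2.symm⟩,
            ⟨hqabc.1, hqabc.2.1, hqabc.2.2, Commute.refl _, cqr⟩,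
            hrabc.1, hrabc.2.1, hrabc.2.2, cqr.symm, Commute.refl _⟩
      refine ((hT.loc e he).indep _ h5 (by simp) (by simp)).2 ?_
      calc ([a, b, c, q, r] : List G).prod = z * (q * r) := by
            simp only [List.prod_cons, List.prod_nil, mul_one, hz, mul_assoc]
        _ = e * ((q * r) * (q * r)) := by rw [hzq, mul_assoc]
        _ = e := by
          rw [mul_assoc q r, ← mul_assoc r q, ← cqr.eq, mul_assoc q r, hT.sq hrD, mul_one,
            hT.sq hqD, mul_one]
  obtain ⟨l, hl, -, hprod, hmem⟩ :=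
    (hT.loc a hm.1).avoid b ⟨hm.2.1, Ne.symm hn.1.1, cab⟩ c ⟨hm.2.2, Ne.symm hn.1.2, cac⟩ cbc
  rw [← hprod]
  refine Commute.list_prod_right _ _ fun e he => ?_
  exact key e (hl.mem e he).1 (hl.mem e he).2.1 (hmem e he).1 (hmem e he).2.1
    (hl.mem e he).2.2.symm (hmem e he).2.2.1 (hmem e he).2.2.2

/-- Two members which do not commute have a common neighbour. -/
theorem common {d f : G} (hd : d ∈ D) (hf : f ∈ D) (hdf : ¬ Commute d f) :
    ∃ h ∈ D, Commute h d ∧ Commute h f := by
  classical
  obtain ⟨g, hg⟩ := (hT.loc f hf).nonempty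
  set z := f * g with hz
  have hfg := hg.2.2
  have hz2 : z * z = 1 := by
    rw [hz, mul_assoc, ← mul_assoc g, ← hfg.eq, mul_assoc f, hT.sq hg.1, mul_one, hT.sq hf]
  have hzf : Commute z f := (Commute.refl f).mul_left hfg.symm
  have hzD : z ∉ D := fun h => by
    have hl : Fac (link D f) [g, z] := by
      refine ⟨by simpa using fun e : g = z => hT.ne_one hf (mul_eq_right.1 (e.symm : f * g = g)), ?_, ?_⟩
      · simp only [List.mem_cons, List.not_mem_nil, or_false, forall_eq_or_imp, forall_eq]
        exact ⟨hg, h, fun e => hT.ne_one hg.1 (mul_eq_left.1 (hz ▸ e : f * g = f)), hzf.symm⟩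
      · simp only [List.mem_cons, List.not_mem_nil, or_false, forall_eq_or_imp, forall_eq]
        have : Commute g z := hfg.symm.mul_right (Commute.refl g)
        exact ⟨⟨Commute.refl _, this⟩, this.symm, Commute.refl _⟩
    refine ((hT.loc f hf).indep _ hl (by simp) (by simp)).2 ?_
    rw [List.prod_cons, List.prod_cons, List.prod_nil, mul_one, hz, ← mul_assoc, ← hfg.eq, mul_assoc,
      hT.sq hg.1, mul_one]
  rcases Nat.even_or_odd (orderOf (d * z)) with ⟨m, hm⟩ | ⟨k, hk⟩
  swap
  · exfalso
    refine hzD ?_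
    have h := refl_odd (hT.sq hd) hz2 k
    rw [← hk, pow_orderOf_eq_one, mul_one] at h
    have h' := congrArg (cj ((z * d) ^ k)⁻¹) h
    rw [cj_inv_cj] at h'
    exact h' ▸ hT.inv' _ _ hd
  obtain ⟨hu1, hu2, hud, huz⟩ := hT.half (hT.sq hd) hz2 hm
  set u := (d * z) ^ m with hu
  rcases Nat.even_or_odd m with ⟨k, hk⟩ | ⟨k, hk⟩
  · have hr : d * u ∈ link D d := by
      refine ⟨?_, fun h => hu1 (mul_left_cancel (h.trans (mul_one d).symm)), commute_cj_self hud⟩
      rw [hu, show m = 2 * k by omega, refl_even (hT.sq hd) hz2]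
      exact hT.inv' _ _ hd
    have hperm := hT.pair_stab hf hg huz
    obtain ⟨h, ⟨h1, h2⟩, hfix⟩ := exists_fixed_of_odd ((hT.loc f hf).common_odd g hg) (cj u)
      (fun y hy => by
        obtain ⟨⟨yD, yf, cfy⟩, -, yg, cgy⟩ := hy
        have cfy' := (cj_commute_iff u f y).2 cfy
        have cgy' := (cj_commute_iff u g y).2 cgy
        have yf' : cj u y ≠ cj u f := fun e => yf (cj_injective u e)
        have yg' : cj u y ≠ cj u g := fun e => yg (cj_injective u e)
        rcases hperm with ⟨e1, e2⟩ | ⟨e1, e2⟩ <;> rw [e1] at cfy' yf' <;> rw [e2] at cgy' yg'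
        · exact ⟨⟨hT.inv' _ _ yD, yf', cfy'⟩, hT.inv' _ _ yD, yg', cgy'⟩
        · exact ⟨⟨hT.inv' _ _ yD, yg', cgy'⟩, hT.inv' _ _ yD, yf', cfy'⟩)
      (fun y _ => by rw [← cj_mul, hu2, cj_one])
    refine ⟨h, h1.1, (hT.commute_pair hd hr h1.1 ?_).1, h1.2.2.symm⟩
    rw [← mul_assoc, hT.sq hd, one_mul]
    exact ((cj_eq_self_iff u h).1 hfix).symm
  · set v := (z * d) ^ k
    have hdu : d * u = cj v f * cj v g := by
      rw [← cj_map_mul, ← hz, hu, hk, refl_odd (hT.sq hd) hz2]
    have hui : (z * d) ^ m = u := by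
      rw [show z * d = (d * z)⁻¹ by
        rw [mul_inv_rev, inv_eq_of_mul_eq_one_right (hT.sq hd), inv_eq_of_mul_eq_one_right hz2],
        inv_pow, ← hu, inv_eq_of_mul_eq_one_right hu2]
    set d' := z * u with hd'
    have hd'D : d' ∈ D := by
      rw [hd', ← hui, hk, refl_odd hz2 (hT.sq hd)]
      exact hT.inv' _ _ hd
    obtain ⟨cd'f, cd'g⟩ := hT.commute_pair hf hg hd'D ((Commute.refl z).mul_left huz)
    by_cases huD : u ∈ D
    · obtain ⟨cuf, cug⟩ := hT.commute_pair hf hg huD huz
      exact ⟨u, huD, hud, cuf⟩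
    exfalso
    set p := cj v f with hp
    set q := cj v g with hq
    have hpD : p ∈ D := hT.inv' _ _ hf
    have hql : q ∈ link D p := ⟨hT.inv' _ _ hg.1, fun e => hg.2.1 (cj_injective v e),
      (cj_commute_iff v f g).2 hfg⟩
    obtain ⟨cdp, cdq⟩ := hT.commute_pair hpD hql hd (hdu ▸ commute_cj_self hud)
    have hupq : u = d * (p * q) := by rw [← hdu, ← mul_assoc, hT.sq hd, one_mul]
    have hdp : d ≠ p := fun e => huD (by
      rw [hupq, e, ← mul_assoc, hT.sq hpD, one_mul]; exact hql.1)
    have hdq : d ≠ q := fun e => huD (by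
      rw [hupq, hql.2.2.eq, ← mul_assoc, e, hT.sq hql.1, one_mul]; exact hpD)
    have hufg : u = f * (g * d') := by rw [hd', ← mul_assoc f g, ← hz, ← mul_assoc, hz2, one_mul]
    have hd'f : d' ≠ f := fun e => huD (by
      rw [hufg, e, ← mul_assoc, hfg.eq, mul_assoc, hT.sq hf, mul_one]; exact hg.1)
    have hd'g : d' ≠ g := fun e => huD (by rw [hufg, e, hT.sq hg.1, mul_one]; exact hf)
    refine hdf (hT.triple_commute (x := d) (y := p) (w := q) (a := f) (b := g) (c := d') ?_ ?_
      (hufg.symm.trans hupq))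
    · refine ⟨by simp [Ne.symm hg.2.1, Ne.symm hd'f, Ne.symm hd'g], ?_, ?_⟩
      · simp only [List.mem_cons, List.not_mem_nil, or_false, forall_eq_or_imp, forall_eq]
        exact ⟨hf, hg.1, hd'D⟩
      · simp only [List.mem_cons, List.not_mem_nil, or_false, forall_eq_or_imp, forall_eq]
        exact ⟨⟨Commute.refl _, hfg, cd'f.symm⟩, ⟨hfg.symm, Commute.refl _, cd'g.symm⟩,
          cd'f, cd'g, Commute.refl _⟩
    · refine ⟨by simp [hdp, hdq, Ne.symm hql.2.1], ?_, ?_⟩
      · simp only [List.mem_cons, List.not_mem_nil, or_false, forall_eq_or_imp, forall_eq]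
        exact ⟨hd, hpD, hql.1⟩
      · simp only [List.mem_cons, List.not_mem_nil, or_false, forall_eq_or_imp, forall_eq]
        exact ⟨⟨Commute.refl _, cdp, cdq⟩, ⟨cdp.symm, Commute.refl _, hql.2.2⟩,
          cdq.symm, hql.2.2.symm, Commute.refl _⟩

/-- The members form a set of 3-transpositions. -/
theorem tt_set : Cfsg.IsThreeTranspositionSet D := by
  refine ⟨fun d hd => orderOf_eq_prime (by rw [pow_two]; exact hT.sq hd) (hT.ne_one hd), fun d hd e he => ?_⟩
  by_cases hc : Commute d e
  · left; rw [hc.mul_pow, pow_two, pow_two, hT.sq hd, hT.sq he, one_mul]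
  · right
    obtain ⟨h, hh, hhd, hhe⟩ := hT.common hd he hc
    have hne : d ≠ h := fun e' => hc (e' ▸ hhe)
    have hne' : e ≠ h := fun e' => hc ((e' ▸ hhd : Commute e d).symm)
    have hb := (hT.loc h hh).braid d ⟨hd, hne, hhd⟩ e ⟨he, hne', hhe⟩ hc
    calc (d * e) ^ 3 = d * e * d * (e * d * e) := by simp only [pow_succ, pow_zero, one_mul, mul_assoc]
      _ = d * e * d * (d * e * d) := by rw [← hb]
      _ = d * e * (d * d) * e * d := by simp only [mul_assoc]
      _ = 1 := by rw [hT.sq hd, mul_one, mul_assoc d e e, hT.sq he, mul_one, hT.sq hd]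

end TT

end Cfsg.Agent.FiTrans
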