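import Cfsg.Agent.FiTrans.PairAut
import Cfsg.Agent.TTLink.M24UniqEdge

/-!
Compatible isomorphisms of the centralisers of the members of a link, agreeing on adjacent pairs.
-/

set_option autoImplicit false
set_option maxHeartbeats 1000000

namespace Cfsg.Agent.FiTrans

open Cfsg.Agent.TTLink Cfsg.Agent.ThreeTransp45 Cfsg.Agent.SporB UnitarySix

theorem exists_over {K P : Type*} [Group K] [Finite K] [Group P] {ρ : K →* P} (hs : Function.Surjective ρ)
    (γ : MulAut K) (h : ∀ z, ρ z = 1 → ρ (γ z) = 1) : ∃ β, Over ρ γ β := by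
  have hle : ρ.ker.map γ.toMonoidHom ≤ ρ.ker := by
    rintro _ ⟨z, hz, rfl⟩
    exact h z hz
  have hmap : ρ.ker.map γ.toMonoidHom = ρ.ker :=
    Subgroup.eq_of_le_of_card_ge hle (le_of_eq (Subgroup.card_map_of_injective γ.injective).symm)
  let q := QuotientGroup.quotientKerEquivOfSurjective ρ hs
  let c := QuotientGroup.congr ρ.ker ρ.ker γ hmap
  refine ⟨q.symm.trans (c.trans q), fun z => ?_⟩
  have h' : q.symm (ρ z) = (z : _ ⧸ ρ.ker) := q.symm_apply_eq.2 rfl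
  show ρ (γ z) = q (c (q.symm (ρ z)))
  rw [h']
  rfl

/-- An automorphism fixing a transvection and those commuting with it is trivial or the conjugation by it. -/
theorem psu_kernel {F : Type} [Field F] [Fintype F] (hF : Fintype.card F = 4) {β : MulAut (Cfsg.PSU 6 F 2)}
    (hβ : ∀ y ∈ allTT hF, β y ∈ allTT hF) {P : Cfsg.PSU 6 F 2} (hP : P ∈ allTT hF) (hPf : β P = P)
    (hfix : ∀ y ∈ link (allTT hF) P, β y = y) :
    (∀ y ∈ allTT hF, β y = y) ∨ ∀ y ∈ allTT hF, β y = cj P y := by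
  classical
  have hE := allTT_data hF
  have hS := allTT_srg hF
  have hnear : ∀ y ∈ allTT hF, Commute P y → β y = y := fun y hy hc => by
    by_cases e : y = P
    · rw [e, hPf]
    · exact hfix y ⟨hy, e, hc⟩
  have hop : ∀ Y ∈ allTT hF, ¬ Commute P Y → β Y = Y ∨ β Y = cj P Y := by
    intro Y hY hPY
    refine (line_three hF hP hY (hβ Y hY) hPY fun q hq h1 h2 => ?_).resolve_left fun e => hPY ?_
    · have := (aut_commute_iff β q Y).2 h2
      rwa [hnear q hq h1.symm] at this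
    · rw [show Y = P from β.injective (e.trans hPf.symm)]
  by_cases hall : ∀ Y ∈ allTT hF, ¬ Commute P Y → β Y = cj P Y
  · right
    intro y hy
    by_cases hc : Commute P y
    · rw [hnear y hy hc, (cj_eq_self_iff P y).2 hc]
    · exact hall y hy hc
  left
  push Not at hall
  obtain ⟨Y, hY, hPY, hYn⟩ := hall
  have hYf : β Y = Y := (hop Y hY hPY).resolve_right hYn
  -- spreading along commuting pairs
  have spread : ∀ U ∈ allTT hF, ¬ Commute P U → β U = U → ∀ Z ∈ allTT hF, ¬ Commute P Z → Commute U Z →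
      β Z = Z := by
    intro U hU hPU hUf Z hZ hPZ hUZ
    refine (hop Z hZ hPZ).resolve_right fun h => hPU ?_
    have h1 : Commute U (cj P Z) := by
      have := (aut_commute_iff β U Z).2 hUZ
      rwa [hUf, h] at this
    rw [show cj P Z = cj Z P by rw [hE.cj_eq hP, hE.cj_eq hZ, hE.braid hP hZ hPZ]] at h1
    have h2 := (cj_commute_iff Z U P).1 (by rwa [(cj_eq_self_iff Z U).2 hUZ.symm])
    exact h2.symm
  intro Z hZ
  by_cases hc : Commute P Z
  · exact hnear Z hZ hc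
  by_cases hYZ : Commute Y Z
  · exact spread Y hY hPY hYf Z hZ hc hYZ
  by_cases hU : ∃ U ∈ link (allTT hF) Y ∩ link (allTT hF) Z, ¬ Commute P U
  · obtain ⟨U, hU, hPU⟩ := hU
    exact spread U hU.1.1 hPU (spread Y hY hPY hYf U hU.1.1 hPU hU.1.2.2) Z hZ hc hU.2.2.2.symm
  push Not at hU
  have heq : link (allTT hF) Y ∩ link (allTT hF) Z = link (allTT hF) P ∩ link (allTT hF) Y := by
    refine Set.eq_of_subset_of_ncard_le (fun U hU' => ?_) (le_of_eq ?_) (Set.toFinite _)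
    · refine ⟨⟨hU'.1.1, fun e => hPY ?_, hU U hU'⟩, hU'.1⟩
      exact (e ▸ hU'.1.2.2).symm
    · rw [hS.far P hP Y hY hPY, hS.far Y hY Z hZ hYZ]
  have h3 := line_three hF hP hY hZ hPY fun q hq h1 h2 => by
    have hq' : q ∈ link (allTT hF) P ∩ link (allTT hF) Y :=
      ⟨⟨hq, fun e => hPY (e ▸ h2), h1.symm⟩, hq, fun e => hPY ((e ▸ h1 : Commute Y P)).symm, h2.symm⟩
    rw [← heq] at hq'
    exact hq'.2.2.2.symm
  rcases h3 with e | e | e
  · rw [e]; exact hPf
  · rw [e]; exact hYf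
  · rw [e, show cj P Y = P * Y * P⁻¹ from rfl, map_mul, map_mul, map_inv, hPf, hYf]

universe u v

variable {G : Type u} [Group G] [Finite G] {G' : Type v} [Group G'] [Finite G'] {D : Set G} {D' : Set G'}
  {X : Type*} [Group X] [Finite X] {E : Set X} {d : G}
  {π : ↥(Subgroup.centralizer ({d} : Set G)) →* X}

theorem exists_glue (HY : Hyp d π E) (hT' : TT D') {d' : G'} (hd' : d' ∈ D') {f : G → G'}
    (L : LinkIso (conjugatesOf d) D' d d' f) : ∃ T, Glue (conjugatesOf d) D' d d' f T := by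
  classical
  have hD := HY.data
  have hT := HY.tt
  have hd := HY.mem
  have hD' : Data D' := ⟨hT'.tt_set, hT'.inv'⟩
  obtain ⟨w₀, hw₀⟩ := (hT.loc d hd).nonempty
  have hcw₀ : Commute w₀ d := hw₀.2.2.symm
  set w' := f w₀
  have hw' : w' ∈ link D' d' := (L.link_iff hd hcw₀).2 hw₀
  obtain ⟨g₁, hg₁⟩ := hT.cl d hd w₀ hw₀.1
  obtain ⟨g₂, hg₂⟩ := hT'.cl d' hd' w' hw'.1
  have hg₁' : cj g₁⁻¹ w₀ = d := by rw [← hg₁, cj_inv_cj]
  set ψ := cj g₂ ∘ f ∘ cj g₁⁻¹
  have Lψ : LinkIso (conjugatesOf d) D' w₀ w' ψ :=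
    ((linkIso_cj hD hg₁').trans L).trans (linkIso_cj hD' hg₂)
  have hu : ψ d ∈ link D' w' := (Lψ.link_iff hw₀.1 hw₀.2.2).2 (link_symm hd hw₀)
  obtain ⟨k, hk, hk'⟩ := (hT'.loc w' hw'.1).trans _ hu d' (link_symm hd' hw')
  set ψ₁ := cj k ∘ ψ
  have L₁ : LinkIso (conjugatesOf d) D' w₀ w' ψ₁ :=
    Lψ.trans (linkIso_cj hD' ((cj_eq_self_iff k w').2 hk))
  have h₁d : ψ₁ d = d' := hk'
  obtain ⟨e₁, he₁⟩ := L₁.pair_equiv (b := d) hw₀.2.2 h₁d
  obtain ⟨e₀, he₀⟩ := L.pair_equiv (b := w₀) hcw₀ (rfl : f w₀ = w')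
  -- correct on the joint centraliser
  let γ : MulAut ↥(Subgroup.centralizer ({w₀, d} : Set G)) :=
    e₁.trans ((MulEquiv.subgroupCongr (by rw [Set.pair_comm])).trans
      (e₀.symm.trans (MulEquiv.subgroupCongr (by rw [Set.pair_comm]))))
  have hγ : ∀ z, f (γ z) = ψ₁ z := fun z => by
    show f (e₀.symm _ : G) = _
    rw [← he₀, e₀.apply_symm_apply]
    exact he₁ z
  have hγc : ∀ z, Commute (γ z : G) w₀ ∧ Commute (γ z : G) d := fun z => mem_centralizer_pair.1 (γ z).2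
  have hγd : ∀ h, (γ ⟨d, h⟩ : G) = d := fun h =>
    L.inj _ _ (hγc _).2 (Commute.refl d) (by rw [hγ, L.base]; exact h₁d)
  have hγw : ∀ h, (γ ⟨w₀, h⟩ : G) = w₀ := fun h =>
    L.inj _ _ (hγc _).2 hcw₀ (by rw [hγ]; exact L₁.base)
  have hγS : ∀ z ∈ commonSet (conjugatesOf d) w₀ d, γ z ∈ commonSet (conjugatesOf d) w₀ d := by
    intro z hz
    have hm : (γ z : G) ∈ conjugatesOf d := by
      rw [← L.mem _ (hγc z).2, hγ, L₁.mem _ hz.1.2.2.symm]; exact hz.1.1
    refine ⟨⟨hm, fun e => hz.1.2.1 ?_, (hγc z).1.symm⟩, hm, fun e => hz.2.2.1 ?_, (hγc z).2.symm⟩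
    · refine L₁.inj _ _ hz.1.2.2.symm (Commute.refl w₀) ?_
      rw [← hγ, show (γ z : G) = w₀ from e]; exact L₁.base.symm
    · refine L₁.inj _ _ hz.1.2.2.symm hw₀.2.2 ?_
      rw [← hγ, show (γ z : G) = d from e, L.base]; exact h₁d.symm
  obtain ⟨π₁, HY₁, hcl⟩ := HY.at_conj hw₀.1
  obtain ⟨m, hm⟩ := HY₁.pair_inner (hcl.symm ▸ link_symm hd hw₀) γ (by rw [hcl]; exact hγS) hγw hγd
  have hmc := mem_centralizer_pair.1 m.2
  have hmw : cj (m : G)⁻¹ w₀ = w₀ := (cj_eq_self_iff _ _).2 hmc.1.inv_left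
  set ψ₀ := ψ₁ ∘ cj (m : G)⁻¹
  have L₀ : LinkIso (conjugatesOf d) D' w₀ w' ψ₀ := (linkIso_cj hD hmw).trans L₁
  have hag : ∀ g, Commute g d → Commute g w₀ → ψ₀ g = f g := by
    intro g hgd hgw
    set z : ↥(Subgroup.centralizer ({w₀, d} : Set G)) := ⟨g, mem_centralizer_pair.2 ⟨hgw, hgd⟩⟩
    have h := hγ (m⁻¹ * z * m)
    rw [hm, MulAut.conj_apply] at h
    simp only [mul_assoc, mul_inv_cancel, mul_one, mul_inv_cancel_left] at h
    show ψ₁ (cj (m : G)⁻¹ g) = f g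
    rw [cj, inv_inv]
    exact (h.trans (by simp [z, mul_assoc])).symm
  have h₀d : ψ₀ d = d' := (hag d (Commute.refl d) hw₀.2.2).trans L.base
  -- spread over the link
  have hex : ∀ w, ∃ c, w ∈ link (conjugatesOf d) d → Commute c d ∧ cj c w₀ = w := fun w => by
    by_cases hw : w ∈ link (conjugatesOf d) d
    · obtain ⟨c, hc, e⟩ := (hT.loc d hd).trans _ hw₀ _ hw
      exact ⟨c, fun _ => ⟨hc, e⟩⟩
    · exact ⟨1, fun h => absurd h hw⟩
  choose cc hcc using hex
  let T : G → G → G' := fun w => cj (f (cc w)) ∘ ψ₀ ∘ cj (cc w)⁻¹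
  have hTc : ∀ c, Commute c d → ∀ g, Commute g w₀ → T (cj c w₀) (cj c g) = cj (f c) (ψ₀ g) := by
    intro c hc g hg
    have hw : cj c w₀ ∈ link (conjugatesOf d) d := stay_link hD hc hw₀
    obtain ⟨h1, h2⟩ := hcc _ hw
    set c' := cc (cj c w₀)
    show cj (f c') (ψ₀ (cj c'⁻¹ (cj c g))) = _
    have hm' : Commute (c'⁻¹ * c) d := h1.inv_left.mul_left hc
    have hmw' : Commute (c'⁻¹ * c) w₀ := by
      refine (cj_eq_self_iff _ _).1 ?_
      rw [cj_mul, ← h2, cj_inv_cj]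
    rw [← cj_mul c'⁻¹ c g, L₀.map_cj hmw' hg, ← cj_mul, hag _ hm' hmw', L.mul _ _ h1.inv_left hc,
      L.map_inv h1, mul_inv_cancel_left]
  refine ⟨T, L, fun w hw => ?_, fun w hw => ?_, fun w hw g hgd hgw => ?_, fun c hc w hw g hg => ?_⟩
  · obtain ⟨h1, h2⟩ := hcc w hw
    refine ((linkIso_cj hD ((congrArg (cj (cc w)⁻¹) h2.symm).trans (cj_inv_cj _ _))).trans L₀).trans
      (linkIso_cj hD' ?_)
    show cj (f (cc w)) (f w₀) = f w
    rw [← L.map_cj h1 hcw₀, h2]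
  · obtain ⟨h1, h2⟩ := hcc w hw
    have h := hTc (cc w) h1 d hw₀.2.2
    rw [h2, (cj_eq_self_iff _ _).2 h1, h₀d, (cj_eq_self_iff _ _).2 (L.comm _ h1)] at h
    exact h
  · obtain ⟨h1, h2⟩ := hcc w hw
    have e1 : Commute (cj (cc w)⁻¹ g) d := by
      have := (cj_commute_iff (cc w)⁻¹ g d).2 hgd
      rwa [(cj_eq_self_iff _ d).2 h1.inv_left] at this
    have e2 : Commute (cj (cc w)⁻¹ g) w₀ := by
      refine (cj_commute_iff (cc w) _ _).1 ?_
      rw [cj_cj_inv, h2]; exact hgw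
    have h := hTc (cc w) h1 _ e2
    rw [h2, cj_cj_inv, hag _ e1 e2, ← L.map_cj h1 e1, cj_cj_inv] at h
    exact h
  · obtain ⟨h1, h2⟩ := hcc w hw
    have e2 : Commute (cj (cc w)⁻¹ g) w₀ := by
      refine (cj_commute_iff (cc w) _ _).1 ?_
      rw [cj_cj_inv, h2]; exact hg
    have ha := hTc (cc w) h1 _ e2
    have hb := hTc (c * cc w) (hc.mul_left h1) _ e2
    rw [h2, cj_cj_inv] at ha
    rw [cj_mul, cj_mul, h2, cj_cj_inv] at hb
    rw [hb, ha, ← cj_mul, L.mul _ _ hc h1]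

namespace Hyp

variable (HY : Hyp d π E)
include HY

/-- The centraliser of a member is transitive on ordered adjacent pairs of its neighbours. -/
theorem trans_edge {w x a b : G} (hw : w ∈ link (conjugatesOf d) d)
    (hx : x ∈ link (conjugatesOf d) d ∩ link (conjugatesOf d) w) (ha : a ∈ link (conjugatesOf d) d)
    (hb : b ∈ link (conjugatesOf d) d ∩ link (conjugatesOf d) a) :
    ∃ c, Commute c d ∧ cj c w = a ∧ cj c x = b := by
  obtain ⟨c, hc, hca⟩ := (HY.tt.loc d HY.mem).trans w hw a ha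
  have hx' : cj c x ∈ link (conjugatesOf d) d ∩ link (conjugatesOf d) a := by
    refine ⟨stay_link HY.data hc hx.1, ?_⟩
    have e : cj c '' link (conjugatesOf d) w = link (conjugatesOf d) a := by rw [link_image HY.data, hca]
    exact e ▸ Set.mem_image_of_mem _ hx.2
  obtain ⟨F, _, _, hF, ρ, R⟩ := HY.exists_pairMap ha
  set Q := ρ ⟨cj c x, common_mem_centralizer hx'⟩
  set Q' := ρ ⟨b, common_mem_centralizer hb⟩
  obtain ⟨h, hh⟩ := allTT_cl hF Q (R.img ▸ ⟨_, hx', rfl⟩) Q' (R.img ▸ ⟨_, hb, rfl⟩)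
  obtain ⟨k, rfl⟩ := R.surj h
  have hk := mem_centralizer_pair.1 k.2
  have hmem : cj (k : G) (cj c x) ∈ link (conjugatesOf d) d ∩ link (conjugatesOf d) a :=
    ⟨stay_link HY.data hk.1 hx'.1, stay_link HY.data hk.2 hx'.2⟩
  refine ⟨(k : G) * c, hk.1.mul_left hc, by rw [cj_mul, hca, (cj_eq_self_iff _ _).2 hk.2], ?_⟩
  rw [cj_mul]
  have e : ρ ⟨cj (k : G) (cj c x), common_mem_centralizer hmem⟩ = Q' := by
    rw [show (⟨cj (k : G) (cj c x), common_mem_centralizer hmem⟩ :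
      ↥(Subgroup.centralizer ({d, a} : Set G))) = k * ⟨cj c x, common_mem_centralizer hx'⟩ * k⁻¹ from
      Subtype.ext rfl, map_mul, map_mul, map_inv]
    exact hh
  exact congrArg Subtype.val (R.inj hmem hb e)

variable {d' : G'} {f : G → G'} {T : G → G → G'} (L : Glue (conjugatesOf d) D' d d' f T)
include L

/-- The isomorphisms at adjacent neighbours agree, possibly after conjugation by `d`. -/
theorem edge_cases {w x : G} (hw : w ∈ link (conjugatesOf d) d)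
    (hx : x ∈ link (conjugatesOf d) d ∩ link (conjugatesOf d) w) :
    (∀ y ∈ link (conjugatesOf d) w ∩ link (conjugatesOf d) x, T w y = T x y) ∨
      ∀ y ∈ link (conjugatesOf d) w ∩ link (conjugatesOf d) x, T w y = T x (cj d y) := by
  classical
  have hD := HY.data
  have hd := HY.mem
  have hwx : Commute w x := hx.2.2.2
  have Lw := L.loc w hw
  have Lx := L.loc x hx.1
  have hTwx : T w x = f x := L.agree w hw x hx.1.2.2.symm hwx.symm
  have hTxw : T x w = f w := L.agree x hx.1 w hw.2.2.symm hwx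
  obtain ⟨ew, hew⟩ := Lw.pair_equiv (b := x) hwx.symm hTwx
  obtain ⟨ex, hex⟩ := Lx.pair_equiv (b := w) hwx hTxw
  let γ : MulAut ↥(Subgroup.centralizer ({w, x} : Set G)) :=
    ew.trans ((MulEquiv.subgroupCongr (by rw [Set.pair_comm])).trans
      (ex.symm.trans (MulEquiv.subgroupCongr (by rw [Set.pair_comm]))))
  have hγ : ∀ z, T x (γ z) = T w z := fun z => by
    show T x (ex.symm _ : G) = _
    rw [← hex, ex.apply_symm_apply]
    exact hew z
  have hγc : ∀ z, Commute (γ z : G) w ∧ Commute (γ z : G) x := fun z => mem_centralizer_pair.1 (γ z).2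
  have hfix : ∀ z : ↥(Subgroup.centralizer ({w, x} : Set G)), Commute (z : G) d → γ z = z := by
    intro z hz
    have hzc := mem_centralizer_pair.1 z.2
    refine Subtype.ext (Lx.inj _ _ (hγc z).2 hzc.2 ?_)
    rw [hγ, L.agree w hw z hz hzc.1, L.agree x hx.1 z hz hzc.2]
  obtain ⟨π₁, HY₁, hcl⟩ := HY.at_conj hw.1
  obtain ⟨F, i1, i2, hF, ρ, R⟩ := HY₁.exists_pairMap (b := x) (hcl.symm ▸ hx.2)
  rw [hcl] at R
  have hS : ∀ z : ↥(Subgroup.centralizer ({w, x} : Set G)),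
      (z : G) ∈ link (conjugatesOf d) w ∩ link (conjugatesOf d) x →
        (γ z : G) ∈ link (conjugatesOf d) w ∩ link (conjugatesOf d) x := by
    intro z hz
    have hzc := mem_centralizer_pair.1 z.2
    have hm : (γ z : G) ∈ conjugatesOf d := by
      rw [← Lx.mem _ (hγc z).2, hγ, Lw.mem _ hzc.1]; exact hz.1.1
    refine ⟨⟨hm, fun e => hz.1.2.1 ?_, (hγc z).1.symm⟩, hm, fun e => hz.2.2.1 ?_, (hγc z).2.symm⟩
    · refine Lw.inj _ _ hzc.1 (Commute.refl w) ?_
      rw [← hγ, show (γ z : G) = w from e, hTxw, Lw.base]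
    · refine Lw.inj _ _ hzc.1 hwx.symm ?_
      rw [← hγ, show (γ z : G) = x from e, hTwx, Lx.base]
  have hker : ∀ z, ρ z = 1 → ρ (γ z) = 1 := fun z hz => by
    have : Commute (z : G) d := by
      rcases (R.ker z).1 hz with e | e | e | e <;> rw [e]
      exacts [Commute.one_left d, hw.2.2.symm, hx.1.2.2.symm, hw.2.2.symm.mul_left hx.1.2.2.symm]
    rw [hfix z this, hz]
  obtain ⟨β, hβ⟩ := exists_over R.surj γ hker
  have hdK : d ∈ Subgroup.centralizer ({w, x} : Set G) := mem_centralizer_pair.2 ⟨hw.2.2, hx.1.2.2⟩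
  set dd : ↥(Subgroup.centralizer ({w, x} : Set G)) := ⟨d, hdK⟩
  have hdS : (dd : G) ∈ link (conjugatesOf d) w ∩ link (conjugatesOf d) x :=
    ⟨link_symm hd hw, link_symm hd hx.1⟩
  have hβE : ∀ y ∈ allTT hF, β y ∈ allTT hF := by
    intro y hy
    rw [← R.img] at hy ⊢
    obtain ⟨z, hz, rfl⟩ := hy
    exact ⟨γ z, hS z hz, hβ z⟩
  rcases psu_kernel hF hβE (R.img ▸ ⟨dd, hdS, rfl⟩ : ρ dd ∈ allTT hF)
    (by rw [← hβ, hfix dd (Commute.refl d)]) (fun y hy => by
      obtain ⟨z, hz, rfl⟩ : ∃ z : ↥(Subgroup.centralizer ({w, x} : Set G)),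
          (z : G) ∈ link (conjugatesOf d) w ∩ link (conjugatesOf d) x ∧ ρ z = y := by
        have := hy.1; rw [← R.img] at this; exact this
      rw [← hβ, hfix z (R.refl z dd hz hdS hy.2.2.symm)]) with e | e
  · left
    intro y hy
    set Y : ↥(Subgroup.centralizer ({w, x} : Set G)) := ⟨y, common_mem_centralizer hy⟩
    have hfy : γ Y = Y := R.inj (hS Y hy) hy (by rw [hβ, e _ (R.img ▸ ⟨Y, hy, rfl⟩)])
    show T w (Y : G) = _
    rw [← hγ Y, hfy]
  · right
    intro y hy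
    set Y : ↥(Subgroup.centralizer ({w, x} : Set G)) := ⟨y, common_mem_centralizer hy⟩
    have hdy : ((dd * Y * dd⁻¹ : ↥(Subgroup.centralizer ({w, x} : Set G))) : G) ∈
        link (conjugatesOf d) w ∩ link (conjugatesOf d) x :=
      ⟨stay_link hD hw.2.2 hy.1, stay_link hD hx.1.2.2 hy.2⟩
    have hfy : γ Y = dd * Y * dd⁻¹ := R.inj (hS Y hy) hdy (by
      rw [hβ, e _ (R.img ▸ ⟨Y, hy, rfl⟩)]; simp [cj])
    show T w (Y : G) = _
    rw [← hγ Y, hfy]
    rfl

/-- The isomorphisms at adjacent neighbours agree. -/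
theorem edge_eq {w x : G} (hw : w ∈ link (conjugatesOf d) d)
    (hx : x ∈ link (conjugatesOf d) d ∩ link (conjugatesOf d) w) :
    ∀ y ∈ conjugatesOf d, Commute y w → Commute y x → T w y = T x y := by
  classical
  have hD := HY.data
  have hd := HY.mem
  rcases HY.edge_cases L hw hx with h | h
  · intro y hy hyw hyx
    by_cases e : y = w
    · rw [e, (L.loc w hw).base, L.agree x hx.1 w hw.2.2.symm hx.2.2.2]
    by_cases e' : y = x
    · rw [e', (L.loc x hx.1).base, L.agree w hw x hx.1.2.2.symm hx.2.2.2.symm]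
    exact h y ⟨⟨hy, e, hyw.symm⟩, hy, e', hyx.symm⟩
  exfalso
  have hall : ∀ a b, a ∈ link (conjugatesOf d) d → b ∈ link (conjugatesOf d) d ∩ link (conjugatesOf d) a →
      ∀ y ∈ link (conjugatesOf d) a ∩ link (conjugatesOf d) b, T a y = T b (cj d y) := by
    intro a b ha hb y hy
    obtain ⟨c, hcd, hca, hcb⟩ := HY.trans_edge hw hx ha hb
    have hy' : cj c⁻¹ y ∈ link (conjugatesOf d) w ∩ link (conjugatesOf d) x := by
      constructor
      · have : cj c⁻¹ '' link (conjugatesOf d) a = link (conjugatesOf d) w := by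
          rw [link_image hD, ← hca, cj_inv_cj]
        exact this ▸ Set.mem_image_of_mem _ hy.1
      · have : cj c⁻¹ '' link (conjugatesOf d) b = link (conjugatesOf d) x := by
          rw [link_image hD, ← hcb, cj_inv_cj]
        exact this ▸ Set.mem_image_of_mem _ hy.2
    have h1 := L.equiv c hcd w hw _ hy'.1.2.2.symm
    have h2 := L.equiv c hcd x hx.1 (cj d (cj c⁻¹ y))
      (by
        have := (cj_commute_iff d (cj c⁻¹ y) x).2 hy'.2.2.2.symm
        rwa [(cj_eq_self_iff d x).2 hx.1.2.2] at this)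
    rw [← h _ hy', ← h1, hca, hcb, cj_cj_inv] at h2
    rw [← h2]
    congr 1
    rw [← cj_mul, hcd.eq, cj_mul, cj_cj_inv]
  obtain ⟨π₁, HY₁, hcl⟩ := HY.at_conj hw.1
  obtain ⟨F, i1, i2, hF, ρ, R⟩ := HY₁.exists_pairMap (b := x) (hcl.symm ▸ hx.2)
  rw [hcl] at R
  set dd : ↥(Subgroup.centralizer ({w, x} : Set G)) :=
    ⟨d, mem_centralizer_pair.2 ⟨hw.2.2, hx.1.2.2⟩⟩
  have hdS : (dd : G) ∈ link (conjugatesOf d) w ∩ link (conjugatesOf d) x :=
    ⟨link_symm hd hw, link_symm hd hx.1⟩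
  have hP : ρ dd ∈ allTT hF := R.img ▸ ⟨dd, hdS, rfl⟩
  have hsrg := allTT_srg hF
  obtain ⟨U, hU⟩ : (link (allTT hF) (ρ dd)).Nonempty :=
    Set.nonempty_of_ncard_ne_zero (by rw [hsrg.deg _ hP]; norm_num)
  obtain ⟨Yq, hYq, hYn⟩ : ∃ Y ∈ link (allTT hF) U, ¬ Commute (ρ dd) Y := by
    by_contra hh
    push Not at hh
    have hsub : link (allTT hF) U ⊆ insert (ρ dd) (link (allTT hF) U ∩ link (allTT hF) (ρ dd)) := by
      intro z hz
      by_cases e : z = ρ dd
      · exact Or.inl e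
      · exact Or.inr ⟨hz, hz.1, e, hh z hz⟩
    have h := (Set.ncard_le_ncard hsub (Set.toFinite _)).trans (Set.ncard_insert_le _ _)
    rw [hsrg.deg _ hU.1, hsrg.adj _ hU.1 _ ⟨hP, Ne.symm hU.2.1, hU.2.2.symm⟩] at h
    omega
  obtain ⟨uu, huS, rfl⟩ : ∃ z : ↥(Subgroup.centralizer ({w, x} : Set G)),
      (z : G) ∈ link (conjugatesOf d) w ∩ link (conjugatesOf d) x ∧ ρ z = U := by
    have := hU.1; rw [← R.img] at this; exact this
  obtain ⟨yy, hy, rfl⟩ : ∃ z : ↥(Subgroup.centralizer ({w, x} : Set G)),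
      (z : G) ∈ link (conjugatesOf d) w ∩ link (conjugatesOf d) x ∧ ρ z = Yq := by
    have := hYq.1; rw [← R.img] at this; exact this
  have hu : (uu : G) ∈ link (conjugatesOf d) d :=
    ⟨huS.1.1, fun e => hU.2.1 (by rw [show uu = dd from Subtype.ext e]),
      (R.refl dd uu hdS huS hU.2.2 : Commute d (uu : G))⟩
  have hyd : ¬ Commute (yy : G) d := fun h => hYn
    ((show Commute dd yy from Subtype.ext h.symm.eq).map ρ)
  have hyu : (yy : G) ∈ link (conjugatesOf d) (uu : G) :=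
    ⟨hy.1.1, fun e => hYq.2.1 (by rw [show yy = uu from Subtype.ext e]),
      (R.refl uu yy huS hy hYq.2.2 : Commute (uu : G) (yy : G))⟩
  have hd1 : ∀ {a}, a ∈ link (conjugatesOf d) d → (yy : G) ∈ link (conjugatesOf d) a →
      cj d (yy : G) ∈ link (conjugatesOf d) a := fun ha hya => stay_link hD ha.2.2 hya
  have e1 := hall w x hw hx _ hy
  have e2 := hall x uu hx.1 ⟨hu, huS.2⟩ (cj d (yy : G)) ⟨hd1 hx.1 hy.2, hd1 hu hyu⟩
  have e3 := hall w uu hw ⟨hu, huS.1⟩ _ ⟨hy.1, hyu⟩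
  rw [hD.cj_cj hd] at e2
  rw [e1, e2] at e3
  have := (L.loc _ hu).inj _ _ hyu.2.2.symm (hd1 hu hyu).2.2.symm e3
  exact hyd ((cj_eq_self_iff d (yy : G)).1 this.symm).symm

end Hyp

end Cfsg.Agent.FiTrans
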