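import Cfsg.Agent.FiTrans.Count
import Cfsg.Agent.FiTrans.Edge

/-!
Compatible local isomorphisms give an isomorphism of the groups.
-/

set_option autoImplicit false
set_option maxHeartbeats 1000000

namespace Cfsg.Agent.FiTrans

open Cfsg.Agent.TTLink Cfsg.Agent.ThreeTransp45 Cfsg.Agent.SporB

variable {G : Type*} [Group G] [Finite G] {G' : Type*} [Group G'] [Finite G'] {X : Type*} [Group X] [Finite X]
  {X' : Type*} [Group X'] [Finite X'] {E : Set X} {E' : Set X'} {d : G} {d' : G'}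
  {π : ↥(Subgroup.centralizer ({d} : Set G)) →* X} {π' : ↥(Subgroup.centralizer ({d'} : Set G')) →* X'}
  {f : G → G'} {T : G → G → G'}

namespace Hyp

variable (HY : Hyp d π E) (HY' : Hyp d' π' E') (L : Glue (conjugatesOf d) (conjugatesOf d') d d' f T)
  (hμ : ∀ y ∈ conjugatesOf d', ¬ Commute d' y →
    (link (conjugatesOf d') d' ∩ link (conjugatesOf d') y).ncard = 351)
include HY HY' L hμ

/-- A far member has one image, and its common neighbours with `d` go onto those of the image. -/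
theorem far_image {y w : G} (hy : y ∈ conjugatesOf d) (hdy : ¬ Commute d y)
    (hw : w ∈ link (conjugatesOf d) d ∩ link (conjugatesOf d) y) :
    T w y ∈ conjugatesOf d' ∧ ¬ Commute d' (T w y) ∧
      (∀ t ∈ link (conjugatesOf d) d ∩ link (conjugatesOf d) y, T t y = T w y) ∧
      f '' (link (conjugatesOf d) d ∩ link (conjugatesOf d) y) =
        link (conjugatesOf d') d' ∩ link (conjugatesOf d') (T w y) ∧
      (link (conjugatesOf d) d ∩ link (conjugatesOf d) y).ncard = 351 := by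
  classical
  set D := conjugatesOf d with hD
  set D' := conjugatesOf d' with hD'
  have hd : d ∈ D := HY.mem
  have hd' : d' ∈ D' := HY'.mem
  have Lw := L.loc w hw.1
  have hyw : Commute y w := hw.2.2.2
  have hz : T w y ∈ D' := (Lw.mem y hyw).2 hy
  have hdz : ¬ Commute d' (T w y) := fun h => hdy (by
    rw [← Lw.commute_iff hw.1.2.2 hyw, L.tbase w hw.1]; exact h)
  set z := T w y with hzdef
  set S := link D d ∩ link D y with hS
  set S' := link D' d' ∩ link D' z with hS'
  set M : Set G := {x | x ∈ S ∧ T x y = z} with hM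
  have hwM : w ∈ M := ⟨hw, rfl⟩
  have hclM : ∀ x ∈ M, link D x ∩ S ⊆ M := fun x hx t ht =>
    ⟨ht.2, (HY.edge_eq L hx.1.1 ⟨ht.2.1, ht.1⟩ y hy hx.1.2.2.2 ht.2.2.2.2).symm.trans hx.2⟩
  have hcd : ∀ {x}, x ∈ link D d → Commute x d := fun hx => hx.2.2.symm
  have himg : ∀ x ∈ M, f x ∈ S' := fun x hx => by
    have h1 : f x ∈ link D' d' := (L.base.link_iff hd (hcd hx.1.1)).2 hx.1.1
    refine ⟨h1, h1.1, fun e => hdz (e ▸ h1.2.2), ?_⟩
    rw [← hx.2]
    exact (L.loc x hx.1.1).comm y hx.1.2.2.2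
  have hfinj : ∀ {A : Set G}, A ⊆ link D d → (f '' A).ncard = A.ncard := fun hA =>
    Set.InjOn.ncard_image fun a ha b hb e => L.base.inj a b (hcd (hA ha)) (hcd (hA hb)) e
  have hreg : ∀ x ∈ M, (link D x ∩ S).ncard = 126 := fun x hx => by
    rw [hS]
    exact HY.three hx.1.1.1 (link_symm hd hx.1.1) (link_symm hy hx.1.2) hdy
  -- the image is closed
  have hclI : ∀ x ∈ M, link D' (f x) ∩ S' = f '' (link D x ∩ S) := by
    intro x hx
    have hxd := hx.1.1
    have hsub : f '' (link D x ∩ S) ⊆ link D' (f x) ∩ S' := by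
      rintro _ ⟨t, ht, rfl⟩
      exact ⟨⟨(himg t (hclM x hx ht)).1.1, fun e => ht.1.2.1
        (L.base.inj t x (hcd ht.2.1) (hcd hxd) e),
        (L.base.commute_iff (hcd hxd) (hcd ht.2.1)).2 ht.1.2.2⟩, himg t (hclM x hx ht)⟩
    refine (Set.eq_of_subset_of_ncard_le hsub (le_of_eq ?_) (Set.toFinite _)).symm
    rw [hfinj (fun t ht => ht.2.1), hreg x hx, hS']
    exact HY'.three (himg x hx).1.1 (link_symm hd' (himg x hx).1) (link_symm hz (himg x hx).2) hdz
  obtain ⟨e', J'⟩ := HY'.linkEmb hd'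
  have hS'c : S'.ncard = 351 := hμ z hz hdz
  have hMl : M ⊆ link D d := fun x hx => hx.1.1
  have hIl : f '' M ⊆ S' := by rintro _ ⟨x, hx, rfl⟩; exact himg x hx
  have hIM : ∀ x ∈ M, link D' (f x) ∩ S' ⊆ f '' M := fun x hx => by
    rw [hclI x hx]
    exact Set.image_mono (hclM x hx)
  have hA := J'.closed_count HY'.prim (M := f '' M) (Z := S' \ f '' M) (fun v hv => (hIl hv).1)
    ⟨_, w, hwM, rfl⟩ (by
      rintro _ ⟨x, hx, rfl⟩
      rw [show link D' d' ∩ link D' (f x) ∩ f '' M = link D' (f x) ∩ S' from Set.Subset.antisymm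
        (fun v hv => ⟨hv.1.2, hIl hv.2⟩) (fun v hv => ⟨⟨hv.2.1, hv.1⟩, hIM x hx hv⟩),
        hclI x hx, hfinj (fun t ht => ht.2.1), hreg x hx])
    (fun v hv => hv.1.1) (fun v hv => hv.2) (by
      intro v hv
      refine Set.eq_empty_iff_forall_notMem.2 fun u hu => ?_
      obtain ⟨x, hx, rfl⟩ := hu.2
      exact hv.2 (hIM x hx ⟨link_symm hv.1.1.1 hu.1, hv.1⟩))
    (hS'c ▸ Set.ncard_le_ncard hIl (Set.toFinite _)) (by
      rw [Set.ncard_sdiff hIl (Set.toFinite _), hS'c]
      omega)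
  have hfM : f '' M = S' := Set.eq_of_subset_of_ncard_le hIl (by rw [hS'c, hA.1]) (Set.toFinite _)
  have hMc : M.ncard = 351 := by rw [← hfinj hMl, hA.1]
  obtain ⟨e, J⟩ := HY.linkEmb hd
  have hB := J.closed_count HY.prim (M := M) (Z := S \ M) hMl ⟨w, hwM⟩ (fun x hx => by
      rw [show link D d ∩ link D x ∩ M = link D x ∩ S from Set.Subset.antisymm
        (fun v hv => ⟨hv.1.2, hv.2.1⟩) (fun v hv => ⟨⟨hv.2.1, hv.1⟩, hclM x hx hv⟩), hreg x hx])
    (fun v hv => hv.1.1) (fun v hv => hv.2) (by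
      intro v hv
      refine Set.eq_empty_iff_forall_notMem.2 fun u hu => ?_
      exact hv.2 (hclM u hu.2 ⟨link_symm hv.1.1.1 hu.1, hv.1⟩))
    hMc.le (by omega)
  have hMS : M = S := Set.Subset.antisymm (fun x hx => hx.1) fun x hx => by
    by_contra h
    exact Set.eq_empty_iff_forall_notMem.1 hB.2 x ⟨hx, h⟩
  exact ⟨hz, hdz, fun t ht => (hMS ▸ ht : t ∈ M).2, hMS ▸ hfM, hMS ▸ hMc⟩

/-- Two adjacent members far from `d` share a neighbour in its link. -/
theorem common_off {x y : G} (hx : x ∈ conjugatesOf d) (hy : y ∈ link (conjugatesOf d) x)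
    (hdx : ¬ Commute d x) (hdy : ¬ Commute d y) :
    (link (conjugatesOf d) d ∩ (link (conjugatesOf d) x ∩ link (conjugatesOf d) y)).Nonempty := by
  classical
  set D := conjugatesOf d
  by_contra hh
  rw [Set.not_nonempty_iff_eq_empty] at hh
  obtain ⟨u, hu, hud, hux⟩ := HY.tt.common HY.mem hx hdx
  have hul : u ∈ link D d ∩ link D x :=
    ⟨⟨hu, fun e => hdx (e ▸ hux), hud.symm⟩, hu, fun e => hdx (e ▸ hud.symm), hux.symm⟩
  have hc := (HY.far_image HY' L hμ hx hdx hul).2.2.2.2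
  obtain ⟨e, J⟩ := HY.linkEmb hx
  have h := J.closed_count HY.prim (M := link D x ∩ link D d) (Z := {y}) Set.inter_subset_left
    ⟨u, hul.2, hul.1⟩ (fun v hv => by
      rw [← HY.three hv.1.1 (link_symm hx hv.1) (link_symm HY.mem hv.2) fun h => hdx h.symm]
      congr 1
      ext t
      simp only [Set.mem_inter_iff]
      tauto)
    (Set.singleton_subset_iff.2 hy) (fun z hz hz' => hdy (Set.mem_singleton_iff.1 hz ▸ hz'.2.2.2))
    (fun z hz => by
      rw [Set.mem_singleton_iff.1 hz]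
      refine Set.eq_empty_iff_forall_notMem.2 fun t ht => ?_
      exact Set.eq_empty_iff_forall_notMem.1 hh t ⟨ht.2.2, ht.2.1, ht.1⟩)
    (le_of_eq (Set.inter_comm _ _ ▸ hc)) (by
      rw [Set.inter_comm, hc]
      omega)
  exact (Set.singleton_ne_empty y) h.2

/-- The groups are isomorphic, respecting the classes. -/
theorem exists_iso : ∃ e : G ≃* G', e '' conjugatesOf d = conjugatesOf d' := by
  classical
  set D := conjugatesOf d with hD
  set D' := conjugatesOf d' with hD'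
  have hd : d ∈ D := HY.mem
  have hd' : d' ∈ D' := HY'.mem
  have hex : ∀ x, ∃ w, x ∈ D → ¬ Commute d x → w ∈ link D d ∩ link D x := fun x => by
    by_cases h : x ∈ D ∧ ¬ Commute d x
    · obtain ⟨w, hw⟩ := HY.lineData.common d hd x h.1 h.2
      exact ⟨w, fun _ _ => hw⟩
    · exact ⟨1, fun h1 h2 => absurd ⟨h1, h2⟩ h⟩
  choose ww hww using hex
  let Φ : G → G' := fun x => if Commute d x then f x else T (ww x) x
  have hnear : ∀ {x}, Commute d x → Φ x = f x := fun h => if_pos h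
  have hfar : ∀ {x}, x ∈ D → ¬ Commute d x → ∀ {w}, w ∈ link D d ∩ link D x → Φ x = T w x :=
    fun hx h w hw => (if_neg h).trans
      ((HY.far_image HY' L hμ hx h (hww _ hx h)).2.2.1 w hw).symm
  have hfarim : ∀ {x}, x ∈ D → ¬ Commute d x → Φ x ∈ D' ∧ ¬ Commute d' (Φ x) ∧
      f '' (link D d ∩ link D x) = link D' d' ∩ link D' (Φ x) := by
    intro x hx h
    obtain ⟨h1, h2, -, h4, -⟩ := HY.far_image HY' L hμ hx h (hww _ hx h)
    rw [hfar hx h (hww _ hx h)]
    exact ⟨h1, h2, h4⟩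
  have hmaps : Set.MapsTo Φ D D' := fun x hx => by
    by_cases h : Commute d x
    · rw [hnear h]; exact (L.base.mem x h.symm).2 hx
    · exact (hfarim hx h).1
  have hnearim : ∀ {x}, Commute d x → Commute d' (Φ x) := fun h => by
    rw [hnear h]; exact (L.base.comm _ h.symm).symm
  have hinj : Set.InjOn Φ D := by
    intro x hx z hz e
    by_cases h : Commute d x <;> by_cases k : Commute d z
    · rw [hnear h, hnear k] at e; exact L.base.inj x z h.symm k.symm e
    · exact absurd (e ▸ hnearim h) (hfarim hz k).2.1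
    · exact absurd (e.symm ▸ hnearim k) (hfarim hx h).2.1
    have hC : link D d ∩ link D x = link D d ∩ link D z := by
      have e' : f '' (link D d ∩ link D x) = f '' (link D d ∩ link D z) := by
        rw [(hfarim hx h).2.2, (hfarim hz k).2.2, e]
      exact ((show Set.InjOn f (link D d) from fun a ha b hb t =>
        L.base.inj a b ha.2.2.symm hb.2.2.symm t).image_eq_image_iff Set.inter_subset_left
        Set.inter_subset_left).1 e'
    rcases HY.lineData.unique d hd x hx z hz h k (fun b hb => (hC ▸ hb).2.2.2.symm) with t | t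
    · exact t.symm
    exfalso
    have hw := hww x hx h
    have hw' : ww x ∈ link D d ∩ link D z := hC ▸ hw
    have Lw := L.loc _ hw.1
    rw [hfar hx h hw, hfar hz k hw', t, Lw.map_cj hw.1.2.2 hw.2.2.2, L.tbase _ hw.1] at e
    exact (HY.far_image HY' L hμ hx h hw).2.1 ((cj_eq_self_iff _ _).1 e.symm)
  have hfwd : ∀ x ∈ D, ∀ z ∈ D, Commute x z → Commute (Φ x) (Φ z) := by
    intro x hx z hz hxz
    by_cases h : Commute d x <;> by_cases k : Commute d z
    · rw [hnear h, hnear k]; exact (L.base.commute_iff h.symm k.symm).2 hxz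
    · by_cases e : x = d
      · subst e; exact absurd hxz k
      have hw : x ∈ link D d ∩ link D z := ⟨⟨hx, e, h⟩, hx, fun e' => k (e' ▸ h), hxz.symm⟩
      rw [hfar hz k hw, hnear h]
      exact ((L.loc x hw.1).comm z hxz.symm).symm
    · by_cases e : z = d
      · subst e; exact absurd hxz.symm h
      have hw : z ∈ link D d ∩ link D x := ⟨⟨hz, e, k⟩, hz, fun e' => h (e' ▸ k), hxz⟩
      rw [hfar hx h hw, hnear k]
      exact (L.loc z hw.1).comm x hxz
    · by_cases e : z = x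
      · rw [e]
      obtain ⟨w, hw⟩ := HY.common_off HY' L hμ hx (y := z) ⟨hz, e, hxz⟩ h k
      rw [hfar hx h (w := w) ⟨hw.1, hw.2.1⟩, hfar hz k (w := w) ⟨hw.1, hw.2.2⟩]
      exact ((L.loc w hw.1).commute_iff hw.2.1.2.2 hw.2.2.2.2).2 hxz
  have hsurj : Set.SurjOn Φ D D' := by
    intro z hz
    by_cases h : Commute d' z
    · obtain ⟨g, hg, rfl⟩ := L.base.surj z h.symm
      exact ⟨g, (L.base.mem g hg).1 hz, hnear hg.symm⟩
    · obtain ⟨t, ht⟩ := HY'.lineData.common d' hd' z hz h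
      obtain ⟨w, hwd, rfl⟩ := L.base.surj t ht.1.2.2.symm
      have hw : w ∈ link D d := (L.base.link_iff hd hwd).1 ht.1
      obtain ⟨y, hyw, rfl⟩ := (L.loc w hw).surj z ht.2.2.2
      have hy : y ∈ D := ((L.loc w hw).mem y hyw).1 hz
      have hdy : ¬ Commute d y := fun hc => h (by
        rw [← L.tbase w hw]
        exact ((L.loc w hw).commute_iff hw.2.2 hyw).2 hc)
      refine ⟨y, hy, hfar hy hdy (w := w) ⟨hw, hw.1, fun e => hdy (e ▸ hw.2.2), hyw⟩⟩
  refine group_iso_of_graph HY.lineData HY'.lineData HY.closure_eq HY'.closure_eq HY.center HY'.center Φ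
    ⟨hmaps, hinj, hsurj⟩ fun x hx z hz => ⟨fun h => ?_, hfwd x hx z hz⟩
  by_cases e : z = x
  · rw [e]
  have hsub : Φ '' link D x ⊆ link D' (Φ x) := by
    rintro _ ⟨t, ht, rfl⟩
    exact ⟨hmaps ht.1, fun k => ht.2.1 (hinj ht.1 hx k), hfwd x hx t ht.1 ht.2.2⟩
  obtain ⟨e₁, J₁⟩ := HY.linkEmb hx
  obtain ⟨e₂, J₂⟩ := HY'.linkEmb (hmaps hx)
  have heq := Set.eq_of_subset_of_ncard_le hsub (le_of_eq (by
    rw [(hinj.mono fun t ht => ht.1).ncard_image, J₁.deg HY.prim, J₂.deg HY'.prim])) (Set.toFinite _)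
  have : Φ z ∈ link D' (Φ x) := ⟨hmaps hz, fun k => e (hinj hz hx k), h⟩
  rw [← heq] at this
  obtain ⟨t, ht, k⟩ := this
  rw [← hinj ht.1 hz k]
  exact ht.2.2

end Hyp

end Cfsg.Agent.FiTrans
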