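import Cfsg.Agent.FiTrans.DCap

/-!
The facts about the neighbours of one member `a` of a class of involutions whose centralisers are perfect
double covers of groups of type M(22).
-/

set_option autoImplicit false

namespace Cfsg.Agent.FiTrans

open Cfsg.Agent.TTLink Cfsg.Agent.ThreeTransp45 Cfsg.Agent.Modules Cfsg.Agent.SporB UnitarySix

variable {G : Type*} [Group G]

/-- What is used about the neighbours of `a`. -/
structure Loc (D : Set G) (a : G) : Prop where
  mem : a ∈ D
  sq : a * a = 1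
  ne_one : a ≠ 1
  braid : ∀ x ∈ link D a, ∀ y ∈ link D a, ¬ Commute x y → x * y * x = y * x * y
  cross : ∀ x ∈ link D a, ∀ l : List G, Fac (link D a) l → l.length ≤ 3 → Commute x l.prod →
    ∀ y ∈ l, Commute x y
  indep : ∀ l : List G, Fac (link D a) l → l ≠ [] → l.length ≤ 5 → l.prod ≠ 1 ∧ l.prod ≠ a
  avoid : ∀ b ∈ link D a, ∀ c ∈ link D a, Commute b c → ∃ l : List G, Fac (link D a) l ∧ l.length = 6 ∧
    l.prod = a ∧ ∀ y ∈ l, y ≠ b ∧ y ≠ c ∧ Commute y b ∧ Commute y c
  sylow_odd : ∀ b ∈ link D a, ∀ T : Sylow 2 ↥(Subgroup.centralizer ({a, b} : Set G)),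
    Odd ((T : Subgroup ↥(Subgroup.centralizer ({a, b} : Set G))).map
      (Subgroup.centralizer ({a, b} : Set G)).subtype ∩ D : Set G).ncard
  common_odd : ∀ b ∈ link D a, Odd (link D a ∩ link D b).ncard
  core : ∀ b ∈ link D a, ∀ N : Subgroup G, Odd (Nat.card N) → N ≤ Subgroup.centralizer ({a, b} : Set G) →
    (∀ g ∈ Subgroup.centralizer ({a, b} : Set G), ∀ n ∈ N, g * n * g⁻¹ ∈ N) → N = ⊥
  trans : ∀ x ∈ link D a, ∀ y ∈ link D a, ∃ g, Commute g a ∧ cj g x = y
  nonempty : (link D a).Nonempty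
  closure : Subgroup.closure (link D a) = Subgroup.centralizer ({a} : Set G)

theorem mem_centralizer_pair {a b g : G} :
    g ∈ Subgroup.centralizer ({a, b} : Set G) ↔ Commute g a ∧ Commute g b := by
  rw [Subgroup.mem_centralizer_iff]
  simp only [Set.mem_insert_iff, Set.mem_singleton_iff, forall_eq_or_imp, forall_eq]
  exact and_congr ⟨fun h => h.symm, fun h => h.eq.symm⟩ ⟨fun h => h.symm, fun h => h.eq.symm⟩

variable [Finite G] {X : Type*} [Group X] [Finite X] {E : Set X} {D : Set G} {a : G}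

theorem loc_of_cover (hD : ∀ x, x ∈ D ↔ IsConj a x) (haC : a ∈ Subgroup.centralizer ({a} : Set G))
    {π : ↥(Subgroup.centralizer ({a} : Set G)) →* X} (K : DCover π ⟨a, haC⟩) (P : M22Prim E)
    (hnwc : ∃ g : G, g * a * g⁻¹ ∈ Subgroup.centralizer ({a} : Set G) ∧ g * a * g⁻¹ ≠ a) :
    Loc D a := by
  classical
  haveI : Fact (Nat.Prime 2) := ⟨Nat.prime_two⟩
  obtain ⟨τ, hτ, hcap⟩ := exists_link_sec haC K P hnwc
  set a₀ : ↥(Subgroup.centralizer ({a} : Set G)) := ⟨a, haC⟩ with ha₀
  have hP := P.data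
  have hE1 : ∀ u ∈ E, u ≠ (1 : X) := fun u hu => ThreeTransp.ne_one hP.set hu
  have hπa : π a₀ = 1 := K.map_d
  -- the neighbours
  have mem_link : ∀ x : G, x ∈ link D a ↔ ∃ u ∈ E, x = τ u := by
    intro x
    constructor
    · rintro ⟨hx, hne, hc⟩
      have hxC : x ∈ (Subgroup.centralizer ({a} : Set G)) := Subgroup.mem_centralizer_singleton_iff.2 hc.symm.eq
      rcases (hcap ⟨x, hxC⟩).1 ((hD x).1 hx) with h | ⟨u, hu, h⟩
      · exact absurd (congrArg Subtype.val h) hne
      · exact ⟨u, hu, congrArg Subtype.val h⟩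
    · rintro ⟨u, hu, rfl⟩
      refine ⟨(hD _).2 ((hcap (τ u)).2 (Or.inr ⟨u, hu, rfl⟩)), fun h => hE1 u hu ?_, ?_⟩
      · have : τ u = a₀ := Subtype.ext h
        rw [← hτ.map u hu, this, hπa]
      · exact (Subgroup.mem_centralizer_singleton_iff.1 (τ u).2).symm
  have comm_iff : ∀ u ∈ E, ∀ w ∈ E, Commute (τ u : G) (τ w : G) ↔ Commute u w := by
    intro u hu w hw
    constructor
    · intro h
      have := (show Commute (τ u) (τ w) from Subtype.ext h).map π
      rwa [hτ.map u hu, hτ.map w hw] at this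
    · intro h
      exact congrArg Subtype.val (K.sec_comm P hτ hu hw h)
  have inj : ∀ u ∈ E, ∀ w ∈ E, (τ u : G) = τ w → u = w := fun u hu w hw h => by
    rw [← hτ.map u hu, Subtype.ext h, hτ.map w hw]
  -- lists of neighbours come from lists of transpositions
  have pull : ∀ l : List G, Fac (link D a) l → ∃ m : List X, Fac E m ∧
      l = m.map (fun u => (τ u : G)) ∧ ((ev τ m : ↥(Subgroup.centralizer ({a} : Set G))) : G) = l.prod := by
    intro l hl
    have hl' : ∀ x ∈ l, ∃ u ∈ E, x = (τ u : G) := fun x hx => (mem_link x).1 (hl.mem x hx)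
    choose! f hf1 hf2 using hl'
    have e : l = (l.map f).map (fun u => (τ u : G)) := by
      rw [List.map_map]
      conv_lhs => rw [← List.map_id l]
      exact List.map_congr_left fun x hx => hf2 x hx
    refine ⟨l.map f, ⟨?_, ?_, ?_⟩, e, ?_⟩
    · exact hl.nodup.map_on fun x hx y hy h => by rw [hf2 x hx, hf2 y hy, h]
    · intro u hu
      obtain ⟨x, hx, rfl⟩ := List.mem_map.1 hu
      exact hf1 x hx
    · intro u hu w hw
      obtain ⟨x, hx, rfl⟩ := List.mem_map.1 hu
      obtain ⟨y, hy, rfl⟩ := List.mem_map.1 hw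
      refine (comm_iff _ (hf1 x hx) _ (hf1 y hy)).1 ?_
      rw [← hf2 x hx, ← hf2 y hy]
      exact hl.comm x hx y hy
    · conv_rhs => rw [e]
      show ((List.map τ (l.map f)).prod : G) = _
      rw [← Subgroup.coe_subtype, map_list_prod, List.map_map]
      rfl
  -- the centraliser of two commuting members
  have inC : ∀ {b g : G}, g ∈ Subgroup.centralizer ({a, b} : Set G) → g ∈ (Subgroup.centralizer ({a} : Set G)) := fun {b g} h =>
    Subgroup.mem_centralizer_singleton_iff.2 (mem_centralizer_pair.1 h).1.eq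
  have pairC : ∀ {w : X}, w ∈ E → ∀ c : ↥(Subgroup.centralizer ({a} : Set G)),
      (c : G) ∈ Subgroup.centralizer ({a, (τ w : G)} : Set G) ↔ Commute (π c) w := by
    intro w hw c
    rw [mem_centralizer_pair]
    constructor
    · intro h
      have := (show Commute c (τ w) from Subtype.ext h.2).map π
      rwa [hτ.map w hw] at this
    · intro h
      refine ⟨Subgroup.mem_centralizer_singleton_iff.1 c.2, ?_⟩
      suffices h' : Commute c (τ w) from congrArg Subtype.val h'.eq
      exact K.fix_lift P (x := τ w) (by rw [hτ.map w hw]; exact hw) (by rw [hτ.map w hw]; exact h)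
  refine ⟨(hD a).2 (IsConj.refl a), congrArg Subtype.val K.sq, fun h => K.ne (Subtype.ext h),
    ?_, ?_, ?_, ?_, ?_, ?_, ?_, ?_, ?_, ?_⟩
  · -- braid
    intro x hx y hy hxy
    obtain ⟨u, hu, rfl⟩ := (mem_link x).1 hx
    obtain ⟨w, hw, rfl⟩ := (mem_link y).1 hy
    have hn : ¬ Commute u w := fun h => hxy ((comm_iff u hu w hw).2 h)
    have key : ∀ p ∈ E, ∀ q ∈ E, τ p * τ q * τ p = τ (cj p q) := fun p hp q hq => by
      have h1 := hτ.conj (τ p) q hq
      rwa [inv_eq_of_mul_eq_one_right (K.sec_sq P hτ hp), hτ.map p hp] at h1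
    have h2 : cj u w = cj w u := by
      rw [hP.cj_eq hu, hP.cj_eq hw, hP.braid hu hw hn]
    exact congrArg Subtype.val ((key u hu w hw).trans (h2 ▸ (key w hw u hu).symm))
  · -- cross
    intro x hx l hl hlen hc y hy
    obtain ⟨m, hm, hlm, hev⟩ := pull l hl
    obtain ⟨u, hu, rfl⟩ := (mem_link x).1 hx
    have hcu : Commute u m.prod := by
      have := (show Commute (τ u) (ev τ m) from Subtype.ext (show (τ u : G) * ((ev τ m : ↥(Subgroup.centralizer ({a} : Set G))) : G) =
        ((ev τ m : ↥(Subgroup.centralizer ({a} : Set G))) : G) * (τ u : G) by rw [hev]; exact hc.eq)).map π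
      rwa [hτ.map u hu, K.map_ev P hτ hm.mem] at this
    subst hlm
    rw [List.length_map] at hlen
    obtain ⟨w, hw, rfl⟩ := List.mem_map.1 hy
    exact (comm_iff u hu w (hm.mem w hw)).2 (commute_prod hP hm hlen hu hcu w hw)
  · -- independence
    intro l hl hne hlen
    obtain ⟨m, hm, hlm, hev⟩ := pull l hl
    subst hlm
    rw [List.length_map] at hlen
    obtain ⟨u, hu⟩ := List.exists_mem_of_ne_nil m (fun h => hne (by rw [h]; rfl))
    have hp1 : m.prod ≠ 1 := P.hyp.indeps (hm.mem u hu) m.length (List.length_pos_of_mem hu) hlen m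
      hm.nodup rfl hm.mem hm.comm
    constructor <;> intro h <;> refine hp1 ?_
    · rw [← K.map_ev P hτ hm.mem, show ev τ m = 1 from Subtype.ext (hev.trans h), map_one]
    · rw [← K.map_ev P hτ hm.mem, show ev τ m = a₀ from Subtype.ext (hev.trans h), hπa]
  · -- a hexad avoiding two members
    intro b hb c hc hbc
    obtain ⟨p, hp, rfl⟩ := (mem_link b).1 hb
    obtain ⟨q, hq, rfl⟩ := (mem_link c).1 hc
    have hpq : Commute p q := (comm_iff p hp q hq).1 hbc
    obtain ⟨W, hW, hsub⟩ := P.exists_maxSet (E := ({p, q} : Set X))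
      (Set.insert_subset hp (Set.singleton_subset_iff.2 hq)) (by
        rintro r (rfl | rfl) s (rfl | rfl)
        exacts [Commute.refl _, hpq, hpq.symm, Commute.refl _])
    have hpW : p ∈ W := hsub (by simp)
    have hqW : q ∈ W := hsub (by simp)
    obtain ⟨r, hr, hrn⟩ := Set.exists_mem_notMem_of_ncard_lt_ncard
      (s := ({p, q} : Set X)) (t := W) (by
        rw [hW.card]
        have := Set.ncard_insert_le p ({q} : Set X)
        rw [Set.ncard_singleton] at this
        omega)
    obtain ⟨s, hs, hsn⟩ := Set.exists_mem_notMem_of_ncard_lt_ncard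
      (s := ({r, p, q} : Set X)) (t := W) (by
        rw [hW.card]
        have h1 := Set.ncard_insert_le p ({q} : Set X)
        have h2 := Set.ncard_insert_le r ({p, q} : Set X)
        rw [Set.ncard_singleton] at h1
        omega)
    simp only [Set.mem_insert_iff, Set.mem_singleton_iff, not_or] at hrn hsn
    have fp : Fac E [r, s, p] := hW.fac hr hs hpW (Ne.symm hsn.1) hrn.1 hsn.2.1
    have fq : Fac E [r, s, q] := hW.fac hr hs hqW (Ne.symm hsn.1) hrn.2 hsn.2.2
    obtain ⟨w, hw, hwn⟩ := Set.exists_mem_notMem_of_ncard_lt_ncard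
      (s := hset E r s p ∪ hset E r s q) (t := W) (by
        rw [hW.card]
        have := Set.ncard_union_le (hset E r s p) (hset E r s q)
        rw [P.hset_ncard fp, P.hset_ncard fq] at this
        omega)
    simp only [Set.mem_union, not_or] at hwn
    obtain ⟨m1, m2, -⟩ := M22Prim.mem_hset_self fp
    have fw : Fac E [r, s, w] := hW.fac hr hs hw (Ne.symm hsn.1) (fun e => hwn.1 (e ▸ m1))
      fun e => hwn.1 (e ▸ m2)
    obtain ⟨n1, n2, n3⟩ := M22Prim.mem_hset_self fw
    have hp' : p ∉ hset E r s w := fun h => hwn.1 (by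
      rw [P.hset_eq fw n1 n2 h (Ne.symm hsn.1) hrn.1 hsn.2.1]; exact n3)
    have hq' : q ∉ hset E r s w := fun h => hwn.2 (by
      rw [P.hset_eq fw n1 n2 h (Ne.symm hsn.1) hrn.2 hsn.2.2]; exact n3)
    obtain ⟨m, hm, hlen, hprod, hmem⟩ := P.hset_list fw
    have hmW : InSet W m := fun y hy => P.hset_subset hW hr hs hw ((hmem y).1 hy)
    refine ⟨m.map fun u => (τ u : G), ⟨hm.nodup.map_on fun x hx y hy h =>
      inj x (hm.mem x hx) y (hm.mem y hy) h, ?_, ?_⟩, by rw [List.length_map, hlen], ?_, ?_⟩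
    · intro y hy
      obtain ⟨u, hu, rfl⟩ := List.mem_map.1 hy
      exact (mem_link _).2 ⟨u, hm.mem u hu, rfl⟩
    · intro y hy z hz
      obtain ⟨u, hu, rfl⟩ := List.mem_map.1 hy
      obtain ⟨u', hu', rfl⟩ := List.mem_map.1 hz
      exact (comm_iff u (hm.mem u hu) u' (hm.mem u' hu')).2 (hm.comm u hu u' hu')
    · have := congrArg Subtype.val (K.hexad_value P hτ hW hm.nodup hmW hlen hprod)
      rw [show (a₀ : G) = a from rfl] at this
      refine Eq.trans ?_ this
      show _ = ((List.map τ m).prod : G)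
      rw [← Subgroup.coe_subtype, map_list_prod, List.map_map]
      rfl
    · intro y hy
      obtain ⟨u, hu, rfl⟩ := List.mem_map.1 hy
      have huE := hm.mem u hu
      exact ⟨fun h => hp' (inj u huE p hp h ▸ (hmem u).1 hu),
        fun h => hq' (inj u huE q hq h ▸ (hmem u).1 hu),
        (comm_iff u huE p hp).2 (hW.comm u (hmW u hu) p hpW),
        (comm_iff u huE q hq).2 (hW.comm u (hmW u hu) q hqW)⟩
  · -- twenty-three members in a Sylow subgroup
    intro b hb
    obtain ⟨p, hp, rfl⟩ := (mem_link b).1 hb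
    set Z := Subgroup.centralizer ({a, (τ p : G)} : Set G)
    intro T
    set T' := (T : Subgroup ↥Z).map Z.subtype with hT'
    have hT'Z : T' ≤ Z := by rintro _ ⟨t, -, rfl⟩; exact t.2
    have hT'p : IsPGroup 2 ↥T' := T.isPGroup'.map _
    set TC := T'.subgroupOf (Subgroup.centralizer ({a} : Set G))
    have hTCp : IsPGroup 2 ↥(TC.map π) :=
      (hT'p.of_equiv (Subgroup.subgroupOfEquivOfLe (fun g hg => inC (hT'Z hg))).symm).map π
    obtain ⟨TX, hTX⟩ := hTCp.exists_le_sylow
    -- the preimage is no larger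
    set Q := ((TX : Subgroup X) ⊓ Subgroup.centralizer ({p} : Set X)).comap π with hQ
    have hker : IsPGroup 2 ↥π.ker := by
      intro c
      refine ⟨1, Subtype.ext ?_⟩
      rcases (K.ker _).1 c.2 with h | h
      · show (c : ↥(Subgroup.centralizer ({a} : Set G))) ^ (2 ^ 1) = 1
        rw [h, one_pow]
      · show (c : ↥(Subgroup.centralizer ({a} : Set G))) ^ (2 ^ 1) = 1
        rw [h, pow_one, pow_two]
        exact K.sq
    have hQp : IsPGroup 2 ↥Q := (TX.isPGroup'.to_le inf_le_left).comap_of_ker_isPGroup π hker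
    have hQZ : Q.map (Subgroup.centralizer ({a} : Set G)).subtype ≤ Z := by
      rintro _ ⟨c, hc, rfl⟩
      exact (pairC hp c).2 (Subgroup.mem_centralizer_singleton_iff.1 hc.2)
    have hsubQ : T' ≤ Q.map (Subgroup.centralizer ({a} : Set G)).subtype := by
      intro g hg
      refine ⟨⟨g, inC (hT'Z hg)⟩, ⟨hTX ⟨_, hg, rfl⟩, ?_⟩, rfl⟩
      exact Subgroup.mem_centralizer_singleton_iff.2 ((pairC hp ⟨g, inC (hT'Z hg)⟩).1 (hT'Z hg))
    have hTeq : T' = Q.map (Subgroup.centralizer ({a} : Set G)).subtype := by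
      refine le_antisymm hsubQ ?_
      have hle : (T : Subgroup ↥Z) ≤ (Q.map (Subgroup.centralizer ({a} : Set G)).subtype).subgroupOf Z := fun t ht => hsubQ ⟨t, ht, rfl⟩
      have := T.is_maximal' ((hQp.map (Subgroup.centralizer ({a} : Set G)).subtype).of_equiv (Subgroup.subgroupOfEquivOfLe hQZ).symm) hle
      intro g hg
      exact ⟨⟨g, hQZ hg⟩, this.le hg, rfl⟩
    set W : Set X := {x | x ∈ E ∧ x ∈ (TX : Subgroup X)}
    have hW : MaxSet E W := ⟨fun x hx => hx.1,
      fun x hx y hy => hP.commute_of_mem_pGroup TX.isPGroup' hx.1 hy.1 hx.2 hy.2,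
      (P.sylow_transpositions TX).1⟩
    have hpW : p ∈ W := by
      have hpT : (τ p : G) ∈ T' := by
        have hpZ : (τ p : G) ∈ Z := mem_centralizer_pair.2
          ⟨Subgroup.mem_centralizer_singleton_iff.1 (τ p).2, Commute.refl _⟩
        have hz : IsPGroup 2 ↥(Subgroup.zpowers (⟨(τ p : G), hpZ⟩ : ↥Z)) := by
          refine IsPGroup.of_card (n := 1) ?_
          rw [Nat.card_zpowers, pow_one]
          refine orderOf_eq_prime (Subtype.ext ?_) fun h => hE1 p hp ?_
          · show (τ p : G) ^ 2 = 1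
            rw [pow_two]
            exact congrArg Subtype.val (K.sec_sq P hτ hp)
          · rw [← hτ.map p hp, show τ p = 1 from Subtype.ext (congrArg Subtype.val h :), map_one]
        haveI : (Subgroup.zpowers (⟨(τ p : G), hpZ⟩ : ↥Z)).Normal := by
          refine ⟨fun z hz g => ?_⟩
          obtain ⟨k, rfl⟩ := Subgroup.mem_zpowers_iff.1 hz
          have hc : Commute g (⟨(τ p : G), hpZ⟩ : ↥Z) := Subtype.ext (mem_centralizer_pair.1 g.2).2
          rw [(hc.zpow_right k).eq, mul_inv_cancel_right]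
          exact Subgroup.zpow_mem_zpowers _ k
        obtain ⟨R, hR⟩ := hz.exists_le_sylow
        obtain ⟨g, hg⟩ := MulAction.exists_smul_eq ↥Z R T
        refine ⟨⟨_, hpZ⟩, ?_, rfl⟩
        rw [← hg, Sylow.coe_subgroup_smul]
        refine ⟨⟨_, hpZ⟩, hR (Subgroup.mem_zpowers _), ?_⟩
        have hc : Commute g (⟨(τ p : G), hpZ⟩ : ↥Z) := Subtype.ext (mem_centralizer_pair.1 g.2).2
        exact (cj_eq_self_iff g _).2 hc
      rw [hTeq] at hpT
      obtain ⟨c, hc, hce⟩ := hpT
      rw [show c = τ p from Subtype.ext hce] at hc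
      refine ⟨hp, ?_⟩
      have := hc.1
      rwa [hτ.map p hp] at this
    have heq : (↑T' ∩ D : Set G) = insert a ((fun u => (τ u : G)) '' W) := by
      ext x
      constructor
      · rintro ⟨hx, hxD⟩
        rw [hTeq] at hx
        obtain ⟨c, hc, rfl⟩ := hx
        rcases (hcap c).1 ((hD _).1 hxD) with h | ⟨u, hu, h⟩
        · exact Or.inl (congrArg Subtype.val h)
        · refine Or.inr ⟨u, ⟨hu, ?_⟩, congrArg Subtype.val h.symm⟩
          have := hc.1
          rwa [h, hτ.map u hu] at this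
      · rintro (rfl | ⟨u, hu, rfl⟩)
        · refine ⟨hTeq.symm ▸ ⟨a₀, ⟨?_, ?_⟩, rfl⟩, (hD _).2 (IsConj.refl _)⟩ <;> rw [hπa] <;>
            exact one_mem _
        · refine ⟨hTeq.symm ▸ ⟨τ u, ⟨?_, ?_⟩, rfl⟩, (hD _).2 ((hcap _).2 (Or.inr ⟨u, hu.1, rfl⟩))⟩
          · rw [hτ.map u hu.1]; exact hu.2
          · rw [hτ.map u hu.1]
            exact Subgroup.mem_centralizer_singleton_iff.2 (hW.comm u hu p hpW).eq
    rw [heq, Set.ncard_insert_of_notMem ?_ (Set.toFinite _), Set.InjOn.ncard_image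
      (fun u hu w hw h => inj u hu.1 w hw.1 h), hW.card]
    · decide
    · rintro ⟨u, hu, h⟩
      exact hE1 u hu.1 (by rw [← hτ.map u hu.1, show τ u = a₀ from Subtype.ext h, hπa])
  · -- common neighbours
    intro b hb
    obtain ⟨p, hp, rfl⟩ := (mem_link b).1 hb
    have e : link D a ∩ link D (τ p : G) = (fun u => (τ u : G)) '' link E p := by
      ext x
      constructor
      · rintro ⟨hx, hx'⟩
        obtain ⟨u, hu, rfl⟩ := (mem_link x).1 hx
        exact ⟨u, ⟨hu, fun h => hx'.2.1 (by rw [h]), (comm_iff p hp u hu).1 hx'.2.2⟩, rfl⟩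
      · rintro ⟨u, ⟨hu, hne, hc⟩, rfl⟩
        have h := (mem_link _).2 ⟨u, hu, rfl⟩
        exact ⟨h, h.1, fun h' => hne (inj u hu p hp h'), (comm_iff p hp u hu).2 hc⟩
    rw [e, Set.InjOn.ncard_image (fun u hu w hw h => inj u hu.1 w hw.1 h)]
    obtain ⟨F, _, _, hF, ρ, himg, hinj, -⟩ := P.hyp.exists_link_hom hp
    have e' : Subtype.val '' linkSet E p = link E p :=
      Set.ext fun y => ⟨fun ⟨x, hx, he⟩ => he ▸ hx, fun hy => ⟨⟨y, Subgroup.subset_closure hy⟩, hy, rfl⟩⟩
    rw [← e', Set.ncard_image_of_injective _ Subtype.val_injective, ← hinj.ncard_image, himg, Nat.odd_iff]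
    have := (tt_counts hF).1
    omega
  · -- no odd normal subgroups
    intro b hb N hNodd hN hnorm
    obtain ⟨p, hp, rfl⟩ := (mem_link b).1 hb
    obtain ⟨F, _, _, hF, hcov, -⟩ := P.covers
    obtain ⟨cv⟩ := hcov p hp
    set M := (N.subgroupOf (Subgroup.centralizer ({a} : Set G))).map π
    have hMle : M ≤ Subgroup.centralizer ({p} : Set X) := by
      rintro _ ⟨c, hc, rfl⟩
      exact Subgroup.mem_centralizer_singleton_iff.2 ((pairC hp c).1 (hN hc))
    set M' := (M.subgroupOf (Subgroup.centralizer ({p} : Set X))).map cv.π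
    haveI hsim : IsSimpleGroup (Cfsg.PSU 6 F 2) := (psu_six_two F hF).1
    haveI hMn : M'.Normal := by
      refine Subgroup.Normal.map ⟨fun x hx y => ?_⟩ cv.π cv.surj
      obtain ⟨c, hc⟩ := K.surj (y : X)
      obtain ⟨n, hn, hne⟩ := hx
      refine ⟨c * n * c⁻¹, hnorm _ ((pairC hp c).2 ?_) _ hn, ?_⟩
      · rw [hc]; exact Subgroup.mem_centralizer_singleton_iff.1 y.2
      · rw [map_mul, map_mul, map_inv, hc, hne]; rfl
    have hodd : Odd (Nat.card M') := by
      have h1 : Nat.card M ∣ Nat.card N := by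
        rw [← Nat.card_congr (Subgroup.subgroupOfEquivOfLe (fun g hg => inC (hN hg))).toEquiv]
        exact Subgroup.card_map_dvd _ _
      have h2 : Nat.card M' ∣ Nat.card M := by
        rw [← Nat.card_congr (Subgroup.subgroupOfEquivOfLe hMle).toEquiv]
        exact Subgroup.card_map_dvd _ _
      exact Odd.of_dvd_nat hNodd (h2.trans h1)
    rcases Subgroup.Normal.eq_bot_or_eq_top hMn with hb' | ht
    · have hsub : ∀ n ∈ N, n * n = 1 := fun n hn => by
        set c : ↥(Subgroup.centralizer ({a} : Set G)) := ⟨n, inC (hN hn)⟩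
        have hm : (⟨π c, hMle ⟨c, hn, rfl⟩⟩ : ↥(Subgroup.centralizer ({p} : Set X))) ∈
            M.subgroupOf (Subgroup.centralizer ({p} : Set X)) := ⟨c, hn, rfl⟩
        have h1 : cv.π ⟨π c, hMle ⟨c, hn, rfl⟩⟩ = 1 := Subgroup.mem_bot.1 (hb' ▸ ⟨_, hm, rfl⟩)
        have h3 : π c * π c = 1 := by
          rcases (cv.ker _).1 h1 with h | h
          · rw [show π c = 1 from h, one_mul]
          · rw [show π c = p from h, hP.mul_self hp]
        exact congrArg Subtype.val (K.lift_sq P h3)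
      refine (Subgroup.eq_bot_iff_forall N).2 fun n hn => ?_
      have h2 : orderOf n ∣ 2 := orderOf_dvd_of_pow_eq_one (by rw [pow_two]; exact hsub n hn)
      rcases (Nat.dvd_prime Nat.prime_two).1 h2 with h | h
      · exact orderOf_eq_one_iff.1 h
      · exfalso
        have h4 : orderOf (⟨n, hn⟩ : ↥N) ∣ Nat.card N := orderOf_dvd_natCard _
        rw [Subgroup.orderOf_mk, h] at h4
        exact (Nat.not_even_iff_odd.2 hNodd) (even_iff_two_dvd.2 h4)
    · exfalso
      obtain ⟨-, ⟨t, ht', -⟩, -⟩ := allTT_class hF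
      have h4 : orderOf (⟨t, ht ▸ Subgroup.mem_top t⟩ : ↥M') ∣ Nat.card M' := orderOf_dvd_natCard _
      rw [Subgroup.orderOf_mk, (allTT_data hF).set.1 t ht'] at h4
      exact (Nat.not_even_iff_odd.2 hodd) (even_iff_two_dvd.2 h4)
  · -- transitivity
    intro x hx y hy
    obtain ⟨u, hu, rfl⟩ := (mem_link x).1 hx
    obtain ⟨w, hw, rfl⟩ := (mem_link y).1 hy
    obtain ⟨g, hg⟩ := P.hyp.cl u hu w hw
    obtain ⟨c, rfl⟩ := K.surj g
    refine ⟨c, Subgroup.mem_centralizer_singleton_iff.1 c.2, ?_⟩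
    have := congrArg Subtype.val (hτ.conj c u hu)
    rw [hg] at this
    exact this
  · obtain ⟨u, hu, -⟩ := P.hyp.cls.2.1
    exact ⟨_, (mem_link _).2 ⟨u, hu, rfl⟩⟩
  · -- generation
    refine le_antisymm ((Subgroup.closure_le _).2 fun y hy => ?_) fun g hg => ?_
    · exact Subgroup.mem_centralizer_singleton_iff.2 hy.2.2.symm.eq
    set L := (Subgroup.closure (link D a)).subgroupOf (Subgroup.centralizer ({a} : Set G))
    have hτL : ∀ u ∈ E, τ u ∈ L := fun u hu => Subgroup.subset_closure ((mem_link _).2 ⟨u, hu, rfl⟩)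
    have haL : a₀ ∈ L := by
      obtain ⟨S⟩ : Nonempty (Sylow 2 X) := inferInstance
      set W : Set X := {x | x ∈ E ∧ x ∈ (S : Subgroup X)}
      have hW : MaxSet E W := ⟨fun x hx => hx.1,
        fun x hx y hy => hP.commute_of_mem_pGroup S.isPGroup' hx.1 hy.1 hx.2 hy.2,
        (P.sylow_transpositions S).1⟩
      obtain ⟨x, hx, y, hy, hxy⟩ := (Set.one_lt_ncard (Set.toFinite _)).1 (by rw [hW.card]; norm_num : 1 < W.ncard)
      obtain ⟨z, hz, hzn⟩ := Set.exists_mem_notMem_of_ncard_lt_ncard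
        (s := ({x, y} : Set X)) (t := W) (by rw [hW.card, Set.ncard_pair hxy]; norm_num)
      simp only [Set.mem_insert_iff, Set.mem_singleton_iff, not_or] at hzn
      have f := hW.fac hx hy hz hxy (Ne.symm hzn.1) (Ne.symm hzn.2)
      obtain ⟨m, hm, hlen, hprod, hmem⟩ := P.hset_list f
      rw [← K.hexad_value P hτ hW hm.nodup
        (fun y' hy' => P.hset_subset hW hx hy hz ((hmem y').1 hy')) hlen hprod]
      refine Subgroup.list_prod_mem _ fun z' hz' => ?_
      obtain ⟨u, hu, rfl⟩ := List.mem_map.1 hz'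
      exact hτL u (hm.mem u hu)
    have htop : L.map π = ⊤ := by
      rw [eq_top_iff, ← P.hyp.cls.2.2, Subgroup.closure_le]
      exact fun u hu => ⟨τ u, hτL u hu, hτ.map u hu⟩
    obtain ⟨l, hl, hle⟩ : π ⟨g, hg⟩ ∈ L.map π := htop ▸ Subgroup.mem_top _
    rcases K.eq_or hle with h | h
    · exact (show (⟨g, hg⟩ : ↥(Subgroup.centralizer ({a} : Set G))) ∈ L from h.symm ▸ hl)
    · exact (show (⟨g, hg⟩ : ↥(Subgroup.centralizer ({a} : Set G))) ∈ L from h.symm ▸ L.mul_mem hl haL)

end Cfsg.Agent.FiTrans
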