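import Cfsg.Agent.SporB.FiTwoTwo.Cover
import Cfsg.Agent.CosetCert.Cox

/-!
The automorphism of the presented Fischer group Fi22 reversing the long path of its diagram.
-/

set_option autoImplicit false
set_option maxRecDepth 100000

namespace Cfsg.Agent.FiTrans

open Cfsg.Agent.CosetCert Cfsg.Agent.CosetEnum Cfsg.Agent.SporB

local notation "G22" => Cfsg.Spor.Fi22
local notation "Gen22" => Cfsg.Spor.Fi22.Gen

/-- The reversal of the diagram. -/
def rev : Gen22 → Gen22
  | .a => .g
  | .b => .f
  | .c => .e
  | .d => .d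
  | .e => .c
  | .f => .b
  | .g => .a
  | .h => .h
  | .i => .i

theorem rev_rev : ∀ x, rev (rev x) = x := by intro x; cases x <;> rfl

/-- All generators. -/
def allGens : List Gen22 := [.a, .b, .c, .d, .e, .f, .g, .h, .i]

theorem mem_allGens : ∀ x : Gen22, x ∈ allGens := by intro x; cases x <;> decide

/-- The spider word. -/
def spiderL : List Gen22 := [.d, .c, .b, .d, .e, .f, .d, .h, .i]

/-- The first seven-letter word. -/
def sevenAL : List Gen22 := [.a, .b, .c, .d, .e, .f, .h]

/-- The second seven-letter word. -/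
def sevenBL : List Gen22 := [.b, .c, .d, .e, .f, .g, .h]

/-- The relators as lists of generators. -/
def relList : List (List Gen22) :=
  (allGens.flatMap fun x => allGens.map fun y =>
    (List.replicate (Cfsg.Spor.coxLabel Cfsg.Spor.Fi22.edges x y) [x, y]).flatten) ++
    [(List.replicate 10 spiderL).flatten, (List.replicate 9 sevenAL).flatten,
      (List.replicate 9 sevenBL).flatten]

theorem rel_list : ∀ r ∈ Cfsg.Spor.coxRelators Cfsg.Spor.Fi22.edges ∪ {r | r ∈ Cfsg.Spor.Fi22.extra},
    ∃ l ∈ relList, r = (l.map FreeGroup.of).prod := by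
  intro r hr
  have h : (coxList Cfsg.Spor.Fi22.edges Cfsg.Spor.Fi22.extra).all
      (fun r => (relList.map fun l => (l.map FreeGroup.of).prod).contains r) = true := by decide +kernel
  have h1 := List.all_eq_true.1 h r ((mem_coxList _ _ r).1 hr)
  rw [List.contains_iff_mem, List.mem_map] at h1
  obtain ⟨l, hl, e⟩ := h1
  exact ⟨l, hl, e.symm⟩

theorem val_code (x : Gen22) :
    FischerU.val [FiTwentyTwoU.code x] = (PresentedGroup.of x : G22) := by
  have e : ∀ x ∈ allGens, pval (FiTwentyTwoU.data.act FreeGroup.of) [FiTwentyTwoU.code x] =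
      FreeGroup.of x := by decide +kernel
  rw [FischerU.val, e x (mem_allGens x)]
  rfl

theorem val_list (l : List Gen22) :
    FischerU.val (l.map FiTwentyTwoU.code).reverse = (l.map fun x => (PresentedGroup.of x : G22)).prod := by
  induction l with
  | nil => simp [FischerU.val, pval]
  | cons x t ih => rw [List.map_cons, List.reverse_cons, FischerU.val_append, ih, val_code, List.map_cons,
      List.prod_cons]

theorem relList_extra : ∀ l ∈ relList, (∃ x y, l =
    (List.replicate (Cfsg.Spor.coxLabel Cfsg.Spor.Fi22.edges x y) [x, y]).flatten) ∨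
    l = (List.replicate 10 spiderL).flatten ∨ l = (List.replicate 9 sevenAL).flatten ∨
    l = (List.replicate 9 sevenBL).flatten := by
  intro l hl
  rw [relList, List.mem_append, List.mem_flatMap] at hl
  rcases hl with ⟨x, -, hl⟩ | hl
  · obtain ⟨y, -, rfl⟩ := List.mem_map.1 hl
    exact Or.inl ⟨x, y, rfl⟩
  · simp only [List.mem_cons, List.not_mem_nil, or_false] at hl
    exact Or.inr hl

theorem prod_rep {M : Type*} [Monoid M] (g : Gen22 → M) (l : List Gen22) (n : ℕ) :
    ((List.replicate n l).flatten.map g).prod = (l.map g).prod ^ n := by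
  induction n with
  | zero => simp
  | succ n ih => rw [List.replicate_succ, List.flatten_cons, List.map_append, List.prod_append, ih, pow_succ']

theorem of_sq (x : Gen22) : (PresentedGroup.of x : G22) * PresentedGroup.of x = 1 := by
  have h : ∀ x ∈ allGens, FreeGroup.of x * FreeGroup.of x ∈
      coxList Cfsg.Spor.Fi22.edges Cfsg.Spor.Fi22.extra := by decide +kernel
  exact (map_mul _ _ _).symm.trans (PresentedGroup.one_of_mem ((mem_coxList _ _ _).2 (h x (mem_allGens x))))

theorem of_rel (x y : Gen22) : ((PresentedGroup.of x : G22) * PresentedGroup.of y) ^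
    Cfsg.Spor.coxLabel Cfsg.Spor.Fi22.edges x y = 1 := by
  have h : ∀ x ∈ allGens, ∀ y ∈ allGens, (FreeGroup.of x * FreeGroup.of y) ^
      Cfsg.Spor.coxLabel Cfsg.Spor.Fi22.edges x y ∈ coxList Cfsg.Spor.Fi22.edges Cfsg.Spor.Fi22.extra := by
    decide +kernel
  have h1 := PresentedGroup.one_of_mem ((mem_coxList _ _ _).2 (h x (mem_allGens x) y (mem_allGens y)))
  rwa [map_pow, map_mul] at h1

theorem of_seven : (sevenAL.map fun x => (PresentedGroup.of x : G22)).prod ^ 9 = 1 ∧
    (sevenBL.map fun x => (PresentedGroup.of x : G22)).prod ^ 9 = 1 := by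
  have h : ∀ l ∈ [sevenAL, sevenBL], ((List.replicate 9 l).flatten.map FreeGroup.of).prod ∈
      coxList Cfsg.Spor.Fi22.edges Cfsg.Spor.Fi22.extra := by decide +kernel
  have key : ∀ l ∈ [sevenAL, sevenBL], (l.map fun x => (PresentedGroup.of x : G22)).prod ^ 9 = 1 :=
    fun l hl => by
      have h1 := PresentedGroup.one_of_mem ((mem_coxList _ _ _).2 (h l hl))
      rw [map_list_prod, List.map_map] at h1
      rw [← prod_rep]
      exact h1
  exact ⟨key _ (by simp), key _ (by simp)⟩

/-- The generators are conjugate. -/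
theorem of_conj (x : Gen22) : IsConj (PresentedGroup.of Cfsg.Spor.Fi22.Gen.a : G22) (PresentedGroup.of x) := by
  have step : ∀ x y : Gen22, Cfsg.Spor.coxLabel Cfsg.Spor.Fi22.edges x y = 3 →
      IsConj (PresentedGroup.of x : G22) (PresentedGroup.of y) := by
    intro x y hl
    have h := of_rel x y
    rw [hl] at h
    have ha := of_sq x
    have hb := of_sq y
    refine isConj_iff.2 ⟨PresentedGroup.of x * PresentedGroup.of y, ?_⟩
    set a := (PresentedGroup.of x : G22)
    set b := (PresentedGroup.of y : G22)
    rw [mul_inv_rev, inv_eq_of_mul_eq_one_right ha, inv_eq_of_mul_eq_one_right hb]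
    have h' : a * b * (a * b * (a * b)) = 1 := by
      rw [← h, pow_succ, pow_two]; simp [mul_assoc]
    calc a * b * a * (b * a) = a * b * (a * b * (a * b)) * b := by
          simp only [mul_assoc]; rw [hb, mul_one]
      _ = b := by rw [h', one_mul]
  have hb := step .a .b (by decide)
  have hc := hb.trans (step .b .c (by decide))
  have hd := hc.trans (step .c .d (by decide))
  have he := hd.trans (step .d .e (by decide))
  have hf := he.trans (step .e .f (by decide))
  have hg := hf.trans (step .f .g (by decide))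
  have hh := hd.trans (step .d .h (by decide))
  have hi := hh.trans (step .h .i (by decide))
  cases x
  exacts [IsConj.refl _, hb, hc, hd, he, hf, hg, hh, hi]

/-- A word carrying the first generator to the given one. -/
def path : Gen22 → List Gen22
  | .a => []
  | .b => [.a, .b]
  | .c => [.b, .c, .a, .b]
  | .d => [.c, .d, .b, .c, .a, .b]
  | .e => [.d, .e, .c, .d, .b, .c, .a, .b]
  | .f => [.e, .f, .d, .e, .c, .d, .b, .c, .a, .b]
  | .g => [.f, .g, .e, .f, .d, .e, .c, .d, .b, .c, .a, .b]
  | .h => [.d, .h, .c, .d, .b, .c, .a, .b]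
  | .i => [.h, .i, .d, .h, .c, .d, .b, .c, .a, .b]

theorem prod_reverse (l : List Gen22) :
    (l.reverse.map fun x => (PresentedGroup.of x : G22)).prod =
      (l.map fun x => (PresentedGroup.of x : G22)).prod⁻¹ := by
  induction l with
  | nil => simp
  | cons x t ih =>
    rw [List.reverse_cons, List.map_append, List.prod_append, ih, List.map_singleton, List.prod_singleton,
      List.map_cons, List.prod_cons, mul_inv_rev, inv_eq_of_mul_eq_one_right (of_sq x)]

theorem path_conj (x : Gen22) : ((path x).map fun y => (PresentedGroup.of y : G22)).prod *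
    PresentedGroup.of Cfsg.Spor.Fi22.Gen.a * ((path x).map fun y => (PresentedGroup.of y : G22)).prod⁻¹ =
      PresentedGroup.of x := by
  have step : ∀ (u v : Gen22) (P : G22), Cfsg.Spor.coxLabel Cfsg.Spor.Fi22.edges u v = 3 →
      P * PresentedGroup.of Cfsg.Spor.Fi22.Gen.a * P⁻¹ = PresentedGroup.of u →
      PresentedGroup.of u * (PresentedGroup.of v * P) * PresentedGroup.of Cfsg.Spor.Fi22.Gen.a *
        (PresentedGroup.of u * (PresentedGroup.of v * P))⁻¹ = PresentedGroup.of v := by
    intro u v P hl hP
    have h := of_rel u v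
    rw [hl] at h
    have ha := of_sq u
    have hb := of_sq v
    set A := (PresentedGroup.of u : G22)
    set B := (PresentedGroup.of v : G22)
    rw [show A * (B * P) * PresentedGroup.of Cfsg.Spor.Fi22.Gen.a * (A * (B * P))⁻¹ =
        A * B * (P * PresentedGroup.of Cfsg.Spor.Fi22.Gen.a * P⁻¹) * (A * B)⁻¹ by simp [mul_assoc], hP,
      mul_inv_rev, inv_eq_of_mul_eq_one_right ha, inv_eq_of_mul_eq_one_right hb]
    calc A * B * A * (B * A) = (A * B) ^ 3 * B := by
          simp only [pow_succ, pow_zero, one_mul, mul_assoc]; rw [hb, mul_one]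
      _ = B := by rw [h, one_mul]
  have hone : (1 : G22) * PresentedGroup.of Cfsg.Spor.Fi22.Gen.a * (1 : G22)⁻¹ =
      PresentedGroup.of Cfsg.Spor.Fi22.Gen.a := by simp
  have hb := step .a .b _ (by decide) hone
  have hc := step .b .c _ (by decide) hb
  have hd := step .c .d _ (by decide) hc
  have he := step .d .e _ (by decide) hd
  have hf := step .e .f _ (by decide) he
  have hg := step .f .g _ (by decide) hf
  have hh := step .d .h _ (by decide) hd
  have hi := step .h .i _ (by decide) hh
  cases x <;> simp only [path, List.map_cons, List.map_nil, List.prod_cons, List.prod_nil]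
  exacts [hone, hb, hc, hd, he, hf, hg, hh, hi]

/-- The reversal of the spider relator. -/
def revSpider : List Gen22 := (List.replicate 10 spiderL).flatten.map rev

/-- The word of its conjugate by a path. -/
def pathWord (x : Gen22) : List ℕ :=
  (((path x).reverse ++ (revSpider ++ path x)).map FiTwentyTwoU.code).reverse

theorem pathWord_ok : allGens.all (fun x => FischerU.okWord (pathWord x) &&
    Nat.beq (FiTwentyTwoU.data.run (pathWord x) 0) 0) = true := by decide +kernel

theorem rev_spider :
    ((List.replicate 10 spiderL).flatten.map fun x => (PresentedGroup.of (rev x) : G22)).prod = 1 := by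
  obtain ⟨φ, hinj, hval, hmem, -⟩ := FischerU.fi_data
  haveI : IsSimpleGroup G22 := CosetEnum.FiTwentyTwo.main.1
  rw [show ((List.replicate 10 spiderL).flatten.map fun x => (PresentedGroup.of (rev x) : G22)) =
    revSpider.map fun x => (PresentedGroup.of x : G22) by rw [revSpider, List.map_map]; rfl]
  set z := (revSpider.map fun x => (PresentedGroup.of x : G22)).prod with hz
  have hta : FischerU.transA = (PresentedGroup.of Cfsg.Spor.Fi22.Gen.a : G22) := val_code Cfsg.Spor.Fi22.Gen.a
  have hcomm : ∀ x, z * PresentedGroup.of x = PresentedGroup.of x * z := by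
    intro x
    have h := List.all_eq_true.1 pathWord_ok x (mem_allGens x)
    rw [Bool.and_eq_true] at h
    have hu : FischerU.val (pathWord x) ∈ FischerU.fiSub :=
      (hmem _).2 (Fin.ext (by rw [hval _ h.1]; exact Nat.eq_of_beq_eq_true h.2))
    have h2 := FischerU.transA_comm hinj hval hmem hu
    rw [pathWord, val_list, List.map_append, List.map_append, List.prod_append, List.prod_append, prod_reverse,
      ← hz, hta] at h2
    rw [← path_conj x]
    set P := ((path x).map fun y => (PresentedGroup.of y : G22)).prod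
    set a := (PresentedGroup.of Cfsg.Spor.Fi22.Gen.a : G22)
    calc z * (P * a * P⁻¹) = P * ((P⁻¹ * (z * P)) * a) * P⁻¹ := by simp [mul_assoc]
      _ = P * (a * (P⁻¹ * (z * P))) * P⁻¹ := by rw [h2]
      _ = P * a * P⁻¹ * z := by simp [mul_assoc]
  have hzc : z ∈ Subgroup.center G22 := by
    refine Subgroup.mem_center_iff.2 fun g => ?_
    have hle : (⊤ : Subgroup G22) ≤ Subgroup.centralizer ({z} : Set G22) := by
      rw [← PresentedGroup.closure_range_of, Subgroup.closure_le]
      rintro _ ⟨x, rfl⟩
      exact Subgroup.mem_centralizer_singleton_iff.2 (hcomm x).symm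
    exact Subgroup.mem_centralizer_singleton_iff.1 (hle (Subgroup.mem_top g))
  rcases (inferInstance : (Subgroup.center G22).Normal).eq_bot_or_eq_top with hc | hc
  · exact Subgroup.mem_bot.1 (hc ▸ hzc)
  exfalso
  have hb : (FischerU.val [FiTwentyTwoU.code .b]) ∈ FischerU.fiSub := by
    rw [(FischerU.centralizer_facts).1, Subgroup.mem_centralizer_singleton_iff]
    exact (Subgroup.mem_center_iff.1 (hc ▸ Subgroup.mem_top FischerU.transA) _)
  have h0 := congrArg Fin.val ((hmem _).1 hb)
  rw [hval _ (by decide +kernel)] at h0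
  revert h0
  decide +kernel

theorem rev_seven : (sevenAL.map fun x => (PresentedGroup.of (rev x) : G22)).prod ^ 9 = 1 ∧
    (sevenBL.map fun x => (PresentedGroup.of (rev x) : G22)).prod ^ 9 = 1 := by
  have hi : ∀ x, (PresentedGroup.of x : G22)⁻¹ = PresentedGroup.of x := fun x =>
    inv_eq_of_mul_eq_one_right (of_sq x)
  set o : Gen22 → G22 := PresentedGroup.of
  have key : ∀ P : G22, P ^ 9 = 1 → ((o .h * P * (o .h)⁻¹)⁻¹) ^ 9 = 1 := fun P hP => by
    rw [inv_pow, inv_eq_one, conj_pow, hP, mul_one, mul_inv_cancel]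
  constructor
  · refine Eq.trans ?_ (key _ of_seven.2)
    congr 1
    simp only [sevenAL, sevenBL, List.map_cons, List.map_nil, List.prod_cons, List.prod_nil, mul_one, rev,
      mul_inv_rev, inv_inv, hi, o, mul_assoc]
    rw [← mul_assoc (PresentedGroup.of Cfsg.Spor.Fi22.Gen.h : G22) (PresentedGroup.of Cfsg.Spor.Fi22.Gen.h), of_sq, one_mul]
  · refine Eq.trans ?_ (key _ of_seven.1)
    congr 1
    simp only [sevenAL, sevenBL, List.map_cons, List.map_nil, List.prod_cons, List.prod_nil, mul_one, rev,
      mul_inv_rev, inv_inv, hi, o, mul_assoc]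
    rw [← mul_assoc (PresentedGroup.of Cfsg.Spor.Fi22.Gen.h : G22) (PresentedGroup.of Cfsg.Spor.Fi22.Gen.h), of_sq, one_mul]

theorem rev_rel : ∀ r ∈ Cfsg.Spor.coxRelators Cfsg.Spor.Fi22.edges ∪ {r | r ∈ Cfsg.Spor.Fi22.extra},
    FreeGroup.lift (fun x => (PresentedGroup.of (rev x) : G22)) r = 1 := by
  intro r hr
  obtain ⟨l, hl, rfl⟩ := rel_list r hr
  rw [map_list_prod, List.map_map]
  refine Eq.trans (congrArg List.prod (List.map_congr_left fun x _ => FreeGroup.lift_apply_of)) ?_
  rcases relList_extra l hl with ⟨x, y, rfl⟩ | rfl | rfl | rfl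
  · have hlab : ∀ x ∈ allGens, ∀ y ∈ allGens, Cfsg.Spor.coxLabel Cfsg.Spor.Fi22.edges (rev x) (rev y) =
        Cfsg.Spor.coxLabel Cfsg.Spor.Fi22.edges x y := by decide
    have h := of_rel (rev x) (rev y)
    rw [hlab x (mem_allGens x) y (mem_allGens y)] at h
    rw [prod_rep]
    simpa using h
  · exact rev_spider
  · rw [prod_rep]; exact rev_seven.1
  · rw [prod_rep]; exact rev_seven.2

/-- The reversal automorphism. -/
theorem exists_rev : ∃ ρ : G22 ≃* G22, ∀ x, ρ (PresentedGroup.of x) = PresentedGroup.of (rev x) := by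
  let f : G22 →* G22 := PresentedGroup.toGroup rev_rel
  have hf : ∀ x, f (PresentedGroup.of x) = PresentedGroup.of (rev x) := fun x => PresentedGroup.toGroup.of _
  have h : f.comp f = MonoidHom.id _ := PresentedGroup.ext fun x => by
    rw [MonoidHom.comp_apply, hf, hf, rev_rev, MonoidHom.id_apply]
  exact ⟨MonoidHom.toMulEquiv f f h h, hf⟩

end Cfsg.Agent.FiTrans
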