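import Cfsg.Agent.FiTrans.CoverIso
import Cfsg.Agent.FiTrans.Rev
import Cfsg.Agent.H77.Y332Iso

/-!
Lifts of the diagram generators of Fi22 to a perfect double cover: the isomorphism onto a standard cover
can be chosen to respect given sections.
-/

set_option autoImplicit false
set_option maxRecDepth 100000

namespace Cfsg.Agent.FiTrans

open Cfsg.Agent.TTLink Cfsg.Agent.ThreeTransp45 Cfsg.Agent.SporB
open scoped commutatorElement

local notation "G22" => Cfsg.Spor.Fi22
local notation "Gen22" => Cfsg.Spor.Fi22.Gen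

variable {X C : Type*} [Group X] [Group C] {E : Set X} {π : C →* X} {d : C}

/-- The product of the lifts of a word in the generators. -/
def lifts (τ : X → C) (e₀ : G22 ≃* X) (l : List Gen22) : C :=
  ev τ (l.map fun x => e₀ (PresentedGroup.of x))

/-- The image of the transpositions is the given class. -/
def GoodMap (E : Set X) (e₀ : G22 ≃* X) : Prop :=
  e₀ '' conjugatesOf (PresentedGroup.of Cfsg.Spor.Fi22.Gen.a : G22) = E

theorem GoodMap.mem {e₀ : G22 ≃* X} (he : GoodMap E e₀) (x : Gen22) : e₀ (PresentedGroup.of x) ∈ E :=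
  he ▸ ⟨_, of_conj x, rfl⟩

theorem lifts_cons (τ : X → C) (e₀ : G22 ≃* X) (x : Gen22) (l : List Gen22) :
    lifts τ e₀ (x :: l) = τ (e₀ (PresentedGroup.of x)) * lifts τ e₀ l := rfl

theorem lifts_append (τ : X → C) (e₀ : G22 ≃* X) (l m : List Gen22) :
    lifts τ e₀ (l ++ m) = lifts τ e₀ l * lifts τ e₀ m := by
  rw [lifts, lifts, lifts, List.map_append, ev_append]

theorem lifts_pow (τ : X → C) (e₀ : G22 ≃* X) (l : List Gen22) (n : ℕ) :
    lifts τ e₀ (List.replicate n l).flatten = lifts τ e₀ l ^ n := by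
  induction n with
  | zero => simp [lifts]
  | succ n ih => rw [List.replicate_succ, List.flatten_cons, lifts_append, ih, pow_succ']

variable [Finite X] [Finite C] (K : DCover π d) (P : M22Prim E) {τ : X → C} (T : Sec E π τ)
  {e₀ : G22 ≃* X} (he : GoodMap E e₀)
include K P T he

/-- The Coxeter relations hold for the lifts. -/
theorem lifts_cox (x y : Gen22) :
    lifts τ e₀ (List.replicate (Cfsg.Spor.coxLabel Cfsg.Spor.Fi22.edges x y) [x, y]).flatten = 1 := by
  rw [lifts_pow, lifts_cons, lifts_cons, show lifts τ e₀ [] = 1 from rfl, mul_one]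
  set u := e₀ (PresentedGroup.of x) with hu
  set w := e₀ (PresentedGroup.of y) with hw
  have huE : u ∈ E := he.mem x
  have hwE : w ∈ E := he.mem y
  have h := congrArg e₀ (of_rel x y)
  rw [map_pow, map_mul, map_one, ← hu, ← hw] at h
  have hl : ∀ x ∈ allGens, ∀ y ∈ allGens,
      (x = y ∧ Cfsg.Spor.coxLabel Cfsg.Spor.Fi22.edges x y = 1) ∨
        Cfsg.Spor.coxLabel Cfsg.Spor.Fi22.edges x y = 2 ∨
        Cfsg.Spor.coxLabel Cfsg.Spor.Fi22.edges x y = 3 := by decide
  have iu := P.data.mul_self huE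
  have iw := P.data.mul_self hwE
  rcases hl x (mem_allGens x) y (mem_allGens y) with ⟨hxy, e⟩ | e | e <;> rw [e] at h ⊢
  · rw [pow_one, show w = u by rw [hu, hw, hxy]]
    exact K.sec_sq P T huE
  · have hc : Commute u w := by
      show u * w = w * u
      calc u * w = (u * w) * (u * w) * (w * u) := by
            simp only [mul_assoc]; rw [← mul_assoc w w, iw, one_mul, iu, mul_one]
        _ = w * u := by rw [← pow_two, h, one_mul]
    rw [(K.sec_comm P T huE hwE hc).mul_pow, pow_two, pow_two, K.sec_sq P T huE, K.sec_sq P T hwE,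
      one_mul]
  · have hb : cj u w = cj w u := by
      rw [P.data.cj_eq huE, P.data.cj_eq hwE]
      calc u * w * u = u * w * u * (w * u * w * (w * u * w)) := by
            simp only [mul_assoc]; rw [← mul_assoc w w, iw, one_mul, ← mul_assoc u u, iu, one_mul, iw, mul_one]
        _ = (u * w) ^ 3 * (w * u * w) := by simp only [pow_succ, pow_zero, one_mul, mul_assoc]
        _ = w * u * w := by rw [h, one_mul]
    have key : ∀ p ∈ E, ∀ q ∈ E, τ p * τ q * τ p = τ (cj p q) := fun p hp q hq => by
      have h1 := T.conj (τ p) q hq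
      rwa [inv_eq_of_mul_eq_one_right (K.sec_sq P T hp), T.map p hp] at h1
    have h2 : τ u * τ w * τ u = τ w * τ u * τ w := by rw [key u huE w hwE, key w hwE u huE, hb]
    calc (τ u * τ w) ^ 3 = τ u * τ w * τ u * (τ w * τ u * τ w) := by
          simp only [pow_succ, pow_zero, one_mul, mul_assoc]
      _ = τ w * τ u * τ w * (τ w * τ u * τ w) := by rw [h2]
      _ = 1 := by
        simp only [mul_assoc]
        rw [← mul_assoc (τ w) (τ w), K.sec_sq P T hwE, one_mul, ← mul_assoc (τ u) (τ u),
          K.sec_sq P T huE, one_mul, K.sec_sq P T hwE]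

/-- The value of a relator is one or the central involution. -/
theorem lifts_value {l : List Gen22} (hl : l ∈ relList) : lifts τ e₀ l = 1 ∨ lifts τ e₀ l = d := by
  refine (K.ker _).1 ?_
  obtain ⟨φ, hinj, hval, -, -⟩ := FischerU.fi_data
  rw [lifts, K.map_ev P T (fun y hy => by
    obtain ⟨x, -, rfl⟩ := List.mem_map.1 hy
    exact he.mem x), show (l.map fun x => e₀ (PresentedGroup.of x)) = (l.map PresentedGroup.of).map e₀ by
      rw [List.map_map]; rfl, ← map_list_prod]
  rw [map_eq_one_iff e₀ e₀.injective]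
  have hs : ∀ r ∈ relList, (r.map FreeGroup.of).prod ∈
      CosetCert.coxList Cfsg.Spor.Fi22.edges Cfsg.Spor.Fi22.extra := by decide +kernel
  have h1 := PresentedGroup.one_of_mem ((CosetCert.mem_coxList _ _ _).2 (hs l hl))
  rwa [map_list_prod, List.map_map] at h1

/-- The lifts cannot satisfy all the relations, for the cover does not split. -/
theorem not_split (h1 : lifts τ e₀ (List.replicate 10 spiderL).flatten = 1)
    (h2 : lifts τ e₀ (List.replicate 9 sevenAL).flatten = 1)
    (h3 : lifts τ e₀ (List.replicate 9 sevenBL).flatten = 1) : False := by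
  classical
  have hall : ∀ r ∈ Cfsg.Spor.coxRelators Cfsg.Spor.Fi22.edges ∪ {r | r ∈ Cfsg.Spor.Fi22.extra},
      FreeGroup.lift (fun x => τ (e₀ (PresentedGroup.of x))) r = 1 := by
    intro r hr
    obtain ⟨l, hl, rfl⟩ := rel_list r hr
    rw [map_list_prod, List.map_map]
    refine Eq.trans (congrArg List.prod (List.map_congr_left fun x _ => FreeGroup.lift_apply_of)) ?_
    have : lifts τ e₀ l = 1 := by
      rcases relList_extra l hl with ⟨x, y, rfl⟩ | rfl | rfl | rfl
      exacts [lifts_cox K P T he x y, h1, h2, h3]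
    rw [← this, lifts, ev, List.map_map]
    rfl
  let s : G22 →* C := PresentedGroup.toGroup hall
  have hs : π.comp s = e₀.toMonoidHom := PresentedGroup.ext fun x => by
    rw [MonoidHom.comp_apply, show s (PresentedGroup.of x) = _ from (PresentedGroup.toGroup.of _),
      T.map _ (he.mem x)]
    rfl
  have hdec : ∀ c, c ∈ s.range ∨ c * d ∈ s.range := fun c => by
    have h : π (s (e₀.symm (π c))) = π c := by
      rw [← MonoidHom.comp_apply, hs]; exact e₀.apply_symm_apply _
    rcases K.eq_or h with e | e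
    · exact Or.inl ⟨_, e.symm⟩
    · exact Or.inr ⟨e₀.symm (π c), by conv_rhs => rw [e, mul_assoc, K.sq, mul_one]⟩
  have hcomm : commutator C ≤ s.range := by
    rw [commutator_def, Subgroup.commutator_le]
    intro a _ b _
    have key : ∀ {p q : C}, p ∈ s.range → q ∈ s.range → ⁅p, q⁆ ∈ s.range := fun hp hq =>
      mul_mem (mul_mem (mul_mem hp hq) (inv_mem hp)) (inv_mem hq)
    have ea : ∀ p q : C, ⁅p * d, q⁆ = ⁅p, q⁆ := fun p q => by
      rw [commutatorElement_def, commutatorElement_def, mul_inv_rev, ← mul_assoc, mul_assoc p d q,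
        (K.central q).eq, ← mul_assoc p q d, mul_assoc (p * q) d, mul_inv_cancel, mul_one]
    have eb : ∀ p q : C, ⁅p, q * d⁆ = ⁅p, q⁆ := fun p q => by
      rw [commutatorElement_def, commutatorElement_def, mul_inv_rev, ← mul_assoc p q d,
        mul_assoc (p * q) d p⁻¹, (K.central p⁻¹).eq, ← mul_assoc (p * q) p⁻¹ d,
        mul_assoc (p * q * p⁻¹) d, ← mul_assoc d, mul_inv_cancel, one_mul]
    rcases hdec a with ha | ha <;> rcases hdec b with hb | hb
    · exact key ha hb
    · rw [← eb]; exact key ha hb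
    · rw [← ea]; exact key ha hb
    · rw [← ea, ← eb]; exact key ha hb
  rw [K.perf] at hcomm
  obtain ⟨g, hg⟩ : d ∈ s.range := hcomm (Subgroup.mem_top d)
  have h : e₀ g = 1 := by
    rw [show e₀ g = π.comp s g by rw [hs]; rfl, MonoidHom.comp_apply, hg, K.map_d]
  rw [(map_eq_one_iff e₀ e₀.injective).1 h, map_one] at hg
  exact K.ne hg.symm

omit K P T in
theorem GoodMap.rev {ρ : G22 ≃* G22} (hρ : ∀ x, ρ (PresentedGroup.of x) = PresentedGroup.of (rev x)) :
    GoodMap E (ρ.trans e₀) := by
  rw [GoodMap] at he ⊢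
  rw [← he]
  ext z
  have hga : IsConj (PresentedGroup.of Cfsg.Spor.Fi22.Gen.a : G22) (ρ (PresentedGroup.of .a)) := by
    rw [hρ]; exact of_conj _
  constructor
  · rintro ⟨v, hv, rfl⟩
    exact ⟨ρ v, hga.trans (ρ.toMonoidHom.map_isConj hv), rfl⟩
  · rintro ⟨v, hv, rfl⟩
    have hga' : IsConj (PresentedGroup.of Cfsg.Spor.Fi22.Gen.a : G22)
        (ρ.symm (PresentedGroup.of .a)) := by
      have h := ρ.symm.toMonoidHom.map_isConj hga
      rw [MulEquiv.coe_toMonoidHom, ρ.symm_apply_apply] at h
      exact h.symm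
    exact ⟨ρ.symm v, hga'.trans (ρ.symm.toMonoidHom.map_isConj hv), congrArg e₀ (ρ.apply_symm_apply v)⟩

/-- After the reversal the second word is the inverse of a conjugate of the first. -/
theorem lifts_rev {ρ : G22 ≃* G22} (hρ : ∀ x, ρ (PresentedGroup.of x) = PresentedGroup.of (rev x))
    (hB : lifts τ e₀ (List.replicate 9 sevenBL).flatten = 1) :
    lifts τ (ρ.trans e₀) (List.replicate 9 sevenAL).flatten = 1 := by
  have hsq : ∀ x, τ (e₀ (PresentedGroup.of x)) * τ (e₀ (PresentedGroup.of x)) = 1 := fun x =>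
    K.sec_sq P T (he.mem x)
  rw [lifts_pow] at hB ⊢
  set h := τ (e₀ (PresentedGroup.of Cfsg.Spor.Fi22.Gen.h))
  have hi : ∀ x, (τ (e₀ (PresentedGroup.of x)))⁻¹ = τ (e₀ (PresentedGroup.of x)) := fun x =>
    inv_eq_of_mul_eq_one_right (hsq x)
  have e : lifts τ (ρ.trans e₀) sevenAL = (h * lifts τ e₀ sevenBL * h⁻¹)⁻¹ := by
    simp only [sevenAL, sevenBL, lifts, ev, List.map_cons, List.map_nil, List.prod_cons, List.prod_nil,
      mul_one, MulEquiv.trans_apply, hρ, rev, mul_inv_rev, inv_inv, hi, h, mul_assoc]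
    rw [← mul_assoc (τ (e₀ (PresentedGroup.of Cfsg.Spor.Fi22.Gen.h)))
      (τ (e₀ (PresentedGroup.of Cfsg.Spor.Fi22.Gen.h))), hsq, one_mul]
  rw [e, inv_pow, inv_eq_one, conj_pow, hB, mul_one, mul_inv_cancel]

omit he in
/-- The isomorphism onto a standard cover respecting the sections. -/
theorem exists_iso_resp {C' : Type*} [Group C'] [Finite C'] [Finite G22] {π' : C' →* G22} {d' : C'}
    (K' : DCover π' d')
    (P' : M22Prim (conjugatesOf (PresentedGroup.of Cfsg.Spor.Fi22.Gen.a : G22))) {τ' : G22 → C'}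
    (T' : Sec (conjugatesOf (PresentedGroup.of Cfsg.Spor.Fi22.Gen.a : G22)) π' τ')
    (hS' : lifts τ' (MulEquiv.refl _) (List.replicate 10 spiderL).flatten = 1)
    (hA' : lifts τ' (MulEquiv.refl _) (List.replicate 9 sevenAL).flatten = 1) :
    ∃ (e : X ≃* G22) (f : C ≃* C'),
      e '' E = conjugatesOf (PresentedGroup.of Cfsg.Spor.Fi22.Gen.a : G22) ∧
        (∀ c, π' (f c) = e (π c)) ∧ f d = d' ∧ ∀ u ∈ E, f (τ u) = τ' (e u) := by
  classical
  set E' := conjugatesOf (PresentedGroup.of Cfsg.Spor.Fi22.Gen.a : G22)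
  -- the isomorphism given a map of the generators
  have mk : ∀ e₀ : G22 ≃* X, GoodMap E e₀ → ∃ f : C ≃* C', (∀ c, π' (f c) = e₀.symm (π c)) ∧ f d = d' ∧
      ((∀ u ∈ E, f (τ u) = τ' (e₀.symm u)) ∨ ∀ u ∈ E, f (τ u) = τ' (e₀.symm u) * d') := by
    intro e₀ he
    have hE : e₀.symm '' E = E' := by rw [← he]; simp [Set.image_image, E']
    obtain ⟨f, hf, hfd⟩ := exists_cover_iso K K' P P' e₀.symm hE
    have hu' : ∀ v ∈ E', e₀ v ∈ E := fun v hv => he ▸ ⟨v, hv, rfl⟩
    have S₂ : Sec E' π' (fun v => f (τ (e₀ v))) := by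
      refine ⟨fun v hv => ?_, fun c v hv => ?_⟩
      · rw [hf, T.map _ (hu' v hv), e₀.symm_apply_apply]
      · obtain ⟨c, rfl⟩ := f.surjective c
        show f c * f (τ (e₀ v)) * (f c)⁻¹ = f (τ (e₀ (cj (π' (f c)) v)))
        rw [← map_inv, ← map_mul, ← map_mul, T.conj c _ (hu' v hv), hf]
        simp [cj]
    refine ⟨f, hf, hfd, ?_⟩
    rcases sec_eq_or K' P' T' S₂ with h | h
    · left; intro u hu
      have := h (e₀.symm u) (hE ▸ ⟨u, hu, rfl⟩)
      simpa using this
    · right; intro u hu
      have := h (e₀.symm u) (hE ▸ ⟨u, hu, rfl⟩)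
      simpa using this
  -- transport of values
  have tr : ∀ (e₀ : G22 ≃* X) (f : C ≃* C'), GoodMap E e₀ →
      ((∀ u ∈ E, f (τ u) = τ' (e₀.symm u)) → ∀ l, f (lifts τ e₀ l) = lifts τ' (MulEquiv.refl _) l) ∧
      ((∀ u ∈ E, f (τ u) = τ' (e₀.symm u) * d') → ∀ l,
        f (lifts τ e₀ l) = lifts τ' (MulEquiv.refl _) l * d' ^ l.length) := by
    intro e₀ f he
    refine ⟨fun h l => ?_, fun h l => ?_⟩
    · induction l with
      | nil => simp [lifts]
      | cons x t ih =>
        rw [lifts_cons, lifts_cons, map_mul, h _ (he.mem x), ih]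
        simp
    · induction l with
      | nil => simp [lifts]
      | cons x t ih =>
        rw [lifts_cons, lifts_cons, map_mul, h _ (he.mem x), ih, e₀.symm_apply_apply, List.length_cons,
          pow_succ', mul_assoc (τ' (PresentedGroup.of x)) d', ← mul_assoc d',
          (K'.central (lifts τ' (MulEquiv.refl _) t)).eq]
        simp [mul_assoc]
  have hd63 : d' ^ (List.replicate 9 sevenAL).flatten.length = d' := by
    rw [show (List.replicate 9 sevenAL).flatten.length = 2 * 31 + 1 from by decide, pow_succ, pow_mul,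
      pow_two, K'.sq, one_pow, one_mul]
  have hd90 : d' ^ (List.replicate 10 spiderL).flatten.length = 1 := by
    rw [show (List.replicate 10 spiderL).flatten.length = 2 * 45 from by decide, pow_mul, pow_two, K'.sq,
      one_pow]
  -- finish from a good map with the first value one
  have fin : ∀ e₀ : G22 ≃* X, GoodMap E e₀ → lifts τ e₀ (List.replicate 9 sevenAL).flatten = 1 →
      ∃ (e : X ≃* G22) (f : C ≃* C'), e '' E = E' ∧
        (∀ c, π' (f c) = e (π c)) ∧ f d = d' ∧ ∀ u ∈ E, f (τ u) = τ' (e u) := by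
    intro e₀ he hA
    obtain ⟨f, hf, hfd, h | h⟩ := mk e₀ he
    · exact ⟨e₀.symm, f, by rw [← he]; simp [Set.image_image, E'], hf, hfd, h⟩
    · exfalso
      have := (tr e₀ f he).2 h (List.replicate 9 sevenAL).flatten
      rw [hA, hA', map_one, one_mul, hd63] at this
      exact K'.ne this.symm
  obtain ⟨e₀, he⟩ := H77.iso_fi22 P
  replace he : GoodMap E e₀ := he
  have hlA : (List.replicate 9 sevenAL).flatten ∈ relList := by decide
  have hlB : (List.replicate 9 sevenBL).flatten ∈ relList := by decide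
  rcases lifts_value K P T he hlA with hA | hA
  · exact fin e₀ he hA
  -- otherwise reverse the diagram
  obtain ⟨f, hf, hfd, hflip⟩ := mk e₀ he
  have hS : lifts τ e₀ (List.replicate 10 spiderL).flatten = 1 := by
    refine (map_eq_one_iff f f.injective).1 ?_
    rcases hflip with h | h
    · rw [(tr e₀ f he).1 h, hS']
    · rw [(tr e₀ f he).2 h, hS', hd90, one_mul]
  have hB : lifts τ e₀ (List.replicate 9 sevenBL).flatten = 1 := by
    refine (lifts_value K P T he hlB).resolve_right fun hB => ?_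
    have key : ∀ l, lifts (fun u => τ u * d) e₀ l = lifts τ e₀ l * d ^ l.length := fun l => by
      rw [lifts, lifts, K.ev_flip, List.length_map]
    have hp : ∀ n : ℕ, d ^ (2 * n + 1) = d := fun n => by
      rw [pow_succ, pow_mul, pow_two, K.sq, one_pow, one_mul]
    refine not_split K P (K.sec_flip P T) he ?_ ?_ ?_
    · rw [key, hS, one_mul, show (List.replicate 10 spiderL).flatten.length = 2 * 45 from by decide,
        pow_mul, pow_two, K.sq, one_pow]
    · rw [key, hA, show (List.replicate 9 sevenAL).flatten.length = 2 * 31 + 1 from by decide, hp, K.sq]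
    · rw [key, hB, show (List.replicate 9 sevenBL).flatten.length = 2 * 31 + 1 from by decide, hp, K.sq]
  obtain ⟨ρ, hρ⟩ := exists_rev
  exact fin _ (GoodMap.rev he hρ) (lifts_rev K P T he hρ hB)

end Cfsg.Agent.FiTrans
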