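import Cfsg.Agent.FiTrans.Class
import Cfsg.Agent.TTLink.M22Planes
import Cfsg.Agent.FiTrans.Sign
import Cfsg.Agent.SporB.FiTwoThree.Class
import Cfsg.Agent.SporB.FiType.TypeTwo

/-!
The presented Fischer group Fi23 with its transposition as a model: the centraliser is a perfect double
cover of the presented Fi22 carrying generators to generators.
-/

set_option autoImplicit false
set_option maxRecDepth 100000

namespace Cfsg.Agent.FiTrans

open Cfsg.Agent.TTLink Cfsg.Agent.ThreeTransp45 Cfsg.Agent.SporB Cfsg.Agent.CosetCert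
open scoped commutatorElement

local notation "G22" => Cfsg.Spor.Fi22
local notation "G23" => Cfsg.Spor.Fi23
local notation "Gen22" => Cfsg.Spor.Fi22.Gen
local notation "triSub" => Cfsg.Agent.CosetEnum.FiTwentyThree.sub

theorem finite22 : Finite G22 :=
  Nat.finite_of_card_ne_zero (by rw [CosetEnum.FiTwentyTwo.main.2]; norm_num)

theorem finite23 : Finite G23 :=
  Nat.finite_of_card_ne_zero (by rw [CosetEnum.FiTwentyThree.main.2]; norm_num)

/-- An involution with all products of it with its conjugates of order at most three, in a simple group. -/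
theorem ttClass_of_pair {H : Type*} [Group H] [IsSimpleGroup H] {t : H} (ho : orderOf t = 2)
    (hp : ∀ k : H, (t * (k * t * k⁻¹)) ^ 2 = 1 ∨ (t * (k * t * k⁻¹)) ^ 3 = 1) :
    Cfsg.IsThreeTranspositionClass (conjugatesOf t) := by
  refine ⟨⟨fun d hd => ?_, fun d hd e he => ?_⟩, ⟨t, mem_conjugatesOf_self, rfl⟩, ?_⟩
  · obtain ⟨g, rfl⟩ := isConj_iff.1 hd
    exact (orderOf_injective (MulAut.conj g).toMonoidHom (MulAut.conj g).injective t).trans ho
  · obtain ⟨g, rfl⟩ := isConj_iff.1 hd
    obtain ⟨k, rfl⟩ := isConj_iff.1 he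
    rw [show g * t * g⁻¹ * (k * t * k⁻¹) = g * (t * (g⁻¹ * k * t * (g⁻¹ * k)⁻¹)) * g⁻¹ by group,
      conj_pow, conj_pow]
    rcases hp (g⁻¹ * k) with h | h
    · exact Or.inl (by rw [h, mul_one, mul_inv_cancel])
    · exact Or.inr (by rw [h, mul_one, mul_inv_cancel])
  · rcases (Subgroup.normalClosure_normal (s := ({t} : Set H))).eq_bot_or_eq_top with h | h
    · exfalso
      have h1 : t ∈ Subgroup.normalClosure ({t} : Set H) := Subgroup.subset_normalClosure rfl
      rw [h, Subgroup.mem_bot] at h1
      rw [h1, orderOf_one] at ho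
      omega
    · rw [← h, Subgroup.normalClosure, Group.conjugatesOfSet]
      simp

theorem fi22Prim : M22Prim (conjugatesOf (PresentedGroup.of Cfsg.Spor.Fi22.Gen.a : G22)) := by
  haveI := finite22
  haveI : IsSimpleGroup G22 := CosetEnum.FiTwentyTwo.main.1
  have e : (PresentedGroup.of Cfsg.Spor.Fi22.Gen.a : G22) = FischerU.transA := (val_code _).symm
  rw [e]
  obtain ⟨-, ho, hp⟩ := FischerU.centralizer_facts
  exact m22Prim_of_class (ttClass_of_pair ho hp) FiType.fi22_type

/-- The generators of the centraliser. -/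
noncomputable def gen23 (x : Gen22) : ↥(Subgroup.centralizer ({FischerTri.trans} : Set G23)) :=
  ⟨PresentedGroup.of (CosetEnum.FiTwentyThree.emb x),
    FischerTri.centralizer_facts.1 ▸ CosetEnum.FiTwentyThree.emb_mem x⟩

theorem gen23_word (l : List Gen22) :
    (((l.map gen23).prod : ↥(Subgroup.centralizer ({FischerTri.trans} : Set G23))) : G23) =
      PresentedGroup.mk _ (FreeGroup.map CosetEnum.FiTwentyThree.emb (l.map FreeGroup.of).prod) := by
  induction l with
  | nil => simp
  | cons x t ih =>
    rw [List.map_cons, List.prod_cons, List.map_cons, List.prod_cons, map_mul, map_mul, Subgroup.coe_mul, ih,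
      FreeGroup.map.of]
    rfl

theorem gen23_rel (l : List Gen22)
    (h : FreeGroup.map CosetEnum.FiTwentyThree.emb (l.map FreeGroup.of).prod ∈
      coxList Cfsg.Spor.Fi23.edges Cfsg.Spor.Fi23.extra) : (l.map gen23).prod = 1 :=
  Subtype.ext (by rw [gen23_word]; exact CosetEnum.FiTwentyThree.mk_eq_one _ h)

theorem gen23_seven : ((((List.replicate 9 sevenBL).flatten.map gen23).prod :
    ↥(Subgroup.centralizer ({FischerTri.trans} : Set G23))) : G23) = FischerTri.trans := by
  rw [gen23_word]
  have e : FreeGroup.map CosetEnum.FiTwentyThree.emb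
      ((List.replicate 9 sevenBL).flatten.map FreeGroup.of).prod =
      (pval (CosetCert.FiTwentyThree.data.act FreeGroup.of) [9, 7, 6, 5, 4, 3, 2]) ^ 9 := by
    decide +kernel
  rw [e, map_pow]
  rfl

theorem model_nwc : ∃ g : G23, g * FischerTri.trans * g⁻¹ ∈ Subgroup.centralizer ({FischerTri.trans} : Set G23) ∧
    g * FischerTri.trans * g⁻¹ ≠ FischerTri.trans := by
  obtain ⟨φ, hinj, hval, htrans, hmem, -⟩ := FischerTri.tri_data
  have hC := FischerTri.centralizer_facts.1
  set w₀ := FischerTri.val FischerTri.commWord with hw₀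
  refine ⟨w₀, hC ▸ (hmem _).2 ?_, fun h => ?_⟩
  · set p : Fin 31671 := φ w₀⁻¹ 0 with hp
    have hp0 : CosetCert.FiTwentyThree.data.run FischerTri.commWord.reverse 0 = (p : ℕ) := by
      have hq : φ (FischerTri.val FischerTri.commWord.reverse) 0 = p := by
        have h1 : φ w₀ (φ (FischerTri.val FischerTri.commWord.reverse) 0) = 0 := by
          apply Fin.ext
          rw [hw₀, hval _ (by decide +kernel), hval _ (by decide +kernel)]
          decide +kernel
        rw [hp, map_inv]
        exact (Equiv.Perm.eq_inv_iff_eq).2 h1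
      rw [← hq, hval _ (by decide +kernel)]
      rfl
    rw [map_mul, map_mul, Equiv.Perm.mul_apply, Equiv.Perm.mul_apply, ← hp]
    apply Fin.ext
    rw [hw₀, hval _ (by decide +kernel), htrans, ← hp0]
    decide +kernel
  · have hw : w₀ ∈ triSub := hC ▸ Subgroup.mem_centralizer_singleton_iff.2 (mul_inv_eq_iff_eq_mul.1 h)
    have h0 := congrArg Fin.val ((hmem _).1 hw)
    rw [hw₀, hval _ (by decide +kernel)] at h0
    revert h0
    decide +kernel

/-- The model: projection to Fi22, hypotheses, and the relations among the lifts. -/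
theorem exists_model : ∃ π' : ↥(Subgroup.centralizer ({FischerTri.trans} : Set G23)) →* G22,
    Hyp FischerTri.trans π' (conjugatesOf (PresentedGroup.of Cfsg.Spor.Fi22.Gen.a : G22)) ∧
    ∀ τ', Sec (conjugatesOf (PresentedGroup.of Cfsg.Spor.Fi22.Gen.a : G22)) π' τ' →
      (∀ u ∈ conjugatesOf (PresentedGroup.of Cfsg.Spor.Fi22.Gen.a : G22),
        IsConj FischerTri.trans ((τ' u : ↥(Subgroup.centralizer ({FischerTri.trans} : Set G23))) : G23)) →
      lifts τ' (MulEquiv.refl _) (List.replicate 10 spiderL).flatten = 1 ∧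
      lifts τ' (MulEquiv.refl _) (List.replicate 9 sevenAL).flatten = 1 := by
  classical
  haveI := finite22
  haveI := finite23
  haveI : IsSimpleGroup G22 := CosetEnum.FiTwentyTwo.main.1
  have P' := fi22Prim
  obtain ⟨hC, ho, hpair⟩ := FischerTri.centralizer_facts
  set C := Subgroup.centralizer ({FischerTri.trans} : Set G23) with hCdef
  have hcov : Cfsg.IsNonsplitDoubleCover ↥C G22 :=
    FischerU.nonsplit_congr (MulEquiv.subgroupCongr hC) CosetEnum.FiTwentyThree.main_cover
  have htC : FischerTri.trans ∈ C := Subgroup.mem_centralizer_singleton_iff.2 rfl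
  set t : ↥C := ⟨FischerTri.trans, htC⟩ with ht
  have tsq : t * t = 1 := Subtype.ext (by
    show FischerTri.trans * FischerTri.trans = 1
    rw [← pow_two, ← ho, pow_orderOf_eq_one])
  have tne : t ≠ 1 := fun h => by
    have h' : FischerTri.trans = 1 := congrArg Subtype.val h
    rw [h', orderOf_one] at ho
    omega
  have tc : ∀ c : ↥C, Commute t c := fun c =>
    Subtype.ext (Subgroup.mem_centralizer_singleton_iff.1 c.2).symm
  haveI : (Subgroup.zpowers t).Normal := by
    refine ⟨fun x hx g => ?_⟩
    obtain ⟨k, rfl⟩ := Subgroup.mem_zpowers_iff.1 hx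
    rw [((tc g).symm.zpow_right k).eq, mul_inv_cancel_right]
    exact Subgroup.zpow_mem_zpowers _ k
  have tmem : ∀ x ∈ Subgroup.zpowers t, x = 1 ∨ x = t := by
    intro x hx
    obtain ⟨k, rfl⟩ := Subgroup.mem_zpowers_iff.1 hx
    rcases Int.even_or_odd' k with ⟨j, rfl | rfl⟩
    · left; rw [zpow_mul, zpow_two, tsq, one_zpow]
    · right; rw [zpow_add, zpow_mul, zpow_two, tsq, one_zpow, one_mul, zpow_one]
  let q := QuotientGroup.mk' (Subgroup.zpowers t)
  have hrel : ∀ r ∈ Cfsg.Spor.coxRelators Cfsg.Spor.Fi22.edges ∪ {r | r ∈ Cfsg.Spor.Fi22.extra},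
      FreeGroup.lift (fun x => q (gen23 x)) r = 1 := by
    intro r hr
    obtain ⟨l, hl, rfl⟩ := rel_list r hr
    have e : FreeGroup.lift (fun x => q (gen23 x)) (l.map FreeGroup.of).prod = q (l.map gen23).prod := by
      rw [map_list_prod, map_list_prod, List.map_map, List.map_map]
      exact congrArg List.prod (List.map_congr_left fun x _ => FreeGroup.lift_apply_of)
    rw [e]
    have hl2 : ∀ l ∈ relList, FreeGroup.map CosetEnum.FiTwentyThree.emb (l.map FreeGroup.of).prod ∈
        coxList Cfsg.Spor.Fi23.edges Cfsg.Spor.Fi23.extra ∨ l = (List.replicate 9 sevenBL).flatten := by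
      decide +kernel
    rcases hl2 l hl with h | rfl
    · rw [gen23_rel l h, map_one]
    · exact (QuotientGroup.eq_one_iff _).2
        ((show _ = t from Subtype.ext gen23_seven) ▸ Subgroup.mem_zpowers t)
  let h : G22 →* ↥C ⧸ Subgroup.zpowers t := PresentedGroup.toGroup hrel
  have hof : ∀ x, h (PresentedGroup.of x) = q (gen23 x) := fun x => (PresentedGroup.toGroup.of _)
  have gtop : Subgroup.closure (Set.range gen23) = ⊤ := by
    refine Subgroup.map_injective C.subtype_injective ?_
    have h1 := congrArg (Subgroup.map (triSub).subtype) CosetEnum.FiTwentyThree.gen_top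
    rw [MonoidHom.map_closure, ← MonoidHom.range_eq_map, Subgroup.range_subtype, ← Set.range_comp] at h1
    rw [MonoidHom.map_closure, ← MonoidHom.range_eq_map, Subgroup.range_subtype, ← Set.range_comp]
    exact h1.trans hC
  have hsurj : Function.Surjective h := by
    intro y
    obtain ⟨c, rfl⟩ := QuotientGroup.mk'_surjective _ y
    have hle : (⊤ : Subgroup ↥C) ≤ h.range.comap q := by
      rw [← gtop, Subgroup.closure_le]
      rintro _ ⟨x, rfl⟩
      exact ⟨PresentedGroup.of x, hof x⟩
    exact hle (Subgroup.mem_top c)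
  obtain ⟨hZcard, ⟨eQ⟩, -⟩ := hcov
  have noncentral : ¬ (⊤ : Subgroup ↥C) ≤ Subgroup.center ↥C := fun hle => by
    haveI : Subsingleton (↥C ⧸ Subgroup.center ↥C) := by
      rw [show Subgroup.center ↥C = ⊤ from top_le_iff.1 hle]
      exact QuotientGroup.subsingleton_quotient_top
    exact not_subsingleton G22 eQ.symm.toEquiv.subsingleton
  have hinj : Function.Injective h := by
    rw [← MonoidHom.ker_eq_bot_iff]
    refine ((inferInstance : h.ker.Normal).eq_bot_or_eq_top).resolve_right fun hk => noncentral fun c _ => ?_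
    obtain ⟨g, hg⟩ := hsurj (q c)
    have hg1 : h g = 1 := by rw [← MonoidHom.mem_ker, hk]; exact Subgroup.mem_top g
    rw [hg1] at hg
    rcases tmem c ((QuotientGroup.eq_one_iff c).1 hg.symm) with rfl | rfl
    · exact one_mem _
    · exact Subgroup.mem_center_iff.2 fun g' => (tc g').eq.symm
  let he := MulEquiv.ofBijective h ⟨hinj, hsurj⟩
  let π' : ↥C →* G22 := he.symm.toMonoidHom.comp q
  have hgen : ∀ x, π' (gen23 x) = PresentedGroup.of x := fun x =>
    he.symm_apply_eq.2 (hof x).symm
  have hker : ∀ c, π' c = 1 ↔ c = 1 ∨ c = t := fun c => by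
    show he.symm (q c) = 1 ↔ _
    rw [map_eq_one_iff he.symm he.symm.injective]
    refine ⟨fun h1 => tmem c ((QuotientGroup.eq_one_iff c).1 h1), fun h1 => (QuotientGroup.eq_one_iff c).2 ?_⟩
    rcases h1 with rfl | rfl
    · exact one_mem _
    · exact Subgroup.mem_zpowers _
  have hperf : commutator ↥C = ⊤ := by
    refine FiType.eq_top_of_double_cover CosetEnum.FiTwentyTwo.main.1 ⟨hZcard, ⟨eQ⟩,
      (FischerU.nonsplit_congr (MulEquiv.subgroupCongr hC) CosetEnum.FiTwentyThree.main_cover).2.2⟩ _ ?_
    intro hle
    have h1 : commutator G22 ≤ ⊥ := by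
      have hs : Function.Surjective π' := he.symm.surjective.comp (QuotientGroup.mk'_surjective _)
      rw [commutator_def, ← Subgroup.map_top_of_surjective π' hs, ← Subgroup.map_commutator, ← commutator_def,
        ← P'.type.1]
      rintro _ ⟨c, hc, rfl⟩
      refine Subgroup.mem_center_iff.2 fun y => ?_
      obtain ⟨c', rfl⟩ := hs y
      rw [← map_mul, ← map_mul, Subgroup.mem_center_iff.1 (hle hc)]
    rcases P'.hyp.cls.2.1 with ⟨u, hu, -⟩
    refine P'.center_trivial hu fun v hv => ?_
    have h2 : ⁅u, v⁆ = 1 := Subgroup.mem_bot.1 (h1 (Subgroup.commutator_mem_commutator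
      (Subgroup.mem_top u) (Subgroup.mem_top v)))
    exact commutatorElement_eq_one_iff_mul_comm.1 h2
  have K' : DCover π' t := ⟨he.symm.surjective.comp (QuotientGroup.mk'_surjective _), tsq, tne, tc, hker, hperf⟩
  have HY : Hyp FischerTri.trans π' (conjugatesOf (PresentedGroup.of Cfsg.Spor.Fi22.Gen.a : G22)) :=
    ⟨⟨htC, K'⟩, P', model_nwc⟩
  refine ⟨π', HY, fun τ' T' hconj => ?_⟩
  have huE : ∀ x, (PresentedGroup.of x : G22) ∈ conjugatesOf (PresentedGroup.of Cfsg.Spor.Fi22.Gen.a : G22) :=
    fun x => of_conj x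
  have hor : ∀ x, gen23 x = τ' (PresentedGroup.of x) ∨ gen23 x = τ' (PresentedGroup.of x) * t := fun x =>
    K'.eq_or (by rw [hgen, T'.map _ (huE x)])
  -- the first generator is a transposition
  have hA0 : gen23 .a = τ' (PresentedGroup.of .a) := by
    refine (hor .a).resolve_right fun h => ?_
    obtain ⟨φ, hinj', hval, htrans, hmem, -⟩ := FischerTri.tri_data
    set j : G23 := PresentedGroup.of Cfsg.Spor.Fi23.Gen.j with hj
    have hjv : FischerTri.val [8] = j := by
      have e : pval (CosetCert.FiTwentyThree.data.act FreeGroup.of) [8] =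
          FreeGroup.of Cfsg.Spor.Fi23.Gen.j := by decide +kernel
      rw [FischerTri.val, e]
      rfl
    set a : G23 := PresentedGroup.of Cfsg.Spor.Fi23.Gen.a with ha
    have hja : j * a = a * j := by
      have h1 := CosetEnum.FiTwentyThree.mk_eq_one
        ((FreeGroup.of Cfsg.Spor.Fi23.Gen.a * FreeGroup.of Cfsg.Spor.Fi23.Gen.j) ^ 2) (by decide +kernel)
      have h2 := CosetEnum.FiTwentyThree.mk_eq_one
        (FreeGroup.of Cfsg.Spor.Fi23.Gen.a * FreeGroup.of Cfsg.Spor.Fi23.Gen.a) (by decide +kernel)
      have h3 := CosetEnum.FiTwentyThree.mk_eq_one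
        (FreeGroup.of Cfsg.Spor.Fi23.Gen.j * FreeGroup.of Cfsg.Spor.Fi23.Gen.j) (by decide +kernel)
      rw [map_pow, map_mul] at h1
      rw [map_mul] at h2 h3
      change (a * j) ^ 2 = 1 at h1
      change a * a = 1 at h2
      change j * j = 1 at h3
      calc j * a = (a * a) * (j * a) := by rw [h2, one_mul]
        _ = a * ((a * j) * (a * j)) * j := by
          simp only [mul_assoc]
          rw [h3, mul_one]
        _ = a * j := by rw [← pow_two, h1, mul_one]
    set y := j * FischerTri.trans * j⁻¹ with hy
    have hya : Commute a y :=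
      ((show Commute a j from hja.symm).mul_right
        (show Commute a FischerTri.trans from Subgroup.mem_centralizer_singleton_iff.1 (gen23 .a).2)).mul_right
        (show Commute a j from hja.symm).inv_right
    have hty : ¬ Commute FischerTri.trans y := fun hc => by
      have hj2 : j⁻¹ = j := by
        refine inv_eq_of_mul_eq_one_right ?_
        have h3 := CosetEnum.FiTwentyThree.mk_eq_one
          (FreeGroup.of Cfsg.Spor.Fi23.Gen.j * FreeGroup.of Cfsg.Spor.Fi23.Gen.j) (by decide +kernel)
        rwa [map_mul] at h3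
      have h1 := congrArg (fun g => (φ g 0 : ℕ)) hc.eq
      rw [hy, hj2, ← hjv] at h1
      simp only [map_mul, Equiv.Perm.mul_apply] at h1
      rw [htrans, hval _ (by decide +kernel), htrans, hval _ (by decide +kernel)] at h1
      rw [hval _ (by decide +kernel), htrans, hval _ (by decide +kernel), htrans] at h1
      revert h1
      decide +kernel
    set x : G23 := ((τ' (PresentedGroup.of .a) : ↥C) : G23) with hx
    have hxa : x = a * FischerTri.trans := by
      have h1 : τ' (PresentedGroup.of .a) = gen23 .a * t := by rw [h, mul_assoc, tsq, mul_one]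
      exact congrArg Subtype.val h1
    have ha1 : a ≠ 1 := fun h1 => by
      have h2 : gen23 .a = 1 := Subtype.ext h1
      have h3 := hgen .a
      rw [h2, map_one] at h3
      exact ThreeTransp.ne_one P'.data.set (huE .a) h3.symm
    have ha2 : a * a = 1 := by
      have h2 := CosetEnum.FiTwentyThree.mk_eq_one
        (FreeGroup.of Cfsg.Spor.Fi23.Gen.a * FreeGroup.of Cfsg.Spor.Fi23.Gen.a) (by decide +kernel)
      rwa [map_mul] at h2
    have hc : Commute a (FischerTri.trans * y) :=
      (show Commute a FischerTri.trans from Subgroup.mem_centralizer_singleton_iff.1 (gen23 .a).2).mul_right hya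
    have hys : y ∈ conjugatesOf FischerTri.trans := isConj_iff.2 ⟨j, rfl⟩
    have hset := HY.tt.tt_set
    have hxy : x * y = a * (FischerTri.trans * y) := by rw [hxa, mul_assoc]
    have h2' : (x * y) ^ 2 ≠ 1 := by
      rw [hxy, hc.mul_pow, pow_two a, ha2, one_mul]
      intro hz
      refine hty ?_
      have s1 := hset.1 _ mem_conjugatesOf_self
      have s2 := hset.1 _ hys
      show FischerTri.trans * y = y * FischerTri.trans
      calc FischerTri.trans * y = (FischerTri.trans * y)⁻¹ := eq_inv_of_mul_eq_one_left (by rwa [pow_two] at hz)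
        _ = y⁻¹ * FischerTri.trans⁻¹ := mul_inv_rev _ _
        _ = y * FischerTri.trans := by
          rw [inv_eq_of_mul_eq_one_right (by rw [← pow_two, ← s2, pow_orderOf_eq_one] : y * y = 1),
            inv_eq_of_mul_eq_one_right (by rw [← pow_two, ← s1, pow_orderOf_eq_one] :
              FischerTri.trans * FischerTri.trans = 1)]
    rcases hset.2 x (hconj _ (huE .a)) y hys with h1 | h1
    · exact h2' h1
    · rw [hxy, hc.mul_pow, show a ^ 3 = a by rw [pow_succ, pow_two, ha2, one_mul]] at h1
      rcases hset.2 _ mem_conjugatesOf_self y hys with h4 | h4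
      · refine h2' ?_
        rw [hxy, hc.mul_pow, h4, pow_two, ha2, one_mul]
      · rw [h4, mul_one] at h1
        exact ha1 h1
  -- the choice spreads along the edges
  have edge : ∀ x y : Gen22, Cfsg.Spor.coxLabel Cfsg.Spor.Fi22.edges x y = 3 →
      FreeGroup.map CosetEnum.FiTwentyThree.emb ((List.replicate 3 [x, y]).flatten.map FreeGroup.of).prod ∈
        coxList Cfsg.Spor.Fi23.edges Cfsg.Spor.Fi23.extra →
      gen23 x = τ' (PresentedGroup.of x) → gen23 y = τ' (PresentedGroup.of y) := by
    intro x y hl hmem hx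
    refine (hor y).resolve_right fun hy => tne ?_
    have h1 := gen23_rel _ hmem
    have h2 := lifts_cox K' P' T' (e₀ := MulEquiv.refl G22) (Set.image_id _) x y
    rw [hl, lifts_pow, lifts_cons, lifts_cons, show lifts τ' (MulEquiv.refl G22) [] = 1 from rfl, mul_one] at h2
    simp only [List.replicate_succ, List.replicate_zero, List.flatten_cons, List.flatten_nil, List.append_nil,
      List.cons_append, List.nil_append, List.map_cons, List.map_nil, List.prod_cons, List.prod_nil, mul_one,
      hx, hy] at h1
    set p := τ' (PresentedGroup.of x)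
    set r := τ' (PresentedGroup.of y)
    have h3 : (p * r) ^ 3 * t ^ 3 = 1 := by
      rw [← ((tc (p * r)).symm).mul_pow]
      simp only [pow_succ, pow_zero, one_mul, mul_assoc] at h1 ⊢
      exact h1
    rw [show (p * r) ^ 3 = 1 from h2, one_mul, pow_succ, pow_two, tsq, one_mul] at h3
    exact h3
  have hall : ∀ x, gen23 x = τ' (PresentedGroup.of x) := by
    have hb := edge .a .b (by decide) (by decide +kernel) hA0
    have hc := edge .b .c (by decide) (by decide +kernel) hb
    have hd := edge .c .d (by decide) (by decide +kernel) hc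
    have he := edge .d .e (by decide) (by decide +kernel) hd
    have hf := edge .e .f (by decide) (by decide +kernel) he
    have hg := edge .f .g (by decide) (by decide +kernel) hf
    have hh := edge .d .h (by decide) (by decide +kernel) hd
    have hi := edge .h .i (by decide) (by decide +kernel) hh
    intro x
    cases x
    exacts [hA0, hb, hc, hd, he, hf, hg, hh, hi]
  have hlift : ∀ l, lifts τ' (MulEquiv.refl G22) l = (l.map gen23).prod := fun l => by
    rw [lifts, ev, List.map_map]
    exact congrArg List.prod (List.map_congr_left fun x _ => (hall x).symm)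
  exact ⟨(hlift _).trans (gen23_rel _ (by decide +kernel)), (hlift _).trans (gen23_rel _ (by decide +kernel))⟩

end Cfsg.Agent.FiTrans
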