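import Cfsg.Agent.FiTrans.Global
import Cfsg.Agent.FiTrans.Model

/-!
A group with such a centraliser is the presented Fi23, the conjugates going onto its transpositions.
-/

set_option autoImplicit false
set_option maxRecDepth 100000

namespace Cfsg.Agent.FiTrans

open Cfsg.Agent.TTLink Cfsg.Agent.ThreeTransp45 Cfsg.Agent.SporB

local notation "G23" => Cfsg.Spor.Fi23
local notation "triSub" => Cfsg.Agent.CosetEnum.FiTwentyThree.sub

/-- There are 31671 transpositions. -/
theorem card23 : (conjugatesOf FischerTri.trans).ncard = 31671 := by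
  obtain ⟨hC, -, -⟩ := FischerTri.centralizer_facts
  have hidx : (triSub).index = 31671 :=
    (CosetCert.index_eq CosetCert.FiTwentyThree.valid CosetCert.FiTwentyThree.word_letters
      CosetCert.FiTwentyThree.base_letters).trans (by decide +kernel)
  have horb : conjugatesOf FischerTri.trans = MulAction.orbit (ConjAct G23) FischerTri.trans := by
    ext d
    show IsConj FischerTri.trans d ↔ _
    rw [ConjAct.mem_orbit_conjAct, isConj_comm]
  rw [horb, ← MulAction.index_stabilizer]
  have hst : MulAction.stabilizer (ConjAct G23) FischerTri.trans =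
      (triSub).comap (ConjAct.ofConjAct (G := G23)).toMonoidHom := by
    rw [hC]
    ext g
    rw [MulAction.mem_stabilizer_iff, ConjAct.smul_def, Subgroup.mem_comap,
      Subgroup.mem_centralizer_singleton_iff, mul_inv_eq_iff_eq_mul]
    rfl
  rw [hst, Subgroup.index_comap_of_surjective _ (ConjAct.ofConjAct).surjective, hidx]

variable {G : Type*} [Group G] [Finite G] {X : Type*} [Group X] [Finite X] {E : Set X} {d : G}
  {π : ↥(Subgroup.centralizer ({d} : Set G)) →* X}

/-- The isomorphism with the presented Fi23. -/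
theorem Hyp.iso_model (HY : Hyp d π E) :
    ∃ e : G ≃* G23, e '' conjugatesOf d = conjugatesOf FischerTri.trans := by
  classical
  haveI := finite22
  haveI := finite23
  obtain ⟨π', HY', hrel⟩ := exists_model
  obtain ⟨τ, hτ, hlink⟩ := HY.exists_link_sec'
  obtain ⟨τ', hτ', hlink'⟩ := HY'.exists_link_sec'
  obtain ⟨hS', hA'⟩ := hrel τ' hτ' fun u hu => ((hlink' _).2 ⟨u, hu, rfl⟩).1
  obtain ⟨hdC, K⟩ := HY.cover
  obtain ⟨hdC', K'⟩ := HY'.cover
  obtain ⟨e, f, hE, -, hfd, hfτ⟩ := exists_iso_resp K HY.prim hτ K' HY'.prim hτ' hS' hA'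
  let f₀ : G → G23 := fun g =>
    if h : g ∈ Subgroup.centralizer ({d} : Set G) then (f ⟨g, h⟩ : G23) else 1
  have hmemC : ∀ {g : G}, Commute g d → g ∈ Subgroup.centralizer ({d} : Set G) :=
    fun h => Subgroup.mem_centralizer_singleton_iff.2 h.eq
  have hf₀ : ∀ {g : G} (h : g ∈ Subgroup.centralizer ({d} : Set G)), f₀ g = f ⟨g, h⟩ :=
    fun h => dif_pos h
  have L : LinkIso (conjugatesOf d) (conjugatesOf FischerTri.trans) d FischerTri.trans f₀ := by
    refine ⟨fun g h hg hh => ?_, fun g hg => ?_, fun g h hg hh heq => ?_, fun h hh => ?_, ?_,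
      fun g hg => ?_⟩
    · rw [hf₀ (hmemC (hg.mul_left hh)), hf₀ (hmemC hg), hf₀ (hmemC hh), ← Subgroup.coe_mul, ← map_mul]
      rfl
    · rw [hf₀ (hmemC hg)]
      exact Subgroup.mem_centralizer_singleton_iff.1 (f _).2
    · rw [hf₀ (hmemC hg), hf₀ (hmemC hh)] at heq
      exact congrArg Subtype.val (f.injective (Subtype.ext heq))
    · obtain ⟨c, hc⟩ := f.surjective ⟨h, Subgroup.mem_centralizer_singleton_iff.2 hh.eq⟩
      refine ⟨c, Subgroup.mem_centralizer_singleton_iff.1 c.2, ?_⟩
      rw [hf₀ c.2]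
      exact congrArg Subtype.val hc
    · rw [hf₀ hdC, hfd]
    · rw [hf₀ (hmemC hg)]
      constructor
      · intro h1
        by_cases h2 : ((f ⟨g, hmemC hg⟩ : ↥(Subgroup.centralizer ({FischerTri.trans} : Set G23))) : G23) =
            FischerTri.trans
        · have h3 : f ⟨g, hmemC hg⟩ = f ⟨d, hdC⟩ := by rw [hfd]; exact Subtype.ext h2
          rw [show g = d from congrArg Subtype.val (f.injective h3)]
          exact mem_conjugatesOf_self
        · obtain ⟨v, hv, h3⟩ := (hlink' _).1 ⟨h1, h2,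
            (Subgroup.mem_centralizer_singleton_iff.1 (f ⟨g, hmemC hg⟩).2 : Commute _ _).symm⟩
          obtain ⟨u, hu, rfl⟩ := hE.symm ▸ hv
          have h4 : f ⟨g, hmemC hg⟩ = f (τ u) := by rw [hfτ u hu]; exact Subtype.ext h3
          exact ((hlink _).2 ⟨u, hu, congrArg Subtype.val (f.injective h4)⟩).1
      · intro h1
        by_cases h2 : g = d
        · subst h2
          rw [hfd]
          exact mem_conjugatesOf_self
        · obtain ⟨u, hu, h3⟩ := (hlink g).1 ⟨h1, h2, hg.symm⟩
          rw [show (⟨g, hmemC hg⟩ : ↥(Subgroup.centralizer ({d} : Set G))) = τ u from Subtype.ext h3,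
            hfτ u hu]
          exact ((hlink' _).2 ⟨e u, hE ▸ ⟨u, hu, rfl⟩, rfl⟩).1
  obtain ⟨T, hT⟩ := exists_glue HY HY'.tt HY'.mem L
  exact HY.exists_iso HY' hT fun y hy h => HY'.far_of_card card23 hy h

end Cfsg.Agent.FiTrans
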