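import Cfsg.Agent.FiTrans.Local
import Cfsg.Agent.Invol.RankOneQuot
import Cfsg.Agent.LocalEven.CoreGeneration

/-!
No member carries a member to another one commuting with it; the centraliser of the product of two
commuting members stabilises the pair.
-/

set_option autoImplicit false

namespace Cfsg.Agent.FiTrans

open Cfsg.Agent.TTLink Cfsg.Agent.ThreeTransp45

variable {G : Type*} [Group G]

/-- A class of involutions satisfying the local facts everywhere. -/
structure TT (D : Set G) : Prop where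
  loc : ∀ a ∈ D, Loc D a
  inv' : ∀ g : G, ∀ d ∈ D, cj g d ∈ D
  cl : ∀ a ∈ D, ∀ b ∈ D, ∃ g, cj g a = b
  nonempty : D.Nonempty

theorem link_symm {D : Set G} {a b : G} (ha : a ∈ D) (hb : b ∈ link D a) : a ∈ link D b :=
  ⟨ha, Ne.symm hb.2.1, hb.2.2.symm⟩

/-- An involutive self-map of a set of odd size fixes a member. -/
theorem exists_fixed_of_odd {α : Type*} [Finite α] {S : Set α} (hS : Odd S.ncard) (f : α → α)
    (hf : ∀ x ∈ S, f x ∈ S) (hi : ∀ x ∈ S, f (f x) = x) : ∃ x ∈ S, f x = x := by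
  classical
  haveI : Fintype ↥S := Fintype.ofFinite _
  haveI : Fact (Nat.Prime 2) := ⟨Nat.prime_two⟩
  let σ : Equiv.Perm ↥S := Function.Involutive.toPerm (fun x => ⟨f x, hf x x.2⟩)
    fun x => Subtype.ext (hi x x.2)
  obtain ⟨x, hx⟩ := Equiv.Perm.exists_fixed_point_of_prime (p := 2) (n := 1) (σ := σ)
    (by
      rw [← Nat.card_eq_fintype_card, Nat.card_coe_set_eq, ← even_iff_two_dvd]
      exact Nat.not_even_iff_odd.2 hS)
    (Equiv.ext fun x => Subtype.ext (by
      rw [pow_one, pow_two]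
      exact hi x x.2))
  exact ⟨x, x.2, congrArg Subtype.val hx⟩

namespace TT

variable [Finite G] {D : Set G} (hT : TT D)
include hT

theorem sq {x : G} (hx : x ∈ D) : x * x = 1 := (hT.loc x hx).sq

theorem inv_eq {x : G} (hx : x ∈ D) : x⁻¹ = x := inv_eq_of_mul_eq_one_right (hT.sq hx)

/-- No member carries a member to another one commuting with it. -/
theorem no_swap {x a b : G} (hx : x ∈ D) (ha : a ∈ D) (hb : b ∈ link D a) : cj x a ≠ b := by
  intro h
  classical
  haveI : Fact (Nat.Prime 2) := ⟨Nat.prime_two⟩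
  have hxi := hT.inv_eq hx
  have hxb : cj x b = a := by rw [← h, ← cj_mul, hT.sq hx, cj_one]
  set N : Subgroup G :=
    { carrier := {g | cj g '' {a, b} = {a, b}}
      one_mem' := by
        show cj 1 '' ({a, b} : Set G) = {a, b}
        rw [Set.image_congr' (fun y => cj_one y), Set.image_id']
      mul_mem' := fun {g k} (hg : cj g '' ({a, b} : Set G) = {a, b})
          (hk : cj k '' ({a, b} : Set G) = {a, b}) => by
        show cj (g * k) '' ({a, b} : Set G) = {a, b}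
        conv_lhs => rw [Set.image_congr' (fun y => cj_mul g k y), ← Set.image_image, hk, hg]
      inv_mem' := fun {g} (hg : cj g '' ({a, b} : Set G) = {a, b}) => by
        show cj g⁻¹ '' ({a, b} : Set G) = {a, b}
        conv_lhs => rw [← hg, Set.image_image, Set.image_congr' (fun y => cj_inv_cj g y), Set.image_id'] }
  set Z := Subgroup.centralizer ({a, b} : Set G) with hZ
  have hxN : x ∈ N := by
    show cj x '' ({a, b} : Set G) = {a, b}
    rw [Set.image_pair, h, hxb, Set.pair_comm]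
  have hZN : Z ≤ N := fun g hg => by
    show cj g '' ({a, b} : Set G) = {a, b}
    rw [Set.image_pair, (cj_eq_self_iff g a).2 (mem_centralizer_pair.1 hg).1,
      (cj_eq_self_iff g b).2 (mem_centralizer_pair.1 hg).2]
  have hnorm : ∀ g ∈ N, ∀ y ∈ Z, cj g y ∈ Z := by
    intro g hg y hy
    rw [hZ, Subgroup.mem_centralizer_iff]
    intro w hw
    have hg' : cj g '' ({a, b} : Set G) = {a, b} := hg
    rw [← hg'] at hw
    obtain ⟨w, hw, rfl⟩ := hw
    exact ((cj_commute_iff g w y).2 (Subgroup.mem_centralizer_iff.1 hy w hw)).eq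
  -- Sylow subgroups
  obtain ⟨T⟩ : Nonempty (Sylow 2 ↥Z) := inferInstance
  set T' := (T : Subgroup ↥Z).map Z.subtype
  obtain ⟨R₀, hR₀⟩ := (show IsPGroup 2 ↥(T'.subgroupOf N) from (T.isPGroup'.map Z.subtype).of_equiv
    (Subgroup.subgroupOfEquivOfLe ((Subgroup.map_subtype_le _).trans hZN)).symm).exists_le_sylow
  obtain ⟨R, hR⟩ := (show IsPGroup 2 ↥(Subgroup.zpowers (⟨x, hxN⟩ : ↥N)) from
    IsPGroup.of_card (n := 1) (by
      rw [Nat.card_zpowers, Subgroup.orderOf_mk, pow_one]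
      exact orderOf_eq_prime (by rw [pow_two]; exact hT.sq hx) (hT.loc x hx).ne_one)).exists_le_sylow
  obtain ⟨g, hg⟩ := MulAction.exists_smul_eq ↥N R₀ R
  have key : ((R₀ : Subgroup ↥N).map N.subtype) ⊓ Z = T' := by
    refine le_antisymm ?_ (le_inf (fun y hy => ?_) (Subgroup.map_subtype_le _))
    · have hle : (T : Subgroup ↥Z) ≤ (((R₀ : Subgroup ↥N).map N.subtype) ⊓ Z).subgroupOf Z := fun t ht =>
        ⟨⟨⟨t, hZN t.2⟩, hR₀ ⟨t, ht, rfl⟩, rfl⟩, t.2⟩
      have hm := T.is_maximal' (((R₀.isPGroup'.map N.subtype).to_le inf_le_left).of_equiv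
        (Subgroup.subgroupOfEquivOfLe (inf_le_right : ((R₀ : Subgroup ↥N).map N.subtype) ⊓ Z ≤ Z)).symm) hle
      intro y hy
      exact ⟨⟨y, hy.2⟩, hm.le hy, rfl⟩
    · obtain ⟨t, ht, rfl⟩ := hy
      exact ⟨⟨t, hZN t.2⟩, hR₀ ⟨t, ht, rfl⟩, rfl⟩
  set S := cj (g : G) '' ((T' : Set G) ∩ D)
  have hSodd : Odd S.ncard := by
    rw [Set.ncard_image_of_injective _ (cj_injective _)]
    exact (hT.loc a ha).sylow_odd b hb T
  have hS : ∀ y, y ∈ S ↔ (∃ h : y ∈ N, (⟨y, h⟩ : ↥N) ∈ (R : Subgroup ↥N)) ∧ y ∈ Z ∧ y ∈ D := by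
    intro y
    rw [← hg, Sylow.coe_subgroup_smul]
    constructor
    · rintro ⟨t, ⟨ht, htD⟩, rfl⟩
      rw [← key] at ht
      obtain ⟨⟨r, hr, rfl⟩, htZ⟩ := ht
      exact ⟨⟨(g * r * g⁻¹).2, ⟨r, hr, rfl⟩⟩, hnorm _ g.2 _ htZ, hT.inv' _ _ htD⟩
    · rintro ⟨⟨hyN, r, hr, e⟩, hyZ, hyD⟩
      have e' : cj (g : G) (r : G) = y := congrArg Subtype.val e
      have hr' : (r : G) = cj (g : G)⁻¹ y := by rw [← e', cj_inv_cj]
      refine ⟨r, ⟨?_, hr' ▸ hT.inv' _ _ hyD⟩, e'⟩
      show (r : G) ∈ T'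
      rw [← key]
      exact ⟨⟨r, hr, rfl⟩, hr' ▸ hnorm _ (N.inv_mem g.2) _ hyZ⟩
  obtain ⟨c, hc, hxc⟩ := exists_fixed_of_odd hSodd (cj x) (fun y hy => by
    obtain ⟨⟨hyN, hyR⟩, hyZ, hyD⟩ := (hS y).1 hy
    have hxR : (⟨x, hxN⟩ : ↥N) ∈ (R : Subgroup ↥N) := hR (Subgroup.mem_zpowers _)
    exact (hS _).2 ⟨⟨N.mul_mem (N.mul_mem hxN hyN) (N.inv_mem hxN),
      (R : Subgroup ↥N).mul_mem ((R : Subgroup ↥N).mul_mem hxR hyR) ((R : Subgroup ↥N).inv_mem hxR)⟩,
      hnorm _ hxN _ hyZ, hT.inv' _ _ hyD⟩) (fun y _ => by rw [← cj_mul, hT.sq hx, cj_one])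
  obtain ⟨-, hcZ, hcD⟩ := (hS c).1 hc
  obtain ⟨hca, hcb⟩ := mem_centralizer_pair.1 hcZ
  have hxc' : Commute x c := (cj_eq_self_iff x c).1 hxc
  have hac : a ≠ c := fun e => hb.2.1 (by rw [← h, e, hxc])
  have hxne : x ≠ c := by
    rintro rfl
    exact hb.2.1 (h.symm.trans ((cj_eq_self_iff x a).2 hca))
  have la : a ∈ link D c := ⟨ha, hac, hca⟩
  have lx : x ∈ link D c := ⟨hx, hxne, hxc'.symm⟩
  by_cases hxa : Commute x a
  · exact hb.2.1 (h.symm.trans ((cj_eq_self_iff x a).2 hxa))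
  · have e := (hT.loc c hcD).braid x lx a la hxa
    rw [cj, hxi, e] at h
    have hcm : Commute a (a * x * a) := h.symm ▸ hb.2.2
    refine hxa (Commute.symm ?_)
    show a * x = x * a
    have h1 : a * (a * x * a) = a * x * a * a := hcm.eq
    rw [← mul_assoc, ← mul_assoc, hT.sq ha, one_mul, mul_assoc (a * x), hT.sq ha, mul_one] at h1
    exact h1.symm

/-- A member fixed or moved to itself or a commuting one by a member is fixed. -/
theorem commute_of_permutes {x a b : G} (hx : x ∈ D) (ha : a ∈ D) (hb : b ∈ link D a)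
    (h : cj x a = a ∨ cj x a = b) : Commute x a :=
  h.elim (cj_eq_self_iff x a).1 fun h => absurd h (hT.no_swap hx ha hb)

/-- Four commuting members with `a * b = x * y` are two. -/
theorem same_pair {a b x y : G} (ha : a ∈ D) (hb : b ∈ link D a) (hx : x ∈ D) (hy : y ∈ link D x)
    (he : a * b = x * y) (hxa : Commute x a) : x = a ∨ x = b := by
  by_contra hne
  push Not at hne
  have hxb : Commute x b := by
    have h1 : Commute x (a * b) := he ▸ (Commute.refl x).mul_right hy.2.2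
    have h2 := hxa.mul_right h1
    rwa [← mul_assoc, hT.sq ha, one_mul] at h2
  have hyd : y = x * (a * b) := by rw [he, ← mul_assoc, hT.sq hx, one_mul]
  have hya : Commute y a := hyd ▸ hxa.mul_left ((Commute.refl a).mul_left hb.2.2.symm)
  have hyb : Commute y b := hyd ▸ hxb.mul_left (hb.2.2.mul_left (Commute.refl b))
  have hyne : y ≠ a := fun e => hne.2 (by
    refine mul_right_cancel (b := a) ?_
    calc x * a = x * y := by rw [e]
      _ = a * b := he.symm
      _ = b * a := hb.2.2.eq)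
  have hybne : y ≠ b := fun e => hne.1 (mul_right_cancel ((e ▸ he.symm : x * b = a * b)))
  have hl : Fac (link D a) [b, x, y] := by
    refine ⟨by simp [Ne.symm hne.2, hybne.symm, Ne.symm hy.2.1], ?_, ?_⟩
    · simp only [List.mem_cons, List.not_mem_nil, or_false, forall_eq_or_imp, forall_eq]
      exact ⟨hb, ⟨hx, hne.1, hxa.symm⟩, hy.1, hyne, hya.symm⟩
    · simp only [List.mem_cons, List.not_mem_nil, or_false, forall_eq_or_imp, forall_eq]
      exact ⟨⟨Commute.refl _, hxb.symm, hyb.symm⟩, ⟨hxb, Commute.refl _, hy.2.2⟩,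
        hyb, hy.2.2.symm, Commute.refl _⟩
  refine ((hT.loc a ha).indep _ hl (by simp) (by simp)).2 ?_
  show b * (x * (y * 1)) = a
  rw [mul_one, ← he, ← mul_assoc, ← hb.2.2.eq, mul_assoc, hT.sq hb.1, mul_one]

end TT

end Cfsg.Agent.FiTrans
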