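import Cfsg.Agent.TTLink.OrbitTwentyThree

/-!
An orbit of twenty-three members consists of the moved involution and one class of single involutions.
-/

set_option autoImplicit false

namespace Cfsg.Agent.FiTrans

open Cfsg.Agent.TTLink.OrbitTwentyThree

variable {Ω A : Type*} [Fintype Ω] [DecidableEq Ω] [CommGroup A] {v : Ω → A} {d : A}
variable {H : Type*} [Group H] [Finite H] [MulDistribMulAction H A]

theorem orbit_shape (S : Sys v d) (T : Act H v d) (h : (MulAction.orbit H d).ncard = 23) :
    ∃ e : Bool, ∀ x, x ∈ MulAction.orbit H d ↔ x = d ∨ ∃ i, x = el v d e {i} := by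
  classical
  haveI : Finite A := Finite.of_injective _ (Equiv.ofBijective _ ⟨S.val_injective, S.val_surjective⟩).symm.injective
  set O := MulAction.orbit H d
  have size : ∀ (e : Bool) (X : Finset Ω), X.card ≤ 3 → el v d e X ∈ O → Nat.choose 22 X.card ≤ 23 := by
    intro e X hX hXO
    rw [← h]
    refine le_trans (le_of_eq ?_) (Set.ncard_le_ncard
      (s := el v d e '' ↑((Finset.univ : Finset Ω).powersetCard X.card)) ?_ (Set.toFinite _))
    · rw [Set.InjOn.ncard_image, Set.ncard_coe_finset, Finset.card_powersetCard, Finset.card_univ, S.card]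
      intro Y hY Z hZ he
      simp only [Finset.mem_coe, Finset.mem_powersetCard_univ] at hY hZ
      rcases S.el_inj (by omega) he with r | ⟨r, -, -⟩
      exacts [r.2, absurd rfl r]
    · rintro _ ⟨Y, hY, rfl⟩
      exact orbit_el S T hX (by simpa using (Finset.mem_powersetCard.1 hY).2.symm) hXO
  have shape : ∀ x ∈ O, x = d ∨ ∃ e i, x = el v d e {i} := by
    intro x hx
    obtain ⟨X, hX, hor⟩ := S.gen x
    obtain ⟨e, he⟩ : ∃ e, x = el v d e X := hor.elim (fun h => ⟨false, h⟩) fun h => ⟨true, h⟩
    subst he
    rcases (show X.card = 0 ∨ X.card = 1 ∨ X.card = 2 ∨ X.card = 3 by omega) with c | c | c | c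
    · rw [Finset.card_eq_zero.1 c] at hx ⊢
      cases e with
      | false => exact absurd (by simpa [el] using hx) (one_notMem (H := H) S)
      | true => exact Or.inl (by simp [el])
    · obtain ⟨i, rfl⟩ := Finset.card_eq_one.1 c
      exact Or.inr ⟨e, i, rfl⟩
    · have := size e X hX hx
      rw [c] at this
      norm_num [Nat.choose] at this
    · have := size e X hX hx
      rw [c] at this
      norm_num [Nat.choose] at this
  have one : ∃ e i, el v d e {i} ∈ O := by
    by_contra hc
    push Not at hc
    have hsub : O ⊆ {d} := fun x hx => by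
      rcases shape x hx with r | ⟨e, i, r⟩
      exacts [r, absurd (r ▸ hx) (hc e i)]
    have := Set.ncard_le_ncard hsub (Set.toFinite _)
    rw [h, Set.ncard_singleton] at this
    omega
  obtain ⟨e, i, hi⟩ := one
  refine ⟨e, fun x => ⟨fun hx => ?_, ?_⟩⟩
  · rcases shape x hx with r | ⟨f, j, r⟩
    · exact Or.inl r
    · refine Or.inr ⟨j, ?_⟩
      by_cases hfe : f = e
      · rw [← hfe]; exact r
      · exfalso
        have hsub : (fun z : Bool × Ω => el v d z.1 {z.2}) '' Set.univ ⊆ O := by
          rintro _ ⟨⟨g, k⟩, -, rfl⟩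
          by_cases hge : g = e
          · exact hge ▸ el_mem_single S T hi
          · have hgf : g = f := by cases g <;> cases e <;> cases f <;> simp_all
            exact hgf ▸ el_mem_single S T (r ▸ hx)
        have := Set.ncard_le_ncard hsub (Set.toFinite _)
        rw [Set.ncard_image_of_injective _ (fun a b hab => by
          obtain ⟨h1, h2⟩ := S.el_inj_small (by simp) hab
          exact Prod.ext h1 (Finset.singleton_injective h2)), Set.ncard_univ, h, Nat.card_prod,
          Nat.card_eq_fintype_card, Nat.card_eq_fintype_card, Fintype.card_bool, S.card] at this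
        omega
  · rintro (rfl | ⟨j, rfl⟩)
    exacts [MulAction.mem_orbit_self _, el_mem_single S T hi]

end Cfsg.Agent.FiTrans
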