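import Cfsg.Agent.FiTrans.NoSwap

/-!
The centraliser of the product of two commuting members stabilises the pair.
-/

set_option autoImplicit false

namespace Cfsg.Agent.FiTrans

open Cfsg.Agent.TTLink Cfsg.Agent.ThreeTransp45
open scoped commutatorElement

variable {G : Type*} [Group G]

/-- Elements of odd order in a group with a central involution of odd index form a subgroup. -/
theorem exists_odd_part [Finite G] {z : G} (hz : orderOf z = 2) (hc : ∀ g : G, Commute z g)
    (hodd : Odd (Subgroup.zpowers z).index) :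
    ∃ K : Subgroup G, Odd (Nat.card K) ∧ (∀ u, u ∈ K ↔ Odd (orderOf u)) ∧
      ∀ g, g ∈ K ∨ g * z ∈ K := by
  classical
  haveI : (Subgroup.zpowers z).Normal := ⟨fun u hu g => by
    obtain ⟨k, rfl⟩ := Subgroup.mem_zpowers_iff.1 hu
    rw [← ((hc g).zpow_left k).eq, mul_inv_cancel_right]
    exact Subgroup.zpow_mem_zpowers _ k⟩
  have hcard : Nat.card (Subgroup.zpowers z) = 2 := by rw [Nat.card_zpowers, hz]
  obtain ⟨K, hK⟩ := Subgroup.exists_right_complement'_of_coprime (N := Subgroup.zpowers z)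
    (by rw [hcard]; exact Nat.coprime_two_left.2 hodd)
  have hKodd : Odd (Nat.card K) := by rwa [← hK.symm.index_eq_card]
  have hz2 : z * z = 1 := by rw [← pow_two, ← hz, pow_orderOf_eq_one]
  have hin : ∀ g, g ∈ K ∨ g * z ∈ K := by
    intro g
    obtain ⟨⟨⟨u, hu⟩, k⟩, rfl⟩ := hK.2 g
    obtain ⟨i, rfl⟩ := Subgroup.mem_zpowers_iff.1 hu
    rcases Int.even_or_odd i with ⟨j, rfl⟩ | ⟨j, rfl⟩
    · left
      show z ^ (j + j) * (k : G) ∈ K
      rw [← two_mul, zpow_mul, zpow_two, hz2, one_zpow, one_mul]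
      exact k.2
    · right
      show z ^ (2 * j + 1) * (k : G) * z ∈ K
      rw [zpow_add_one, zpow_mul, zpow_two, hz2, one_zpow, one_mul, (hc k).eq, mul_assoc, hz2, mul_one]
      exact k.2
  refine ⟨K, hKodd, fun u => ⟨fun hu => ?_, fun hu => ?_⟩, hin⟩
  · have := orderOf_dvd_natCard (⟨u, hu⟩ : ↥K)
    rw [Subgroup.orderOf_mk] at this
    exact Odd.of_dvd_nat hKodd this
  · rcases hin u with h | h
    · exact h
    · exfalso
      obtain ⟨m, hm⟩ := hu
      have h1 : (u * z) ^ orderOf u ∈ K := K.pow_mem h _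
      rw [(hc u).symm.mul_pow, pow_orderOf_eq_one, one_mul, hm, pow_succ, pow_mul, pow_two, hz2,
        one_pow, one_mul] at h1
      have hbot := hK.disjoint.eq_bot
      have : z ∈ Subgroup.zpowers z ⊓ K := ⟨Subgroup.mem_zpowers z, h1⟩
      rw [hbot, Subgroup.mem_bot] at this
      rw [this, orderOf_one] at hz
      exact absurd hz (by norm_num)

namespace TT

variable [Finite G] {D : Set G} (hT : TT D)
include hT

/-- Conjugation by a product of inverting elements. -/
theorem cj_prod_invert {O : Subgroup G} : ∀ l : List G, (∀ c ∈ l, ∀ w ∈ O, cj c w = w⁻¹) →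
    ∀ w ∈ O, cj l.prod w = if Even l.length then w else w⁻¹ := by
  intro l
  induction l with
  | nil => intro _ w _; simp
  | cons c t ih =>
    intro h w hw
    rw [List.prod_cons, cj_mul, ih (fun e he => h e (List.mem_cons_of_mem _ he)) w hw, List.length_cons]
    by_cases he : Even t.length
    · rw [if_pos he, if_neg (by rw [Nat.even_add_one]; exact fun hn => hn he), h c (List.mem_cons_self ..) w hw]
    · rw [if_neg he, if_pos (Nat.even_add_one.2 he), h c (List.mem_cons_self ..) _ (O.inv_mem hw), inv_inv]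

/-- The centraliser of the product of two commuting members stabilises the pair. -/
theorem pair_stab {a b g : G} (ha : a ∈ D) (hb : b ∈ link D a) (hg : Commute g (a * b)) :
    (cj g a = a ∧ cj g b = b) ∨ (cj g a = b ∧ cj g b = a) := by
  classical
  set z := a * b with hz
  have hL := hT.loc a ha
  have hab := hb.2.2
  have hz2 : z * z = 1 := by
    rw [hz, mul_assoc, ← mul_assoc b, ← hab.eq, mul_assoc a, hT.sq hb.1, mul_one, hT.sq ha]
  have hz1 : z ≠ 1 := fun h => hb.2.1 (by
    rw [← inv_eq_of_mul_eq_one_right h, hT.inv_eq ha])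
  set Y := Subgroup.centralizer ({z} : Set G)
  have memY : ∀ u : G, u ∈ Y ↔ Commute u z := fun u => Subgroup.mem_centralizer_singleton_iff
  have haz : Commute a z := (Commute.refl a).mul_right hab
  set aY : ↥Y := ⟨a, (memY a).2 haz⟩
  set zY : ↥Y := ⟨z, (memY z).2 (Commute.refl z)⟩
  have zcen : ∀ u : ↥Y, Commute zY u := fun u => Subtype.ext ((memY u).1 u.2).symm.eq
  have hzo : orderOf zY = 2 := by
    rw [← Subgroup.orderOf_coe]
    exact orderOf_eq_prime (by rw [pow_two]; exact hz2) hz1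
  haveI hN : (Subgroup.zpowers zY).Normal := ⟨fun u hu v => by
    obtain ⟨k, rfl⟩ := Subgroup.mem_zpowers_iff.1 hu
    rw [← ((zcen v).zpow_left k).eq, mul_inv_cancel_right]
    exact Subgroup.zpow_mem_zpowers _ k⟩
  have memz : ∀ u : ↥Y, u ∈ Subgroup.zpowers zY ↔ (u : G) = 1 ∨ (u : G) = z := by
    intro u
    constructor
    · intro hu
      obtain ⟨k, rfl⟩ := Subgroup.mem_zpowers_iff.1 hu
      have h2 : zY ^ 2 = 1 := by rw [← hzo, pow_orderOf_eq_one]
      rcases Int.even_or_odd k with ⟨j, rfl⟩ | ⟨j, rfl⟩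
      · left
        rw [← two_mul, zpow_mul, zpow_ofNat, h2, one_zpow]
        rfl
      · right
        rw [zpow_add_one, zpow_mul, zpow_ofNat, h2, one_zpow, one_mul]
    · rintro (h | h)
      · rw [show u = 1 from Subtype.ext h]; exact one_mem _
      · rw [show u = zY from Subtype.ext h]; exact Subgroup.mem_zpowers _
  set t : ↥Y ⧸ Subgroup.zpowers zY := QuotientGroup.mk aY
  -- the member is isolated modulo the product
  have hiso : Invol.IsIsolatedInv t := by
    refine ⟨orderOf_eq_prime ?_ ?_, fun u => ?_⟩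
    · rw [pow_two]
      show (QuotientGroup.mk (aY * aY) : ↥Y ⧸ _) = 1
      rw [show aY * aY = 1 from Subtype.ext (hT.sq ha)]
      rfl
    · intro h
      rcases (memz aY).1 ((QuotientGroup.eq_one_iff aY).1 h) with h | h
      · exact hL.ne_one h
      · exact (hT.loc b hb.1).ne_one (mul_left_cancel ((h.symm.trans (mul_one a).symm) :
          a * b = a * 1))
    · obtain ⟨v, rfl⟩ := QuotientGroup.mk_surjective u
      intro hc
      have hx : cj (v : G) a ∈ D := hT.inv' _ _ ha
      have hy : cj (v : G) b ∈ link D (cj (v : G) a) :=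
        ⟨hT.inv' _ _ hb.1, fun e => hb.2.1 (cj_injective _ e), (cj_commute_iff _ a b).2 hab⟩
      have hxy : a * b = cj (v : G) a * cj (v : G) b := by
        rw [← cj_map_mul]
        exact ((cj_eq_self_iff _ _).2 ((memY v).1 v.2)).symm
      have hcm := (QuotientGroup.eq (s := Subgroup.zpowers zY)).1 (show (QuotientGroup.mk
        ((v * aY * v⁻¹) * aY) : ↥Y ⧸ Subgroup.zpowers zY) = QuotientGroup.mk (aY * (v * aY * v⁻¹)) from hc.eq)
      have hxa : Commute (cj (v : G) a) a := by
        rcases (memz _).1 hcm with h | h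
        · exact inv_mul_eq_one.1 h
        · exfalso
          have h1 : a * cj (v : G) a = cj (v : G) a * a * z := by
            have := congrArg (fun w => cj (v : G) a * a * w) h
            change cj (v : G) a * a * ((cj (v : G) a * a)⁻¹ * (a * cj (v : G) a)) = _ at this
            rwa [mul_inv_cancel_left] at this
          refine hT.no_swap hx ha hb ?_
          rw [cj, hT.inv_eq hx, mul_assoc, h1, hz]
          simp only [← mul_assoc]
          rw [hT.sq hx, one_mul, hT.sq ha, one_mul]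
      rcases hT.same_pair ha hb hx hy hxy hxa with h | h
      · exact congrArg QuotientGroup.mk (Subtype.ext h : v * aY * v⁻¹ = aY)
      · refine (QuotientGroup.eq (a := v * aY * v⁻¹) (b := aY)).2 ((memz _).2 (Or.inr ?_))
        show (cj (v : G) a)⁻¹ * a = z
        rw [h, hT.inv_eq hb.1, hz, hab.eq]
  -- the core
  set Pc := (Cfsg.pPrimeCore 2 (↥Y ⧸ Subgroup.zpowers zY)).comap (QuotientGroup.mk' (Subgroup.zpowers zY))
  have hzP : zY ∈ Pc := by
    rw [Subgroup.mem_comap]
    rw [QuotientGroup.mk'_apply, (QuotientGroup.eq_one_iff zY).2 (Subgroup.mem_zpowers _)]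
    exact one_mem _
  haveI : Fact (Nat.Prime 2) := ⟨Nat.prime_two⟩
  have hidx : Odd (Subgroup.zpowers (⟨zY, hzP⟩ : ↥Pc)).index := by
    set f := (QuotientGroup.mk' (Subgroup.zpowers zY)).subgroupComap
      (Cfsg.pPrimeCore 2 (↥Y ⧸ Subgroup.zpowers zY))
    have hs : Function.Surjective f :=
      (QuotientGroup.mk' _).subgroupComap_surjective_of_surjective _ (QuotientGroup.mk'_surjective _)
    have hk : f.ker = Subgroup.zpowers (⟨zY, hzP⟩ : ↥Pc) := by
      ext u
      constructor
      · intro hu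
        have h1 : (u : ↥Y) ∈ Subgroup.zpowers zY := (QuotientGroup.eq_one_iff _).1 (congrArg Subtype.val hu)
        obtain ⟨k, hk⟩ := Subgroup.mem_zpowers_iff.1 h1
        exact ⟨k, Subtype.ext hk⟩
      · intro hu
        obtain ⟨k, rfl⟩ := Subgroup.mem_zpowers_iff.1 hu
        refine MonoidHom.mem_ker.2 (Subtype.ext ?_)
        exact (QuotientGroup.eq_one_iff _).2 ⟨k, rfl⟩
    rw [← hk, Subgroup.index_ker, MonoidHom.range_eq_top.2 hs, Subgroup.card_top, ← Nat.not_even_iff_odd,
      even_iff_two_dvd]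
    exact Cores.not_dvd_card_pPrimeCore
  obtain ⟨K, hKodd, hKmem, hKin⟩ := exists_odd_part (z := (⟨zY, hzP⟩ : ↥Pc))
    (by rw [← Subgroup.orderOf_coe]; exact hzo)
    (fun u => Subtype.ext (zcen u).eq) hidx
  set O : Subgroup G := (K.map Pc.subtype).map Y.subtype
  have hOodd : Odd (Nat.card O) := by
    rw [Subgroup.card_map_of_injective Y.subtype_injective,
      Subgroup.card_map_of_injective Pc.subtype_injective]
    exact hKodd
  have hOY : O ≤ Y := Subgroup.map_subtype_le _
  have memO : ∀ u : ↥Y, (u : G) ∈ O ↔ u ∈ Pc ∧ Odd (orderOf (u : G)) := by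
    intro u
    constructor
    · rintro ⟨_, ⟨p, hp, rfl⟩, e⟩
      have e' : (p : ↥Y) = u := Subtype.ext e
      refine ⟨e' ▸ p.2, ?_⟩
      rw [Subgroup.orderOf_coe, ← e', Subgroup.orderOf_coe]
      exact (hKmem p).1 hp
    · rintro ⟨hu, ho⟩
      refine ⟨u, ⟨⟨u, hu⟩, (hKmem _).2 ?_, rfl⟩, rfl⟩
      rw [Subgroup.orderOf_coe] at ho
      rwa [Subgroup.orderOf_mk]
  have hnorm : ∀ v ∈ Y, ∀ w ∈ O, cj v w ∈ O := by
    intro v hv w hw
    obtain ⟨h1, h2⟩ := (memO ⟨w, hOY hw⟩).1 hw
    refine (memO (⟨v, hv⟩ * ⟨w, hOY hw⟩ * (⟨v, hv⟩ : ↥Y)⁻¹)).2 ⟨?_, ?_⟩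
    · have hn : Pc.Normal := by
        haveI : (Cfsg.pPrimeCore 2 (↥Y ⧸ Subgroup.zpowers zY)).Normal := inferInstance
        exact Subgroup.Normal.comap inferInstance _
      exact hn.conj_mem _ h1 _
    · rw [show ((⟨v, hv⟩ * ⟨w, hOY hw⟩ * (⟨v, hv⟩ : ↥Y)⁻¹ : ↥Y) : G) = MulAut.conj v w from rfl,
        MulEquiv.orderOf_eq]
      exact h2
  have fix_bot : ∀ w ∈ O, Commute w a → w = 1 := by
    have : O ⊓ Subgroup.centralizer ({a} : Set G) = ⊥ := by
      refine hL.core b hb _ ?_ (fun w hw => ?_) fun v hv w hw => ?_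
      · exact Odd.of_dvd_nat hOodd (Subgroup.card_dvd_of_le inf_le_left)
      · have h1 : Commute w a := Subgroup.mem_centralizer_singleton_iff.1 hw.2
        refine mem_centralizer_pair.2 ⟨h1, ?_⟩
        have h2 := h1.mul_right ((memY w).1 (hOY hw.1))
        rwa [hz, ← mul_assoc, hT.sq ha, one_mul] at h2
      · obtain ⟨v1, v2⟩ := mem_centralizer_pair.1 hv
        refine ⟨hnorm v ((memY v).2 (v1.mul_right v2)) w hw.1, Subgroup.mem_centralizer_singleton_iff.2 ?_⟩
        have h1 : Commute w a := Subgroup.mem_centralizer_singleton_iff.1 hw.2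
        exact ((v1.mul_left h1).mul_left v1.inv_left).eq
    intro w hw hc
    exact Subgroup.mem_bot.1 (this ▸ (⟨hw, Subgroup.mem_centralizer_singleton_iff.2 hc.eq⟩ :
      w ∈ O ⊓ Subgroup.centralizer ({a} : Set G)))
  have normO : ∀ {c : G}, Commute c z → c ∈ Subgroup.normalizer (O : Set G) := fun {c} hc =>
    Subgroup.mem_normalizer_fintype fun w hw => hnorm c ((memY c).2 hc) w hw
  have inv_a : ∀ w ∈ O, cj a w = w⁻¹ := by
    intro w hw
    rw [cj, hT.inv_eq ha]
    refine LocalEven.CoreGen.inverts (hT.sq ha) (normO haz) ?_ hw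
    exact (Subgroup.eq_bot_iff_forall _).2 fun u hu =>
      fix_bot u hu.1 (Subgroup.mem_centralizer_singleton_iff.1 hu.2)
  have inv_c : ∀ c ∈ D, c ≠ a → c ≠ b → Commute c a → Commute c b → ∀ w ∈ O, cj c w = w⁻¹ := by
    intro c hc hca hcb cca ccb w hw
    rw [cj, hT.inv_eq hc]
    refine LocalEven.CoreGen.inverts (hT.sq hc) (normO (cca.mul_right ccb)) ?_ hw
    refine (Subgroup.eq_bot_iff_forall _).2 fun u hu => ?_
    have huc : Commute u c := Subgroup.mem_centralizer_singleton_iff.1 hu.2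
    have huz : Commute u z := (memY u).1 (hOY hu.1)
    have hx : cj u a ∈ D := hT.inv' _ _ ha
    have hy : cj u b ∈ link D (cj u a) :=
      ⟨hT.inv' _ _ hb.1, fun e => hb.2.1 (cj_injective _ e), (cj_commute_iff _ a b).2 hab⟩
    have hxy : a * b = cj u a * cj u b := by
      rw [← cj_map_mul]
      exact ((cj_eq_self_iff _ _).2 huz).symm
    have hcu : cj u c = c := (cj_eq_self_iff u c).2 huc
    have lx : cj u a ∈ link D c := ⟨hx, fun e => hca (cj_injective u (hcu.trans e.symm)), by
      have := (cj_commute_iff u c a).2 cca; rwa [hcu] at this⟩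
    have hxa : Commute (cj u a) a := by
      refine (hT.loc c hc).cross _ lx [a, b] ⟨by simp [Ne.symm hb.2.1], ?_, ?_⟩ (by simp) ?_ a (by simp)
      · simp only [List.mem_cons, List.not_mem_nil, or_false, forall_eq_or_imp, forall_eq]
        exact ⟨⟨ha, Ne.symm hca, cca⟩, hb.1, Ne.symm hcb, ccb⟩
      · simp only [List.mem_cons, List.not_mem_nil, or_false, forall_eq_or_imp, forall_eq]
        exact ⟨⟨Commute.refl _, hab⟩, hab.symm, Commute.refl _⟩
      · rw [List.prod_cons, List.prod_cons, List.prod_nil, mul_one, hxy]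
        exact (Commute.refl _).mul_right hy.2.2
    rcases hT.same_pair ha hb hx hy hxy hxa with h | h
    · exact fix_bot u hu.1 ((cj_eq_self_iff u a).1 h)
    · exfalso
      have hya : cj u b = a := by
        rw [h, hb.2.2.eq] at hxy
        exact (mul_left_cancel hxy).symm
      have h2 : cj (u ^ 2) a = a := by rw [pow_two, cj_mul, h, hya]
      obtain ⟨m, hm⟩ := ((memO ⟨u, hOY hu.1⟩).1 hu.1).2
      have hu' : u = (u ^ 2) ^ (m + 1) := by
        rw [← pow_mul, show 2 * (m + 1) = orderOf u + 1 by rw [show orderOf u = 2 * m + 1 from hm]; ring,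
          pow_succ, pow_orderOf_eq_one, one_mul]
      have : Commute u a := hu'.symm ▸ ((cj_eq_self_iff _ _).1 h2).pow_left (m + 1)
      exact hb.2.1 (h.symm.trans ((cj_eq_self_iff u a).2 this))
  have hObot : ∀ w ∈ O, w = 1 := by
    intro w hw
    obtain ⟨l, hl, hlen, hprod, hmem⟩ := hL.avoid b hb b hb (Commute.refl b)
    have h1 := hT.cj_prod_invert l (fun c hc => inv_c c (hl.mem c hc).1 (hl.mem c hc).2.1 (hmem c hc).1
      (hl.mem c hc).2.2.symm (hmem c hc).2.2.1) w hw
    rw [hprod, hlen, inv_a w hw, if_pos (by decide)] at h1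
    obtain ⟨m, hm⟩ := ((memO ⟨w, hOY hw⟩).1 hw).2
    have h2 : w ^ 2 = 1 := by rw [pow_two]; nth_rw 1 [← h1]; exact inv_mul_cancel w
    have h3 : orderOf w ∣ 2 := orderOf_dvd_of_pow_eq_one h2
    have h4 : orderOf w = 2 * m + 1 := hm
    rcases (Nat.dvd_prime Nat.prime_two).1 h3 with h | h
    · exact orderOf_eq_one_iff.1 h
    · omega
  -- conclusion
  set gY : ↥Y := ⟨g, (memY g).2 hg⟩
  have hmem : ⁅aY, gY⁆ ∈ Pc := by
    rw [Subgroup.mem_comap]
    rw [map_commutatorElement]
    exact Invol.zStar_theorem _ t hiso _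
  have hval : a * g * a⁻¹ * g⁻¹ = 1 ∨ a * g * a⁻¹ * g⁻¹ = z := by
    have hOmem : ∀ q : ↥Pc, q ∈ K → (q : ↥Y) = 1 := fun q hq =>
      Subtype.ext (hObot _ ⟨_, ⟨q, hq, rfl⟩, rfl⟩)
    rcases hKin ⟨_, hmem⟩ with h | h
    · exact Or.inl (congrArg Subtype.val (hOmem _ h))
    · right
      have h1 : (a * g * a⁻¹ * g⁻¹) * z = 1 := congrArg Subtype.val (hOmem _ h)
      rw [eq_inv_of_mul_eq_one_left h1, inv_eq_of_mul_eq_one_right hz2]
  have hga : cj g a = (a * g * a⁻¹ * g⁻¹)⁻¹ * a * 1 := by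
    simp [cj, mul_assoc]
  have hgb : cj g b = cj g a * z := by
    have h1 : cj g z = z := (cj_eq_self_iff g z).2 hg
    rw [hz, cj_map_mul] at h1
    have h2 : cj g a * (cj g a * cj g b) = cj g a * z := congrArg (cj g a * ·) h1
    rwa [← mul_assoc, hT.sq (hT.inv' g a ha), one_mul] at h2
  rcases hval with h | h <;> rw [h] at hga
  · rw [inv_one, one_mul, mul_one] at hga
    exact Or.inl ⟨hga, by rw [hgb, hga, hz, ← mul_assoc, hT.sq ha, one_mul]⟩
  · rw [inv_eq_of_mul_eq_one_right hz2, mul_one, hz, hab.eq, mul_assoc, hT.sq ha, mul_one] at hga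
    exact Or.inr ⟨hga, by rw [hgb, hga, hz, hab.eq, ← mul_assoc, hT.sq hb.1, one_mul]⟩

/-- A member centralising the product of two commuting members commutes with both. -/
theorem commute_pair {a b x : G} (ha : a ∈ D) (hb : b ∈ link D a) (hx : x ∈ D)
    (hc : Commute x (a * b)) : Commute x a ∧ Commute x b := by
  rcases hT.pair_stab ha hb hc with ⟨h1, h2⟩ | ⟨h1, -⟩
  · exact ⟨(cj_eq_self_iff x a).1 h1, (cj_eq_self_iff x b).1 h2⟩
  · exact absurd h1 (hT.no_swap hx ha hb)

end TT

end Cfsg.Agent.FiTrans
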