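import Cfsg.Agent.FiTrans.PairMap
import Cfsg.Agent.TTLink.UnitaryAut
import Cfsg.Agent.AutPSU.Main

/-!
An automorphism of the centraliser of two commuting members fixing both and preserving their common
neighbours is inner.
-/

set_option autoImplicit false
set_option maxHeartbeats 1000000

namespace Cfsg.Agent.FiTrans

open Cfsg.Agent.TTLink Cfsg.Agent.ThreeTransp45 Cfsg.Agent.SporB UnitarySix Cfsg.Agent.TTClass.UnitF4

section Unitary

variable {F : Type} [Field F] [Fintype F] (hF : Fintype.card F = 4)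
include hF

theorem tri_mem (j : Fin 3) : tri hF j ∈ allTT hF :=
  ⟨_, h_pvec hF .., fun e => by
    obtain ⟨x, y, z⟩ := pvec_eq_zero e
    fin_cases j <;> simp at x y z, rfl⟩

theorem tri_ne {j k : Fin 3} (hjk : j ≠ k) : tri hF j ≠ tri hF k := by
  refine pvec_ne hF _ _ _ _ _ _ ?_ ?_ fun c ⟨c1, c2, c3⟩ => ?_
  · intro h; obtain ⟨x, y, z⟩ := pvec_eq_zero h; fin_cases j <;> simp at x y z
  · intro h; obtain ⟨x, y, z⟩ := pvec_eq_zero h; fin_cases k <;> simp at x y z
  · fin_cases j <;> fin_cases k <;> simp at c1 c2 c3 hjk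

/-- Five with product one do not contain the whole triangle. -/
theorem five_no_tri {l : List (Cfsg.PSU 6 F 2)} (hl : Fac (allTT hF) l) (h5 : l.length = 5)
    (hp : l.prod = 1) (ht : ∀ j, tri hF j ∈ l) : False := by
  classical
  have h01 : tri hF 0 ≠ tri hF 1 := tri_ne hF (by decide)
  obtain ⟨L, hL, hLl, hLp, hLm⟩ := line_exists hF (allTT_data hF) (tri_mem hF 0) (tri_mem hF 1) h01
    (hl.comm _ (ht 0) _ (ht 1))
  have hLc : ∀ q ∈ L, ∀ q' ∈ L, Commute q q' := fun q hq q' hq' => by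
    obtain ⟨q0, q1, q2, -⟩ := (hLm q).1 hq
    exact ((hLm q').1 hq').2.2.2 q q0 q1 q2
  have h2L := five_eq hF hl ⟨hL, fun q hq => ((hLm q).1 hq).1, hLc⟩ h5 hLl hp hLp (ht 0) (ht 1)
    ((hLm _).2 ⟨tri_mem hF 0, Commute.refl _, hl.comm _ (ht 0) _ (ht 1), fun _ _ h _ => h⟩)
    ((hLm _).2 ⟨tri_mem hF 1, hl.comm _ (ht 1) _ (ht 0), Commute.refl _, fun _ _ _ h => h⟩) h01
    _ (ht 2)
  obtain ⟨o, ho⟩ := exists_omega hF
  let x₀ : Fin 6 → F := Pi.single 4 1 + Pi.single 5 o
  have h2 := TTClass.UnitF4.two_eq_zero hF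
  have hx₀ : TTClass.UnitF4.H x₀ x₀ = 0 := by
    simp [x₀, TTClass.UnitF4.H, Cfsg.hermForm, Fin.sum_univ_six, Pi.single_apply]
    linear_combination (o - 1) * ho + h2
  have hx₀0 : x₀ ≠ 0 := fun h => one_ne_zero (α := F) (by simpa [x₀] using congrFun h 4)
  have hc := ((hLm _).1 h2L).2.2.2 _ ⟨x₀, hx₀, hx₀0, rfl⟩
    (tt_commute hF hx₀ (h_pvec hF ..) (by
      simp [x₀, TTClass.UnitF4.H, Cfsg.hermForm, Fin.sum_univ_six, Pi.single_apply, pvec]))
    (tt_commute hF hx₀ (h_pvec hF ..) (by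
      simp [x₀, TTClass.UnitF4.H, Cfsg.hermForm, Fin.sum_univ_six, Pi.single_apply, pvec]))
  have := orth_of_tt hF hx₀ hx₀0 (h_pvec hF ..) (fun h => by simpa using (pvec_eq_zero h).2.2) hc
  simp [x₀, TTClass.UnitF4.H, Cfsg.hermForm, Fin.sum_univ_six, Pi.single_apply, pvec] at this
  have ho0 : o = 0 := eq_zero_of_pow_eq_zero (n := 2) (by linear_combination ho - this)
  rw [ho0] at ho
  simp at ho

theorem field_cases (σ : F ≃+* F) : σ = 1 ∨ ∀ x, σ x = x ^ 2 := by
  classical
  obtain ⟨o, ho⟩ := exists_omega hF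
  have h2 := TTClass.UnitF4.two_eq_zero hF
  have hcase : ∀ z : F, z = 0 ∨ z = 1 ∨ z = o ∨ z = o ^ 2 := fun z => by
    rcases eq_or_ne z 0 with rfl | hz
    · exact Or.inl rfl
    have h3 := cube hF hz
    have : (z - 1) * (z - o) * (z - o ^ 2) = 0 := by grind
    rcases mul_eq_zero.1 this with e | e
    · rcases mul_eq_zero.1 e with e | e
      · exact Or.inr (Or.inl (sub_eq_zero.1 e))
      · exact Or.inr (Or.inr (Or.inl (sub_eq_zero.1 e)))
    · exact Or.inr (Or.inr (Or.inr (sub_eq_zero.1 e)))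
  have ho0 : o ≠ 0 := by rintro rfl; simp at ho
  have ho1 : o ≠ 1 := by
    rintro rfl
    exact one_ne_zero (α := F) (by linear_combination ho - h2)
  rcases hcase (σ o) with e | e | e | e
  · exact absurd ((map_eq_zero σ).1 e) ho0
  · exact absurd (σ.injective (e.trans (map_one σ).symm)) ho1
  · left
    refine RingEquiv.ext fun x => ?_
    show σ x = x
    rcases hcase x with rfl | rfl | rfl | rfl
    · exact map_zero σ
    · exact map_one σ
    · exact e
    · rw [map_pow, e]
  · right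
    intro x
    rcases hcase x with rfl | rfl | rfl | rfl
    · simp
    · simp
    · exact e
    · rw [map_pow, e]

theorem dGU_cube {o : F} (ho : o ^ 2 + o + 1 = 0) : dGU hF o ho ^ 3 = 1 := by
  refine Subtype.ext (Units.ext ?_)
  show (Matrix.diagonal (dvec o)) ^ 3 = 1
  rw [Matrix.diagonal_pow, ← Matrix.diagonal_one]
  congr 1
  funext i
  rw [Pi.pow_apply, pow_succ', dvec_norm hF ho i]

/-- A unitary element acts as a power of the diagonal one times an inner automorphism. -/
theorem conjAut_form {o : F} (ho : o ^ 2 + o + 1 = 0) (g : ↥(Cfsg.GU 6 F 2)) :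
    ∃ (i : ℕ) (u : Cfsg.PSU 6 F 2), i < 3 ∧ (AutPSU.conjAut g : MulAut (Cfsg.PSU 6 F 2)) =
      AutPSU.conjAut (dGU hF o ho) ^ i * MulAut.conj u := by
  have hS := Classical.U.sqField_of_fintype (q := 2) (F := F) (by rw [hF]; norm_num)
  have hd : ((AutPSU.detU hS (dGU hF o ho) : Fˣ) : F) = o ^ 2 := by
    rw [AutPSU.detU_coe, Matrix.GeneralLinearGroup.val_det_apply]
    exact (dvec_det hF ho).1
  have hgc : ((AutPSU.detU hS g : Fˣ) : F) ^ 3 = 1 := cube hF (Units.ne_zero _)
  obtain ⟨i, hi, hgi⟩ : ∃ i < 3, AutPSU.detU hS g = AutPSU.detU hS (dGU hF o ho) ^ i := by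
    have h2 := TTClass.UnitF4.two_eq_zero hF
    have : (((AutPSU.detU hS g : Fˣ) : F) - 1) * (((AutPSU.detU hS g : Fˣ) : F) - o ^ 2) *
        (((AutPSU.detU hS g : Fˣ) : F) - o ^ 4) = 0 := by grind
    rcases mul_eq_zero.1 this with e | e
    · rcases mul_eq_zero.1 e with e | e
      · exact ⟨0, by norm_num, Subtype.ext (Units.ext (by simpa [sub_eq_zero] using e))⟩
      · exact ⟨1, by norm_num, Subtype.ext (Units.ext (by simpa [hd, sub_eq_zero] using e))⟩
    · refine ⟨2, by norm_num, Subtype.ext (Units.ext ?_)⟩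
      rw [Subgroup.coe_pow, Units.val_pow_eq_pow_val, hd, sub_eq_zero.1 e, ← pow_mul]
  have hker : (dGU hF o ho ^ i)⁻¹ * g ∈ (AutPSU.detU (n := 6) hS).ker := by
    rw [MonoidHom.mem_ker, map_mul, map_inv, map_pow, hgi, inv_mul_cancel]
  rw [AutPSU.ker_detU hS] at hker
  obtain ⟨s, hs⟩ := hker
  refine ⟨i, AutPSU.proj s, hi, ?_⟩
  rw [← AutPSU.conjAut_suToGU, ← map_pow, ← map_mul, hs, mul_inv_cancel_left]

/-- The cube of a unitary element acts as an inner automorphism. -/
theorem conjAut_cube (g : ↥(Cfsg.GU 6 F 2)) :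
    ∃ u : Cfsg.PSU 6 F 2, (AutPSU.conjAut g : MulAut (Cfsg.PSU 6 F 2)) ^ 3 = MulAut.conj u := by
  have hS := Classical.U.sqField_of_fintype (q := 2) (F := F) (by rw [hF]; norm_num)
  have hker : g ^ 3 ∈ (AutPSU.detU (n := 6) hS).ker := by
    rw [MonoidHom.mem_ker, map_pow]
    refine Subtype.ext (Units.ext ?_)
    rw [Subgroup.coe_pow, Units.val_pow_eq_pow_val]
    exact cube hF (Units.ne_zero _)
  rw [AutPSU.ker_detU hS] at hker
  obtain ⟨s, hs⟩ := hker
  exact ⟨AutPSU.proj s, by rw [← map_pow, ← hs, AutPSU.conjAut_suToGU]⟩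

end Unitary

/-- `β` is induced by `γ` along `ρ`. -/
def Over {K P : Type*} [Group K] [Group P] (ρ : K →* P) (γ : MulAut K) (β : MulAut P) : Prop :=
  ∀ z, ρ (γ z) = β (ρ z)

theorem Over.mul {K P : Type*} [Group K] [Group P] {ρ : K →* P} {γ δ : MulAut K} {β ε : MulAut P}
    (h : Over ρ γ β) (h' : Over ρ δ ε) : Over ρ (γ * δ) (β * ε) := fun z => by
  rw [MulAut.mul_apply, MulAut.mul_apply, h, h']

theorem Over.conj {K P : Type*} [Group K] [Group P] (ρ : K →* P) (k : K) :
    Over ρ (MulAut.conj k) (MulAut.conj (ρ k)) := fun z => by simp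

theorem Over.pow {K P : Type*} [Group K] [Group P] {ρ : K →* P} {γ : MulAut K} {β : MulAut P}
    (h : Over ρ γ β) : ∀ n : ℕ, Over ρ (γ ^ n) (β ^ n)
  | 0 => fun _ => rfl
  | n + 1 => by rw [pow_succ, pow_succ]; exact (Over.pow h n).mul h

variable {G X : Type*} [Group G] [Finite G] [Group X] [Finite X] {E : Set X} {d b : G}
  {π : ↥(Subgroup.centralizer ({d} : Set G)) →* X}

/-- The common neighbours inside the centraliser of the pair. -/
def commonSet (D : Set G) (a b : G) : Set ↥(Subgroup.centralizer ({a, b} : Set G)) :=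
  {z | (z : G) ∈ link D a ∩ link D b}

theorem link_stable {D : Set G} (hD : Data D) {c a w : G} (hc : Commute c a) (hw : w ∈ link D a) :
    cj c w ∈ link D a := by
  rw [← (cj_eq_self_iff c a).2 hc, ← link_image hD]; exact ⟨w, hw, rfl⟩

theorem common_mem_centralizer {D : Set G} {a b z : G} (h : z ∈ link D a ∩ link D b) :
    z ∈ Subgroup.centralizer ({a, b} : Set G) :=
  mem_centralizer_pair.2 ⟨h.1.2.2.symm, h.2.2.2.symm⟩

namespace PairMap

variable {D : Set G} {a b : G} {F : Type} [Field F] [Fintype F] {hF : Fintype.card F = 4}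
  {ρ : ↥(Subgroup.centralizer ({a, b} : Set G)) →* Cfsg.PSU 6 F 2} (R : PairMap D a b hF ρ)
include R

theorem to_psu {l : List G} (hl : Fac (link D a ∩ link D b) l) :
    ∃ L : List (Cfsg.PSU 6 F 2), Fac (allTT hF) L ∧ L.length = l.length ∧
      (∀ h, L.prod = ρ ⟨l.prod, h⟩) ∧
      (∀ z (hz : z ∈ link D a ∩ link D b), z ∈ l → ρ ⟨z, common_mem_centralizer hz⟩ ∈ L) ∧
      ∀ q ∈ L, ∃ z : ↥(Subgroup.centralizer ({a, b} : Set G)), (z : G) ∈ l ∧ ρ z = q := by
  set t : List ↥(Subgroup.centralizer ({a, b} : Set G)) :=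
    l.pmap (fun z hz => ⟨z, common_mem_centralizer hz⟩) hl.mem with ht
  have et : t.map Subtype.val = l := by simp [t, List.map_pmap, List.pmap_eq_map]
  have hts : ∀ z ∈ t, (z : G) ∈ link D a ∩ link D b := fun z hz =>
    hl.mem _ (et ▸ List.mem_map_of_mem hz)
  refine ⟨t.map ρ, ⟨(List.Nodup.of_map Subtype.val (et ▸ hl.nodup)).map_on fun z hz w hw e =>
    R.inj (hts z hz) (hts w hw) e, fun q hq => ?_, fun q hq q' hq' => ?_⟩,
    by rw [List.length_map, ← et, List.length_map], fun h => ?_, fun z hz hzl => ?_, fun q hq => ?_⟩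
  · obtain ⟨z, hz, rfl⟩ := List.mem_map.1 hq
    exact R.img ▸ ⟨z, hts z hz, rfl⟩
  · obtain ⟨z, hz, rfl⟩ := List.mem_map.1 hq
    obtain ⟨w, hw, rfl⟩ := List.mem_map.1 hq'
    exact (show Commute z w from Subtype.ext
      (hl.comm _ (et ▸ List.mem_map_of_mem hz) _ (et ▸ List.mem_map_of_mem hw))).map ρ
  · rw [← map_list_prod]
    refine congrArg ρ (Subtype.ext ?_)
    show (Subgroup.centralizer ({a, b} : Set G)).subtype t.prod = l.prod
    rw [map_list_prod, ← et]
    rfl
  · rw [← et] at hzl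
    obtain ⟨w, hw, e⟩ := List.mem_map.1 hzl
    rw [show (⟨z, common_mem_centralizer hz⟩ : ↥(Subgroup.centralizer ({a, b} : Set G))) = w from
      Subtype.ext e.symm]
    exact List.mem_map_of_mem hw
  · obtain ⟨z, hz, rfl⟩ := List.mem_map.1 hq
    exact ⟨z, et ▸ List.mem_map_of_mem hz, rfl⟩

theorem exists_tri : ∃ e : Fin 3 → ↥(Subgroup.centralizer ({a, b} : Set G)),
    (∀ j, (e j : G) ∈ link D a ∩ link D b) ∧ (∀ j, ρ (e j) = tri hF j) ∧
    Fac (link D a) [(e 0 : G), e 1, e 2] := by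
  have hl : ∀ j : Fin 3, ∃ y : ↥(Subgroup.centralizer ({a, b} : Set G)),
      (y : G) ∈ link D a ∩ link D b ∧ ρ y = tri hF j := fun j => by
    have := tri_mem hF j
    rw [← R.img] at this
    exact this
  choose e he he' using hl
  have hne : ∀ j k : Fin 3, j ≠ k → (e j : G) ≠ e k := fun j k hjk h => tri_ne hF hjk (by
    rw [← he', ← he', Subtype.ext h])
  have hcm : ∀ j k : Fin 3, Commute (e j : G) (e k) := fun j k => R.refl _ _ (he j) (he k) (by
    rw [he', he']; exact tt_commute hF (h_pvec hF ..) (h_pvec hF ..) (h_pvec hF ..))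
  refine ⟨e, he, he', ?_, ?_, ?_⟩
  · simp [hne 0 1 (by decide), hne 0 2 (by decide), hne 1 2 (by decide)]
  · simp [(he 0).1, (he 1).1, (he 2).1]
  · simp only [List.mem_cons, List.not_mem_nil, or_false, forall_eq_or_imp, forall_eq]
    exact ⟨⟨hcm 0 0, hcm 0 1, hcm 0 2⟩, ⟨hcm 1 0, hcm 1 1, hcm 1 2⟩, hcm 2 0, hcm 2 1, hcm 2 2⟩

end PairMap

namespace Hyp

variable (HY : Hyp d π E) (hb : b ∈ link (conjugatesOf d) d)
include HY hb

/-- The hexad through the lifts of the triangle consists of common neighbours. -/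
theorem hexad_common {F : Type} [Field F] [Fintype F] {hF : Fintype.card F = 4}
    {ρ : ↥(Subgroup.centralizer ({d, b} : Set G)) →* Cfsg.PSU 6 F 2}
    (R : PairMap (conjugatesOf d) d b hF ρ) {e : Fin 3 → ↥(Subgroup.centralizer ({d, b} : Set G))}
    (he : ∀ j, (e j : G) ∈ link (conjugatesOf d) d ∩ link (conjugatesOf d) b)
    (he' : ∀ j, ρ (e j) = tri hF j) (hf : Fac (link (conjugatesOf d) d) [(e 0 : G), e 1, e 2]) :
    ∃ s : List G, Fac (link (conjugatesOf d) d ∩ link (conjugatesOf d) b) s ∧ s.length = 6 ∧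
      s.prod = d ∧ (∀ j, (e j : G) ∈ s) ∧
      ∀ l : List G, Fac (link (conjugatesOf d) d) l → l.length = 6 → l.prod = d →
        (∀ j, (e j : G) ∈ l) → ∀ z ∈ l, z ∈ s := by
  classical
  obtain ⟨s, hs, hsl, hsp, s0, s1, s2, hsc, huniq⟩ := HY.hexad_link hf
  have hse : ∀ j, (e j : G) ∈ s := fun j => by fin_cases j <;> assumption
  have hbs : ∀ z ∈ s, Commute b z :=
    hsc b hb (he 0).2.2.2 (he 1).2.2.2 (he 2).2.2.2
  have hbn : b ∉ s := by
    intro hbs'
    have hR : Fac (link (conjugatesOf d) d ∩ link (conjugatesOf d) b) (s.erase b) := by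
      refine ⟨hs.nodup.erase b, fun z hz => ?_, fun z hz w hw =>
        hs.comm z (List.mem_of_mem_erase hz) w (List.mem_of_mem_erase hw)⟩
      have hzs := List.mem_of_mem_erase hz
      have hzd := hs.mem z hzs
      exact ⟨hzd, hzd.1, fun e => hs.nodup.not_mem_erase (e ▸ hz), hbs z hzs⟩
    obtain ⟨L, hL, hLl, hLp, hLm, -⟩ := R.to_psu hR
    have hprod : (s.erase b).prod = b⁻¹ * d := by
      have h := (List.perm_cons_erase hbs').prod_eq' (List.pairwise_of_forall_mem_list fun u hu v hv => hs.comm u hu v hv)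
      rw [hsp, List.prod_cons] at h
      rw [h, inv_mul_cancel_left]
    have hbd : b⁻¹ * d = d * b := by
      rw [inv_eq_of_mul_eq_one_right (HY.tt.sq hb.1)]
      exact hb.2.2.eq.symm
    have hmem : (s.erase b).prod ∈ Subgroup.centralizer ({d, b} : Set G) :=
      Subgroup.list_prod_mem _ fun z hz => common_mem_centralizer (hR.mem z hz)
    refine five_no_tri hF hL (by rw [hLl, List.length_erase_of_mem hbs', hsl]) ?_ fun j => ?_
    · rw [hLp hmem, R.ker]
      exact Or.inr (Or.inr (Or.inr (hprod.trans hbd)))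
    · rw [← he' j]
      exact hLm _ (he j) ((List.mem_erase_of_ne (he j).2.2.1).2 (hse j))
  refine ⟨s, ⟨hs.nodup, fun z hz => ⟨hs.mem z hz, (hs.mem z hz).1, fun e => hbn (e ▸ hz), hbs z hz⟩,
    hs.comm⟩, hsl, hsp, hse, fun l h1 h2 h3 h4 => huniq l h1 h2 h3 (h4 0) (h4 1) (h4 2)⟩

theorem mem_closure_common :
    d ∈ Subgroup.closure (link (conjugatesOf d) d ∩ link (conjugatesOf d) b) := by
  obtain ⟨F, _, _, hF, ρ, R⟩ := HY.exists_pairMap hb
  obtain ⟨e, he, he', hf⟩ := R.exists_tri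
  obtain ⟨s, hs, -, hsp, -⟩ := HY.hexad_common hb R he he' hf
  have h := Subgroup.list_prod_mem (Subgroup.closure (link (conjugatesOf d) d ∩ link (conjugatesOf d) b))
    fun z hz => Subgroup.subset_closure (hs.mem z hz)
  rwa [hsp] at h

/-- An automorphism fixing the pair and preserving the common neighbours is inner. -/
theorem pair_inner (γ : MulAut ↥(Subgroup.centralizer ({d, b} : Set G)))
    (hS : ∀ z ∈ commonSet (conjugatesOf d) d b, γ z ∈ commonSet (conjugatesOf d) d b)
    (hγd : ∀ h, (γ ⟨d, h⟩ : G) = d) (hγb : ∀ h, (γ ⟨b, h⟩ : G) = b) :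
    ∃ k, γ = MulAut.conj k := by
  classical
  obtain ⟨F, _, _, hF, ρ, R⟩ := HY.exists_pairMap hb
  set D := conjugatesOf d with hD
  have hDd := HY.data
  have hdb : d ≠ b := hb.2.1.symm
  have haK : d ∈ Subgroup.centralizer ({d, b} : Set G) :=
    mem_centralizer_pair.2 ⟨Commute.refl d, hb.2.2⟩
  have hbK : b ∈ Subgroup.centralizer ({d, b} : Set G) :=
    mem_centralizer_pair.2 ⟨hb.2.2.symm, Commute.refl b⟩
  set A : ↥(Subgroup.centralizer ({d, b} : Set G)) := ⟨d, haK⟩ with hA
  set B : ↥(Subgroup.centralizer ({d, b} : Set G)) := ⟨b, hbK⟩ with hB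
  set S := commonSet D d b with hSdef
  -- the common neighbours generate
  have hAB : A ∈ Subgroup.closure S ∧ B ∈ Subgroup.closure S := by
    have him : (Subgroup.closure S).map (Subgroup.centralizer ({d, b} : Set G)).subtype =
        Subgroup.closure (link D d ∩ link D b) := by
      rw [MonoidHom.map_closure]
      congr 1
      exact Set.ext fun y => ⟨fun ⟨z, hz, e⟩ => e ▸ hz,
        fun hy => ⟨⟨y, common_mem_centralizer hy⟩, hy, rfl⟩⟩
    have key : ∀ y : ↥(Subgroup.centralizer ({d, b} : Set G)),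
        (y : G) ∈ Subgroup.closure (link D d ∩ link D b) → y ∈ Subgroup.closure S := fun y hy => by
      rw [← him] at hy
      obtain ⟨z, hz, e⟩ := hy
      rwa [← show z = y from Subtype.ext e]
    refine ⟨key A (HY.mem_closure_common hb), key B ?_⟩
    obtain ⟨π₁, HY₁, e⟩ := HY.at_conj hb.1
    have h := HY₁.mem_closure_common (b := d) (e ▸ link_symm HY.mem hb)
    rw [e, Set.inter_comm] at h
    exact h
  have gen : Subgroup.closure S = ⊤ := by
    refine eq_top_iff.2 fun g _ => ?_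
    have h1 : ρ g ∈ (Subgroup.closure S).map ρ := by
      rw [MonoidHom.map_closure, show ρ '' S = allTT hF from R.img, (allTT_class hF).2.2]
      exact Subgroup.mem_top _
    obtain ⟨s, hs, e⟩ := h1
    have h2 : ρ (s⁻¹ * g) = 1 := by rw [map_mul, map_inv, e, inv_mul_cancel]
    have h3 : s⁻¹ * g ∈ Subgroup.closure S := by
      rcases (R.ker _).1 h2 with h | h | h | h
      · rw [show s⁻¹ * g = 1 from Subtype.ext h]; exact one_mem _
      · rw [show s⁻¹ * g = A from Subtype.ext h]; exact hAB.1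
      · rw [show s⁻¹ * g = B from Subtype.ext h]; exact hAB.2
      · rw [show s⁻¹ * g = A * B from Subtype.ext h]; exact mul_mem hAB.1 hAB.2
    simpa using mul_mem hs h3
  have conjS : ∀ k, ∀ z ∈ S, MulAut.conj k z ∈ S := fun k z hz => by
    have hk := mem_centralizer_pair.1 k.2
    exact ⟨link_stable hDd hk.1 hz.1, link_stable hDd hk.2 hz.2⟩
  have conjA : ∀ k : ↥(Subgroup.centralizer ({d, b} : Set G)), MulAut.conj k A = A := fun k =>
    Subtype.ext ((cj_eq_self_iff (k : G) d).2 (mem_centralizer_pair.1 k.2).1)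
  -- an automorphism over an inner one is inner
  have inner : ∀ δ : MulAut ↥(Subgroup.centralizer ({d, b} : Set G)), (∀ z ∈ S, δ z ∈ S) → ∀ u,
      Over ρ δ (MulAut.conj u) → ∃ k, δ = MulAut.conj k := by
    intro δ hδS u hδ
    obtain ⟨k, rfl⟩ := R.surj u
    refine ⟨k, ?_⟩
    have h1 : MulAut.conj k⁻¹ * δ = 1 := by
      refine MulEquiv.ext fun g => ?_
      have hle : Subgroup.closure S ≤ MonoidHom.eqLocus (MulAut.conj k⁻¹ * δ).toMonoidHom
          (MonoidHom.id _) := (Subgroup.closure_le _).2 fun z hz => by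
        refine R.inj (show MulAut.conj k⁻¹ (δ z) ∈ S from conjS _ _ (hδS z hz)) hz ?_
        show ρ (MulAut.conj k⁻¹ (δ z)) = ρ z
        rw [MulAut.conj_apply, map_mul, map_mul, hδ, MulAut.conj_apply]
        simp [mul_assoc]
      exact hle (gen ▸ Subgroup.mem_top g)
    rw [map_inv, inv_mul_eq_one] at h1
    exact h1.symm
  have powS : ∀ δ : MulAut ↥(Subgroup.centralizer ({d, b} : Set G)), (∀ z ∈ S, δ z ∈ S) →
      ∀ n : ℕ, ∀ z ∈ S, (δ ^ n : MulAut _) z ∈ S := fun δ h n => by
    induction n with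
    | zero => exact fun z hz => hz
    | succ n ih => intro z hz; rw [pow_succ, MulAut.mul_apply]; exact ih _ (h z hz)
  -- no automorphism exchanging the pair lies over a unitary element
  have noSwap : ∀ δ : MulAut ↥(Subgroup.centralizer ({d, b} : Set G)), (∀ z ∈ S, δ z ∈ S) →
      δ A = B → δ B = A → ∀ g, Over ρ δ (AutPSU.conjAut g) → False := by
    intro δ hδS h1 h2 g hδ
    obtain ⟨u, hu⟩ := conjAut_cube hF g
    obtain ⟨k, hk⟩ := inner (δ ^ 3) (powS δ hδS 3) u (hu ▸ hδ.pow 3)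
    have h3 : (δ ^ 3 : MulAut _) A = B := by
      simp only [pow_succ, pow_zero, one_mul, MulAut.mul_apply, h1, h2]
    rw [hk, conjA] at h3
    exact hdb (congrArg Subtype.val h3)
  have desc : ∀ δ : MulAut ↥(Subgroup.centralizer ({d, b} : Set G)), ρ (δ A) = 1 → ρ (δ B) = 1 →
      ∃ β, Over ρ δ β := by
    intro δ h1 h2
    have hle : ρ.ker.map δ.toMonoidHom ≤ ρ.ker := by
      rintro _ ⟨z, hz, rfl⟩
      rw [MonoidHom.mem_ker]
      show ρ (δ z) = 1
      rcases (R.ker z).1 hz with h | h | h | h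
      · rw [show z = 1 from Subtype.ext h, map_one, map_one]
      · rw [show z = A from Subtype.ext h, h1]
      · rw [show z = B from Subtype.ext h, h2]
      · rw [show z = A * B from Subtype.ext h, map_mul, map_mul, h1, h2, one_mul]
    have hmap : ρ.ker.map δ.toMonoidHom = ρ.ker :=
      Subgroup.eq_of_le_of_card_ge hle
        (le_of_eq (Subgroup.card_map_of_injective δ.injective).symm)
    let q := QuotientGroup.quotientKerEquivOfSurjective ρ R.surj
    let c := QuotientGroup.congr ρ.ker ρ.ker δ hmap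
    refine ⟨q.symm.trans (c.trans q), fun z => ?_⟩
    have h : q.symm (ρ z) = (z : _ ⧸ ρ.ker) := q.symm_apply_eq.2 rfl
    show ρ (δ z) = q (c (q.symm (ρ z)))
    rw [h]
    rfl
  have hSq := Classical.U.sqField_of_fintype (q := 2) (F := F) (by rw [hF]; norm_num)
  have decomp : ∀ β : MulAut (Cfsg.PSU 6 F 2), ∃ (g : ↥(Cfsg.GU 6 F 2)) (σ : F ≃+* F),
      β = AutPSU.conjAut g * AutPSU.fieldAut σ := fun β =>
    AutPSU.exists_decomp hSq (n := 6) (by norm_num) (by norm_num) β
  have γA : γ A = A := Subtype.ext (hγd haK)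
  have γB : γ B = B := Subtype.ext (hγb hbK)
  have rA : ρ A = 1 := (R.ker A).2 (Or.inr (Or.inl rfl))
  have rB : ρ B = 1 := (R.ker B).2 (Or.inr (Or.inr (Or.inl rfl)))
  obtain ⟨β, hβ⟩ := desc γ (by rw [γA, rA]) (by rw [γB, rB])
  obtain ⟨g, σ, rfl⟩ := decomp β
  rcases field_cases hF σ with rfl | hσ
  · -- no field part: use the hexad through the triangle
    rw [map_one, mul_one] at hβ
    obtain ⟨o, ho⟩ := exists_omega hF
    obtain ⟨i, u, hi, hiu⟩ := conjAut_form hF ho g
    rw [hiu] at hβ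
    rcases Nat.eq_zero_or_pos i with rfl | hi0
    · rw [pow_zero, one_mul] at hβ
      exact inner γ hS u hβ
    exfalso
    obtain ⟨k, rfl⟩ := R.surj u
    set γ' := γ * MulAut.conj k⁻¹ with hγ'
    set δ₀ := (AutPSU.conjAut (dGU hF o ho) : MulAut (Cfsg.PSU 6 F 2)) with hδ₀
    have hover : Over ρ γ' (δ₀ ^ i) := fun z => by
      rw [hγ', MulAut.mul_apply, hβ, MulAut.mul_apply]
      simp [mul_assoc]
    have hS' : ∀ z ∈ S, γ' z ∈ S := fun z hz => hS _ (conjS _ z hz)
    have hA' : γ' A = A := by rw [hγ', MulAut.mul_apply, conjA, γA]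
    obtain ⟨e, he, he', hf⟩ := R.exists_tri
    obtain ⟨s, hs, hsl, hsp, hse, huniq⟩ := HY.hexad_common hb R he he' hf
    have hdel : ∀ j, δ₀ (tri hF j) = tri hF j := by
      intro j
      rw [hδ₀, tri, conjAut_dGU hF ho (h_pvec hF ..), dmap_pvec hF]
      fin_cases j
      · simp
      · simp
      · have hz : TTClass.UnitF4.H (pvec (0 : F) 0 1) (pvec 0 0 1) = 0 := h_pvec hF ..
        have ho0 : o ≠ 0 := by rintro rfl; simp at ho
        simp only [Fin.reduceFinMk, Fin.isValue, Fin.reduceEq, if_false, if_true]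
        rw [show pvec (0 : F) 0 (o * 1) = o • pvec (0 : F) 0 1 by funext i; fin_cases i <;> simp [pvec],
          tt_eq hF (by rw [TTClass.UnitF4.h_smul_left, TTClass.UnitF4.h_smul_right, hz]; simp),
          tt_eq hF hz, tSU_smul hF hz ho0]
    have hdpow : ∀ (n : ℕ) (j : Fin 3), (δ₀ ^ n : MulAut _) (tri hF j) = tri hF j := by
      intro n j
      induction n with
      | zero => rfl
      | succ n ih => rw [pow_succ, MulAut.mul_apply, hdel, ih]
    have hfe : ∀ j, γ' (e j) = e j := fun j => R.inj (hS' _ (he j)) (he j) (by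
      rw [hover, he', hdpow])
    obtain ⟨L, hL, hLl, hLp, hLm, hLm'⟩ := R.to_psu hs
    have hcl : ∀ z (hz : z ∈ link D d ∩ link D b), z ∈ s →
        ((γ' ⟨z, common_mem_centralizer hz⟩ : ↥(Subgroup.centralizer ({d, b} : Set G))) : G) ∈ s := by
      intro z hz hzs
      set t : List ↥(Subgroup.centralizer ({d, b} : Set G)) :=
        s.pmap (fun z hz => ⟨z, common_mem_centralizer hz⟩) hs.mem with ht
      have et : t.map Subtype.val = s := by simp [t, List.map_pmap, List.pmap_eq_map]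
      have hts : ∀ z ∈ t, (z : G) ∈ link D d ∩ link D b := fun z hz =>
        hs.mem _ (et ▸ List.mem_map_of_mem hz)
      have hmem : ∀ z' (hz' : z' ∈ link D d ∩ link D b), z' ∈ s →
          ((γ' ⟨z', common_mem_centralizer hz'⟩ : _) : G) ∈ (t.map γ').map Subtype.val := fun z' hz' hz's => by
        refine List.mem_map_of_mem (List.mem_map_of_mem ?_)
        rw [← et] at hz's
        obtain ⟨w, hw, e'⟩ := List.mem_map.1 hz's
        rwa [show (⟨z', common_mem_centralizer hz'⟩ : ↥(Subgroup.centralizer ({d, b} : Set G))) = w from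
          Subtype.ext e'.symm]
      refine huniq ((t.map γ').map Subtype.val) ⟨?_, ?_, ?_⟩ ?_ ?_ (fun j => ?_) _ (hmem z hz hzs)
      · exact ((List.Nodup.of_map Subtype.val (et ▸ hs.nodup)).map γ'.injective).map Subtype.val_injective
      · intro y hy
        obtain ⟨_, hy', rfl⟩ := List.mem_map.1 hy
        obtain ⟨w, hw, rfl⟩ := List.mem_map.1 hy'
        exact (hS' w (hts w hw)).1
      · intro y hy y' hy'
        obtain ⟨_, hy1, rfl⟩ := List.mem_map.1 hy
        obtain ⟨w, hw, rfl⟩ := List.mem_map.1 hy1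
        obtain ⟨_, hy2, rfl⟩ := List.mem_map.1 hy'
        obtain ⟨w', hw', rfl⟩ := List.mem_map.1 hy2
        exact congrArg Subtype.val ((show Commute w w' from Subtype.ext
          (hs.comm _ (et ▸ List.mem_map_of_mem hw) _ (et ▸ List.mem_map_of_mem hw'))).map γ'.toMonoidHom).eq
      · rw [List.length_map, List.length_map, ← hsl, ← et, List.length_map]
      · have htA : t.prod = A := by
          refine Subtype.ext ?_
          show (Subgroup.centralizer ({d, b} : Set G)).subtype t.prod = d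
          rw [map_list_prod]
          exact (congrArg List.prod et).trans hsp
        have h : (Subgroup.centralizer ({d, b} : Set G)).subtype (t.map γ').prod = d := by
          rw [← map_list_prod γ', htA, hA']
          rfl
        rwa [map_list_prod] at h
      · have := hmem _ (he j) (hse j)
        rwa [show (⟨(e j : G), common_mem_centralizer (he j)⟩ : ↥(Subgroup.centralizer ({d, b} : Set G))) = e j
          from rfl, hfe] at this
    have hLfix : ∀ q ∈ L, (δ₀ ^ i : MulAut _) q ∈ L := by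
      intro q hq
      obtain ⟨z, hz, rfl⟩ := hLm' q hq
      rw [← hover]
      exact hLm _ (hS' z (hs.mem _ hz)) (hcl _ (hs.mem _ hz) hz)
    have hδ3 : δ₀ ^ 3 = 1 := by rw [hδ₀, ← map_pow, dGU_cube hF ho, map_one]
    have hp1 : L.prod = 1 := by
      rw [hLp (hsp.symm ▸ haK), show (⟨s.prod, hsp.symm ▸ haK⟩ :
        ↥(Subgroup.centralizer ({d, b} : Set G))) = A from Subtype.ext hsp, rA]
    refine six_not_fixed hF ho hL (by rw [hLl, hsl]) hp1
      (fun j => by rw [← he' j]; exact hLm _ (he j) (hse j)) fun q hq => ?_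
    obtain rfl | rfl : i = 1 ∨ i = 2 := by omega
    · simpa using hLfix q hq
    · have h1 := hLfix _ (hLfix q hq)
      rw [← MulAut.mul_apply, ← pow_add, pow_succ, hδ3, one_mul] at h1
      exact h1
  · -- a field part: compare with an element exchanging the pair
    exfalso
    obtain ⟨g₁, hg₁⟩ := HY.tt.cl d HY.mem b hb.1
    have hb' : cj g₁ b ∈ link D b := by
      refine ⟨hDd.inv' g₁ b hb.1, fun h => hdb (cj_injective g₁ (hg₁.trans h.symm)), ?_⟩
      have h := (cj_commute_iff g₁ d b).2 hb.2.2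
      rwa [hg₁] at h
    obtain ⟨g₂, hg₂, hg₂'⟩ := (HY.tt.loc b hb.1).trans _ hb' d (link_symm HY.mem hb)
    set p := g₂ * g₁ with hp
    have hpd : cj p d = b := by rw [hp, cj_mul, hg₁, (cj_eq_self_iff _ _).2 hg₂]
    have hpb : cj p b = d := by rw [hp, cj_mul, hg₂']
    have hpm : ∀ {p' : G}, cj p' d = b → cj p' b = d →
        ∀ z : ↥(Subgroup.centralizer ({d, b} : Set G)),
        cj p' z ∈ Subgroup.centralizer ({d, b} : Set G) := fun {p'} h1 h2 z => by
      have hz := mem_centralizer_pair.1 z.2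
      refine mem_centralizer_pair.2 ⟨?_, ?_⟩
      · have h := (cj_commute_iff p' _ _).2 hz.2
        rwa [h2] at h
      · have h := (cj_commute_iff p' _ _).2 hz.1
        rwa [h1] at h
    have hpd' : cj p⁻¹ d = b := by rw [← hpb, cj_inv_cj]
    have hpb' : cj p⁻¹ b = d := by rw [← hpd, cj_inv_cj]
    let τ : MulAut ↥(Subgroup.centralizer ({d, b} : Set G)) :=
      { toFun := fun z => ⟨cj p z, hpm hpd hpb z⟩
        invFun := fun z => ⟨cj p⁻¹ z, hpm hpd' hpb' z⟩
        left_inv := fun z => Subtype.ext (cj_inv_cj p _)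
        right_inv := fun z => Subtype.ext (cj_cj_inv p _)
        map_mul' := fun x y => Subtype.ext (cj_map_mul p _ _) }
    have τA : τ A = B := Subtype.ext hpd
    have τB : τ B = A := Subtype.ext hpb
    have τS : ∀ z ∈ S, τ z ∈ S := fun z hz => by
      refine ⟨?_, ?_⟩
      · have e : cj p '' link D b = link D d := by rw [link_image hDd, hpb]
        exact e ▸ Set.mem_image_of_mem _ hz.2
      · have e : cj p '' link D d = link D b := by rw [link_image hDd, hpd]
        exact e ▸ Set.mem_image_of_mem _ hz.1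
    obtain ⟨β', hβ'⟩ := desc τ (by rw [τA, rB]) (by rw [τB, rA])
    obtain ⟨g', σ', rfl⟩ := decomp β'
    rcases field_cases hF σ' with rfl | hσ'
    · rw [map_one, mul_one] at hβ'
      exact noSwap τ τS τA τB g' hβ'
    have hσσ : σ' = σ := RingEquiv.ext fun x => (hσ' x).trans (hσ x).symm
    subst hσσ
    have hsq : σ' * σ' = 1 := RingEquiv.ext fun x => by
      show σ' (σ' x) = x
      rw [hσ', hσ', ← pow_mul]
      exact pow4 hF x
    have hmul : Over ρ (γ * τ) (AutPSU.conjAut (g * AutPSU.guMap σ' g') : MulAut (Cfsg.PSU 6 F 2)) := by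
      have h := hβ.mul hβ'
      have e : (AutPSU.conjAut g : MulAut (Cfsg.PSU 6 F 2)) * AutPSU.fieldAut σ' *
          (AutPSU.conjAut g' * AutPSU.fieldAut σ') = AutPSU.conjAut (g * AutPSU.guMap σ' g') := by
        rw [mul_assoc, ← mul_assoc (AutPSU.fieldAut σ'), AutPSU.fieldAut_mul_conjAut, mul_assoc,
          ← map_mul AutPSU.fieldAut, hsq, map_one, mul_one, ← map_mul]
      rwa [e] at h
    exact noSwap (γ * τ) (fun z hz => hS _ (τS z hz)) (by rw [MulAut.mul_apply, τA, γB])
      (by rw [MulAut.mul_apply, τB, γA]) _ hmul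

end Hyp

end Cfsg.Agent.FiTrans
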