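import Cfsg.Agent.FiTrans.Class
import Cfsg.Agent.TTLink.UnitaryLift

/-!
The centraliser of two commuting members maps onto `PSU(6,2)` with kernel generated by them; the hexad of
lifts through three commuting neighbours.
-/

set_option autoImplicit false

namespace Cfsg.Agent.FiTrans

open Cfsg.Agent.TTLink Cfsg.Agent.ThreeTransp45 Cfsg.Agent.SporB UnitarySix

variable {G X : Type*} [Group G] [Finite G] [Group X] [Finite X] {E : Set X} {d : G}
  {π : ↥(Subgroup.centralizer ({d} : Set G)) →* X}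

/-- The map of the centraliser of two commuting members onto `PSU(6,2)`. -/
structure PairMap (D : Set G) (a b : G) {F : Type} [Field F] [Fintype F] (hF : Fintype.card F = 4)
    (ρ : ↥(Subgroup.centralizer ({a, b} : Set G)) →* Cfsg.PSU 6 F 2) : Prop where
  surj : Function.Surjective ρ
  ker : ∀ z, ρ z = 1 ↔ (z : G) = 1 ∨ (z : G) = a ∨ (z : G) = b ∨ (z : G) = a * b
  img : ρ '' {z | (z : G) ∈ link D a ∩ link D b} = allTT hF
  inj : Set.InjOn ρ {z | (z : G) ∈ link D a ∩ link D b}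
  refl : ∀ z w : ↥(Subgroup.centralizer ({a, b} : Set G)), (z : G) ∈ link D a ∩ link D b → (w : G) ∈ link D a ∩ link D b → Commute (ρ z) (ρ w) →
    Commute (z : G) w

namespace Hyp

variable (HY : Hyp d π E)
include HY

/-- The hypotheses at a conjugate. -/
theorem at_conj {a : G} (ha : a ∈ conjugatesOf d) :
    ∃ π₁ : ↥(Subgroup.centralizer ({a} : Set G)) →* X, Hyp a π₁ E ∧ conjugatesOf a = conjugatesOf d := by
  obtain ⟨g, rfl⟩ := isConj_iff.1 ha
  obtain ⟨hdC, K⟩ := HY.cover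
  let e : ↥(Subgroup.centralizer ({g * d * g⁻¹} : Set G)) ≃* ↥(Subgroup.centralizer ({d} : Set G)) :=
    { toFun := fun x => ⟨cj g⁻¹ x, Subgroup.mem_centralizer_singleton_iff.2 (by
        have h := (cj_commute_iff g⁻¹ (x : G) (cj g d)).2
          (Subgroup.mem_centralizer_singleton_iff.1 x.2)
        rw [cj_inv_cj] at h
        exact h.eq)⟩
      invFun := fun x => ⟨cj g x, Subgroup.mem_centralizer_singleton_iff.2
        ((cj_commute_iff g (x : G) d).2 (Subgroup.mem_centralizer_singleton_iff.1 x.2)).eq⟩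
      left_inv := fun x => Subtype.ext (cj_cj_inv g _)
      right_inv := fun x => Subtype.ext (cj_inv_cj g _)
      map_mul' := fun x y => Subtype.ext (cj_map_mul _ _ _) }
  have haC : g * d * g⁻¹ ∈ Subgroup.centralizer ({g * d * g⁻¹} : Set G) :=
    Subgroup.mem_centralizer_singleton_iff.2 rfl
  have hea : e ⟨g * d * g⁻¹, haC⟩ = ⟨d, hdC⟩ := Subtype.ext (cj_inv_cj g d)
  refine ⟨π.comp e.toMonoidHom, ⟨⟨haC, K.surj.comp e.surjective,
    e.injective (by rw [map_mul, hea, map_one]; exact K.sq),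
    fun h => K.ne (by rw [← hea, h, map_one]), fun c => ?_, fun c => ?_, ?_⟩, HY.prim, ?_⟩, ?_⟩
  · refine e.injective ?_
    rw [map_mul, map_mul, hea]
    exact (K.central (e c)).eq
  · show π (e c) = 1 ↔ _
    rw [K.ker, ← hea, e.injective.eq_iff, ← map_one e, e.injective.eq_iff]
  · have := congrArg (Subgroup.map e.symm.toMonoidHom) K.perf
    rwa [commutator_def, Subgroup.map_commutator,
      Subgroup.map_top_of_surjective _ e.symm.surjective, ← commutator_def] at this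
  · obtain ⟨k, hk, hne⟩ := HY.nwc
    have e' : g * k * g⁻¹ * (g * d * g⁻¹) * (g * k * g⁻¹)⁻¹ = cj g (k * d * k⁻¹) := by
      simp [cj, mul_assoc]
    refine ⟨g * k * g⁻¹, ?_, ?_⟩ <;> rw [e']
    · exact Subgroup.mem_centralizer_singleton_iff.2
        ((cj_commute_iff g _ d).2 (Subgroup.mem_centralizer_singleton_iff.1 hk)).eq
    · exact fun h => hne (cj_injective g h)
  · exact (IsConj.conjugatesOf_eq (isConj_iff.2 ⟨g, rfl⟩)).symm

/-- The neighbours are the values of the section. -/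
theorem exists_link_sec' : ∃ τ : X → ↥(Subgroup.centralizer ({d} : Set G)), Sec E π τ ∧
    ∀ x : G, x ∈ link (conjugatesOf d) d ↔ ∃ u ∈ E, x = (τ u : G) := by
  obtain ⟨hdC, K⟩ := HY.cover
  obtain ⟨τ, hτ, hcap⟩ := exists_link_sec hdC K HY.prim HY.nwc
  refine ⟨τ, hτ, fun x => ⟨?_, ?_⟩⟩
  · rintro ⟨hx, hne, hc⟩
    rcases (hcap ⟨x, Subgroup.mem_centralizer_singleton_iff.2 hc.symm.eq⟩).1 hx with h | ⟨u, hu, h⟩
    · exact absurd (congrArg Subtype.val h) hne
    · exact ⟨u, hu, congrArg Subtype.val h⟩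
  · rintro ⟨u, hu, rfl⟩
    refine ⟨(hcap (τ u)).2 (Or.inr ⟨u, hu, rfl⟩), fun h => ThreeTransp.ne_one HY.prim.data.set hu ?_,
      (Subgroup.mem_centralizer_singleton_iff.1 (τ u).2).symm⟩
    rw [← hτ.map u hu, show τ u = ⟨d, hdC⟩ from Subtype.ext h, K.map_d]

theorem exists_pairMap {b : G} (hb : b ∈ link (conjugatesOf d) d) :
    ∃ (F : Type) (_ : Field F) (_ : Fintype F) (hF : Fintype.card F = 4)
      (ρ : ↥(Subgroup.centralizer ({d, b} : Set G)) →* Cfsg.PSU 6 F 2),
      PairMap (conjugatesOf d) d b hF ρ := by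
  classical
  obtain ⟨hdC, K⟩ := HY.cover
  have P := HY.prim
  obtain ⟨τ, hτ, hlink⟩ := HY.exists_link_sec'
  obtain ⟨p, hp, rfl⟩ := (hlink b).1 hb
  obtain ⟨F, i1, i2, hF, hcov, -⟩ := P.covers
  obtain ⟨cv⟩ := hcov p hp
  refine ⟨F, i1, i2, hF, ?_⟩
  set Z := Subgroup.centralizer ({d, (τ p : G)} : Set G)
  have inC : ∀ z : ↥Z, (z : G) ∈ Subgroup.centralizer ({d} : Set G) := fun z =>
    Subgroup.mem_centralizer_singleton_iff.2 (mem_centralizer_pair.1 z.2).1.eq
  let ι : ↥Z →* ↥(Subgroup.centralizer ({d} : Set G)) :=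
    MonoidHom.mk' (fun z => ⟨z, inC z⟩) fun x y => rfl
  have hιp : ∀ z : ↥Z, π (ι z) ∈ Subgroup.centralizer ({p} : Set X) := fun z => by
    have := (show Commute (ι z) (τ p) from Subtype.ext (mem_centralizer_pair.1 z.2).2).map π
    rw [hτ.map p hp] at this
    exact Subgroup.mem_centralizer_singleton_iff.2 this.eq
  let ψ : ↥Z →* ↥(Subgroup.centralizer ({p} : Set X)) := (π.comp ι).codRestrict _ hιp
  have ψs : Function.Surjective ψ := fun y => by
    obtain ⟨c, hc⟩ := K.surj (y : X)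
    have hcc : Commute c (τ p) := K.fix_lift P (by rw [hτ.map p hp]; exact hp)
      (by rw [hc, hτ.map p hp]; exact Subgroup.mem_centralizer_singleton_iff.1 y.2)
    exact ⟨⟨c, mem_centralizer_pair.2 ⟨Subgroup.mem_centralizer_singleton_iff.1 c.2,
      congrArg Subtype.val hcc.eq⟩⟩, Subtype.ext hc⟩
  -- the common neighbours
  have hcommon : ∀ z : ↥Z, (z : G) ∈ link (conjugatesOf d) d ∩ link (conjugatesOf d) (τ p : G) →
      ((ψ z : ↥(Subgroup.centralizer ({p} : Set X))) : X) ∈ link E p := by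
    intro z hz
    obtain ⟨u, hu, hzu⟩ := (hlink _).1 hz.1
    have e : ι z = τ u := Subtype.ext hzu
    show π (ι z) ∈ link E p
    rw [e, hτ.map u hu]
    refine ⟨hu, fun h => hz.2.2.1 (by rw [hzu, h]), ?_⟩
    have := (show Commute (τ p) (ι z) from Subtype.ext hz.2.2.2).map π
    rwa [e, hτ.map u hu, hτ.map p hp] at this
  refine ⟨cv.π.comp ψ, cv.surj.comp ψs, fun z => ?_, ?_, ?_, ?_⟩
  · rw [MonoidHom.comp_apply, cv.ker]
    show π (ι z) = 1 ∨ π (ι z) = p ↔ _
    constructor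
    · rintro (h | h)
      · rcases (K.ker _).1 h with e | e
        · exact Or.inl (congrArg Subtype.val e :)
        · exact Or.inr (Or.inl (congrArg Subtype.val e :))
      · rcases K.eq_or (show π (τ p) = π (ι z) by rw [h, hτ.map p hp]) with e | e
        · exact Or.inr (Or.inr (Or.inl (congrArg Subtype.val e :)))
        · refine Or.inr (Or.inr (Or.inr ?_))
          rw [show (z : G) = (τ p : G) * d from congrArg Subtype.val e]
          exact congrArg Subtype.val ((K.central (τ p)).eq.symm)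
    · rintro (h | h | h | h)
      · exact Or.inl (by rw [show ι z = 1 from Subtype.ext h, map_one])
      · exact Or.inl (by rw [show ι z = ⟨d, hdC⟩ from Subtype.ext h, K.map_d])
      · exact Or.inr (by rw [show ι z = τ p from Subtype.ext h, hτ.map p hp])
      · exact Or.inr (by
          rw [show ι z = ⟨d, hdC⟩ * τ p from Subtype.ext h, map_mul, K.map_d, one_mul, hτ.map p hp])
  · refine Set.Subset.antisymm ?_ fun t ht => ?_
    · rintro _ ⟨z, hz, rfl⟩
      rw [← cv.img]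
      exact ⟨ψ z, hcommon z hz, rfl⟩
    · rw [← cv.img] at ht
      obtain ⟨y, hy, rfl⟩ := ht
      have hyE : (y : X) ∈ E := hy.1
      have hc : Commute (τ p) (τ (y : X)) := K.sec_comm P hτ hp hyE hy.2.2
      have hzZ : (τ (y : X) : G) ∈ Z := mem_centralizer_pair.2
        ⟨Subgroup.mem_centralizer_singleton_iff.1 (τ (y : X)).2, (congrArg Subtype.val hc.eq).symm⟩
      have hyl := (hlink _).2 ⟨_, hyE, rfl⟩
      refine ⟨⟨_, hzZ⟩, ⟨hyl, hyl.1, fun h => hy.2.1 ?_, congrArg Subtype.val hc.eq⟩, ?_⟩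
      · rw [← hτ.map _ hyE, show τ (y : X) = τ p from Subtype.ext h, hτ.map p hp]
      · refine congrArg cv.π (Subtype.ext ?_)
        show π (τ (y : X)) = y
        exact hτ.map _ hyE
  · intro z hz w hw h
    have e : ψ z = ψ w := cv.inj (hcommon z hz) (hcommon w hw) h
    obtain ⟨u, hu, hzu⟩ := (hlink _).1 hz.1
    obtain ⟨v, hv, hwv⟩ := (hlink _).1 hw.1
    have e' : π (ι z) = π (ι w) := congrArg Subtype.val e
    rw [show ι z = τ u from Subtype.ext hzu, show ι w = τ v from Subtype.ext hwv, hτ.map u hu,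
      hτ.map v hv] at e'
    exact Subtype.ext (by rw [hzu, hwv, e'])
  · intro z w hz hw h
    obtain ⟨u, hu, hzu⟩ := (hlink _).1 hz.1
    obtain ⟨v, hv, hwv⟩ := (hlink _).1 hw.1
    have e1 : π (ι z) = u := by rw [show ι z = τ u from Subtype.ext hzu, hτ.map u hu]
    have e2 : π (ι w) = v := by rw [show ι w = τ v from Subtype.ext hwv, hτ.map v hv]
    have hc := cv.refl (ψ z) (ψ w) (hcommon w hw) h
    change Commute (π (ι z)) (π (ι w)) at hc
    rw [e1, e2] at hc
    rw [hzu, hwv]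
    exact congrArg Subtype.val (K.sec_comm P hτ hu hv hc).eq

/-- The six neighbours with product `d` through three commuting ones. -/
theorem hexad_link {e₀ e₁ e₂ : G} (h : Fac (link (conjugatesOf d) d) [e₀, e₁, e₂]) :
    ∃ s : List G, Fac (link (conjugatesOf d) d) s ∧ s.length = 6 ∧ s.prod = d ∧
      e₀ ∈ s ∧ e₁ ∈ s ∧ e₂ ∈ s ∧
      (∀ y ∈ link (conjugatesOf d) d, Commute y e₀ → Commute y e₁ → Commute y e₂ →
        ∀ z ∈ s, Commute y z) ∧
      ∀ l : List G, Fac (link (conjugatesOf d) d) l → l.length = 6 → l.prod = d →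
        e₀ ∈ l → e₁ ∈ l → e₂ ∈ l → ∀ z ∈ l, z ∈ s := by
  classical
  obtain ⟨hdC, K⟩ := HY.cover
  have P := HY.prim
  have hP := P.data
  obtain ⟨τ, hτ, hlink⟩ := HY.exists_link_sec'
  obtain ⟨u₀, hu₀, rfl⟩ := (hlink e₀).1 (h.mem e₀ (by simp))
  obtain ⟨u₁, hu₁, rfl⟩ := (hlink e₁).1 (h.mem _ (by simp : e₁ ∈ _))
  obtain ⟨u₂, hu₂, rfl⟩ := (hlink e₂).1 (h.mem _ (by simp : e₂ ∈ _))
  have inj : ∀ u ∈ E, ∀ w ∈ E, (τ u : G) = τ w → u = w := fun u hu w hw h' => by
    rw [← hτ.map u hu, Subtype.ext h', hτ.map w hw]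
  have comm_iff : ∀ u ∈ E, ∀ w ∈ E, Commute (τ u : G) (τ w : G) ↔ Commute u w := by
    intro u hu w hw
    constructor
    · intro h'
      have := (show Commute (τ u) (τ w) from Subtype.ext h').map π
      rwa [hτ.map u hu, hτ.map w hw] at this
    · intro h'
      exact congrArg Subtype.val (K.sec_comm P hτ hu hw h')
  have hn := h.nodup
  simp only [List.nodup_cons, List.mem_cons, List.not_mem_nil, or_false, not_or, not_false_eq_true,
    List.nodup_nil, and_true] at hn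
  have n01 : u₀ ≠ u₁ := fun e => hn.1.1 (by rw [e])
  have n02 : u₀ ≠ u₂ := fun e => hn.1.2 (by rw [e])
  have n12 : u₁ ≠ u₂ := fun e => hn.2 (by rw [e])
  obtain ⟨s, hsn, hsl, hsp, hsm⟩ := hexad P.grp P.prim P.type hu₀ hu₁ hu₂ n01 n02 n12
    ((comm_iff _ hu₀ _ hu₁).1 (h.comm _ (by simp) _ (by simp)))
    ((comm_iff _ hu₀ _ hu₂).1 (h.comm _ (by simp) _ (by simp)))
    ((comm_iff _ hu₁ _ hu₂).1 (h.comm _ (by simp) _ (by simp)))
  have sE : ∀ z ∈ s, z ∈ E := fun z hz => ((hsm z).1 hz).1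
  have scomm : ∀ u ∈ s, ∀ v ∈ s, Commute u v := fun u hu v hv => by
    have h1 := (hsm u).1 hu
    exact ((hsm v).1 hv).2.2.2.2 u h1.1 h1.2.1 h1.2.2.1 h1.2.2.2.1
  have c01 := (comm_iff _ hu₀ _ hu₁).1 (h.comm _ (by simp) _ (by simp))
  have c02 := (comm_iff _ hu₀ _ hu₂).1 (h.comm _ (by simp) _ (by simp))
  have c12 := (comm_iff _ hu₁ _ hu₂).1 (h.comm _ (by simp) _ (by simp))
  have m0 : u₀ ∈ s := (hsm _).2 ⟨hu₀, Commute.refl _, c01, c02, fun z _ h0 _ _ => h0⟩
  have m1 : u₁ ∈ s := (hsm _).2 ⟨hu₁, c01.symm, Commute.refl _, c12, fun z _ _ h1 _ => h1⟩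
  have m2 : u₂ ∈ s := (hsm _).2 ⟨hu₂, c02.symm, c12.symm, Commute.refl _, fun z _ _ _ h2 => h2⟩
  obtain ⟨W, hW, hsW⟩ := P.exists_maxSet (E := {z | z ∈ s}) sE scomm
  have tprod : ∀ m : List X, (m.map fun u => (τ u : G)).prod = ((ev τ m : ↥(Subgroup.centralizer
      ({d} : Set G))) : G) := by
    intro m
    induction m with
    | nil => rfl
    | cons a t ih => rw [List.map_cons, List.prod_cons, ih, ev_cons]; rfl
  refine ⟨s.map fun u => (τ u : G), ⟨hsn.map_on fun x hx y hy e => inj x (sE x hx) y (sE y hy) e,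
    fun y hy => ?_, fun y hy z hz => ?_⟩, by rw [List.length_map, hsl], ?_,
    List.mem_map_of_mem m0, List.mem_map_of_mem m1, List.mem_map_of_mem m2, fun y hy y0 y1 y2 z hz => ?_,
    fun l hl hlen hprod l0 l1 l2 z hz => ?_⟩
  · obtain ⟨u, hu, rfl⟩ := List.mem_map.1 hy
    exact (hlink _).2 ⟨u, sE u hu, rfl⟩
  · obtain ⟨u, hu, rfl⟩ := List.mem_map.1 hy
    obtain ⟨v, hv, rfl⟩ := List.mem_map.1 hz
    exact (comm_iff u (sE u hu) v (sE v hv)).2 (scomm u hu v hv)
  · rw [tprod, K.hexad_value P hτ hW hsn (fun y hy => hsW hy) hsl hsp]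
  · obtain ⟨w, hw, rfl⟩ := (hlink y).1 hy
    obtain ⟨v, hv, rfl⟩ := List.mem_map.1 hz
    exact (comm_iff w hw v (sE v hv)).2 (((hsm v).1 hv).2.2.2.2 w hw
      ((comm_iff w hw _ hu₀).1 y0) ((comm_iff w hw _ hu₁).1 y1) ((comm_iff w hw _ hu₂).1 y2))
  · -- another such list
    have hl' : ∀ x ∈ l, ∃ u ∈ E, x = (τ u : G) := fun x hx => (hlink x).1 (hl.mem x hx)
    choose! k hk1 hk2 using hl'
    set m := l.map k with hm
    have hmE : ∀ u ∈ m, u ∈ E := fun u hu => by
      obtain ⟨x, hx, rfl⟩ := List.mem_map.1 hu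
      exact hk1 x hx
    have hlm : l = m.map fun u => (τ u : G) := by
      rw [hm, List.map_map]
      conv_lhs => rw [← List.map_id l]
      exact List.map_congr_left fun x hx => hk2 x hx
    have hmn : m.Nodup := hl.nodup.map_on fun x hx y hy e => by rw [hk2 x hx, hk2 y hy, e]
    have hmc : ∀ u ∈ m, ∀ v ∈ m, Commute u v := fun u hu v hv => by
      obtain ⟨x, hx, rfl⟩ := List.mem_map.1 hu
      obtain ⟨y, hy, rfl⟩ := List.mem_map.1 hv
      refine (comm_iff _ (hk1 x hx) _ (hk1 y hy)).1 ?_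
      rw [← hk2 x hx, ← hk2 y hy]
      exact hl.comm x hx y hy
    have hmp : m.prod = 1 := by
      rw [← K.map_ev P hτ hmE, show ev τ m = ⟨d, hdC⟩ from Subtype.ext (by rw [← tprod, ← hlm, hprod]),
        K.map_d]
    have mem_m : ∀ u ∈ E, (τ u : G) ∈ l → u ∈ m := fun u hu hul => by
      rw [hlm, List.mem_map] at hul
      obtain ⟨v, hv, e⟩ := hul
      rwa [← inj v (hmE v hv) u hu e]
    have k0 := mem_m _ hu₀ l0
    have k1 := mem_m _ hu₁ l1
    have k2 := mem_m _ hu₂ l2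
    obtain ⟨w, hw, rfl⟩ : ∃ w ∈ m, (τ w : G) = z := by rw [hlm] at hz; exact List.mem_map.1 hz
    refine List.mem_map_of_mem ((hsm w).2 ⟨hmE w hw, hmc w hw _ k0, hmc w hw _ k1, hmc w hw _ k2,
      fun y hy y0 y1 y2 => ?_⟩)
    by_cases e0 : w = u₀
    · exact e0 ▸ y0
    by_cases e1 : w = u₁
    · exact e1 ▸ y1
    by_cases e2 : w = u₂
    · exact e2 ▸ y2
    have h1 : u₁ ∈ m.erase u₀ := (List.mem_erase_of_ne n01.symm).2 k1
    have h2 : u₂ ∈ (m.erase u₀).erase u₁ :=
      (List.mem_erase_of_ne n12.symm).2 ((List.mem_erase_of_ne n02.symm).2 k2)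
    set R := ((m.erase u₀).erase u₁).erase u₂ with hR
    have hperm : m.Perm (u₀ :: u₁ :: u₂ :: R) :=
      (List.perm_cons_erase k0).trans (((List.perm_cons_erase h1).trans
        ((List.perm_cons_erase h2).cons u₁)).cons u₀)
    have hpr : u₀ * (u₁ * (u₂ * R.prod)) = 1 := by
      rw [← List.prod_cons, ← List.prod_cons, ← List.prod_cons,
        ← hperm.prod_eq' (List.pairwise_of_forall_mem_list hmc), hmp]
    have hRp : R.prod = u₂⁻¹ * (u₁⁻¹ * u₀⁻¹) := by
      rw [← eq_inv_of_mul_eq_one_right hpr]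
      simp only [inv_mul_cancel_left]
    have hfR : Fac E R := by
      refine ⟨((hmn.erase u₀).erase u₁).erase u₂, fun x hx => ?_, fun x hx x' hx' => ?_⟩
      · exact hmE x (List.mem_of_mem_erase (List.mem_of_mem_erase (List.mem_of_mem_erase hx)))
      · exact hmc x (List.mem_of_mem_erase (List.mem_of_mem_erase (List.mem_of_mem_erase hx))) x'
          (List.mem_of_mem_erase (List.mem_of_mem_erase (List.mem_of_mem_erase hx')))
    have hlenR : R.length ≤ 3 := by
      have := hperm.length_eq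
      simp only [List.length_cons] at this
      rw [hm, List.length_map, hlen] at this
      omega
    refine (commute_prod hP hfR hlenR hy ?_ w ?_)
    · rw [hRp]
      exact y2.inv_right.mul_right (y1.inv_right.mul_right y0.inv_right)
    · exact (List.mem_erase_of_ne e2).2 ((List.mem_erase_of_ne e1).2 ((List.mem_erase_of_ne e0).2 hw))

end Hyp

end Cfsg.Agent.FiTrans
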