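import Cfsg.Agent.FiTrans.Class

/-!
The projection of a quasisimple centraliser of an involution onto its quotient by the involution.
-/

set_option autoImplicit false

namespace Cfsg.Agent.FiTrans

open Cfsg.Agent.TTLink Cfsg.Agent.ThreeTransp45

variable {G : Type*} [Group G] {d : G}

theorem dcover_quot (hd : orderOf d = 2) (hq : Cfsg.IsQuasisimple (Subgroup.centralizer ({d} : Set G)))
    [((Subgroup.zpowers d).subgroupOf (Subgroup.centralizer ({d} : Set G))).Normal]
    (hdC : d ∈ Subgroup.centralizer ({d} : Set G)) :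
    DCover (QuotientGroup.mk' ((Subgroup.zpowers d).subgroupOf (Subgroup.centralizer ({d} : Set G))))
      ⟨d, hdC⟩ := by
  have hd2 : d * d = 1 := by rw [← pow_two, ← hd, pow_orderOf_eq_one]
  refine ⟨QuotientGroup.mk'_surjective _, Subtype.ext hd2, fun h => ?_,
    fun c => Subtype.ext (Subgroup.mem_centralizer_singleton_iff.1 c.2).symm, fun c => ?_,
    (Group.isPerfect_def).1 hq.1⟩
  · rw [show d = 1 from congrArg Subtype.val h, orderOf_one] at hd; norm_num at hd
  · rw [QuotientGroup.mk'_apply, QuotientGroup.eq_one_iff, Subgroup.mem_subgroupOf]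
    constructor
    · intro hc
      obtain ⟨k, hk⟩ := Subgroup.mem_zpowers_iff.1 hc
      rcases Int.even_or_odd k with ⟨j, rfl⟩ | ⟨j, rfl⟩
      · left
        refine Subtype.ext (hk.symm.trans ?_)
        rw [← two_mul, zpow_mul, zpow_two, hd2, one_zpow]; rfl
      · right
        refine Subtype.ext (hk.symm.trans ?_)
        rw [zpow_add_one, zpow_mul, zpow_two, hd2, one_zpow, one_mul]
    · rintro (rfl | rfl)
      · exact one_mem _
      · exact Subgroup.mem_zpowers d

variable [Finite G]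

/-- Isomorphisms carry the hypotheses on the class along. -/
theorem m22Prim_image {Y Z : Type*} [Group Y] [Group Z] [Finite Z] [Finite Y] (e : Y ≃* Z) {E : Set Y}
    (P : M22Prim E) : M22Prim (e '' E) := by
  obtain ⟨hs, ⟨a, ha, hEa⟩, hc⟩ := P.hyp.cls
  refine m22Prim_of_class ⟨⟨?_, ?_⟩, ⟨e a, ⟨a, ha, rfl⟩, ?_⟩, ?_⟩ (typeM22_equiv e rfl P.type)
  · rintro _ ⟨x, hx, rfl⟩
    rw [MulEquiv.orderOf_eq]
    exact hs.1 x hx
  · rintro _ ⟨x, hx, rfl⟩ _ ⟨y, hy, rfl⟩
    rw [← map_mul, ← map_pow, ← map_pow, map_eq_one_iff e e.injective, map_eq_one_iff e e.injective]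
    exact hs.2 x hx y hy
  · rw [hEa]
    ext y
    constructor
    · rintro ⟨x, hx, rfl⟩
      exact e.toMonoidHom.map_isConj hx
    · intro hy
      refine ⟨e.symm y, ?_, e.apply_symm_apply y⟩
      have := e.symm.toMonoidHom.map_isConj (show IsConj (e a) y from hy)
      rw [MulEquiv.coe_toMonoidHom, e.symm_apply_apply] at this
      exact this
  · rw [show (⇑e) = ⇑e.toMonoidHom from rfl, ← MonoidHom.map_closure, hc]
    exact Subgroup.map_top_of_surjective _ e.surjective

/-- The hypotheses from a quasisimple centraliser. -/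
theorem hyp_quot (hd : orderOf d = 2) (hq : Cfsg.IsQuasisimple (Subgroup.centralizer ({d} : Set G)))
    [((Subgroup.zpowers d).subgroupOf (Subgroup.centralizer ({d} : Set G))).Normal]
    {E : Set (↥(Subgroup.centralizer ({d} : Set G)) ⧸
      (Subgroup.zpowers d).subgroupOf (Subgroup.centralizer ({d} : Set G)))} (P : M22Prim E)
    (hnwc : ∃ g : G, g * d * g⁻¹ ∈ Subgroup.centralizer ({d} : Set G) ∧ g * d * g⁻¹ ≠ d) :
    Hyp d (QuotientGroup.mk' ((Subgroup.zpowers d).subgroupOf (Subgroup.centralizer ({d} : Set G)))) E :=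
  ⟨⟨Subgroup.mem_centralizer_singleton_iff.2 rfl, dcover_quot hd hq _⟩, P, hnwc⟩

end Cfsg.Agent.FiTrans
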